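import Cfsg.Agent.Lib.Chev.OrbE6
import Cfsg.Agent.Lib.Chev.Chain
import Cfsg.Agent.Lib.Chev.RelE6
import Cfsg.Agent.Lib.Chev.RootE6

namespace Cfsg.Agent.Lib.Chev.OrdE6
open Cfsg.Agent.Lib.Chev Cfsg.Lie Cfsg.Agent.Lib.Chev.OrbE6

set_option maxRecDepth 100000

theorem poly0 (q : ℕ) : (List.map (fun e => q ^ e) ds0).sum = 1 * q ^ 0 + 1 * q ^ 1 := by
  simp only [ds0, List.map_cons, List.map_nil, List.sum_cons, List.sum_nil]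
  ring

theorem poly1 (q : ℕ) : (List.map (fun e => q ^ e) ds1).sum = 1 * q ^ 0 + 1 * q ^ 1 + 1 * q ^ 2 := by
  simp only [ds1, List.map_cons, List.map_nil, List.sum_cons, List.sum_nil]
  ring

theorem poly2 (q : ℕ) : (List.map (fun e => q ^ e) ds2).sum = 1 * q ^ 0 + 1 * q ^ 1 + 1 * q ^ 2 + 1 * q ^ 3 := by
  simp only [ds2, List.map_cons, List.map_nil, List.sum_cons, List.sum_nil]
  ring

theorem poly3 (q : ℕ) : (List.map (fun e => q ^ e) ds3).sum = 1 * q ^ 0 + 1 * q ^ 1 + 1 * q ^ 2 + 1 * q ^ 3 + 1 * q ^ 4 := by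
  simp only [ds3, List.map_cons, List.map_nil, List.sum_cons, List.sum_nil]
  ring

theorem poly4 (q : ℕ) : (List.map (fun e => q ^ e) ds4).sum = 1 * q ^ 0 + 1 * q ^ 1 + 1 * q ^ 2 + 2 * q ^ 3 + 2 * q ^ 4 + 2 * q ^ 5 + 2 * q ^ 6 + 2 * q ^ 7 + 1 * q ^ 8 + 1 * q ^ 9 + 1 * q ^ 10 := by
  simp only [ds4, List.map_cons, List.map_nil, List.sum_cons, List.sum_nil]
  ring

theorem poly5 (q : ℕ) : (List.map (fun e => q ^ e) ds5).sum = 1 * q ^ 0 + 1 * q ^ 1 + 1 * q ^ 2 + 1 * q ^ 3 + 2 * q ^ 4 + 2 * q ^ 5 + 2 * q ^ 6 + 2 * q ^ 7 + 3 * q ^ 8 + 2 * q ^ 9 + 2 * q ^ 10 + 2 * q ^ 11 + 2 * q ^ 12 + 1 * q ^ 13 + 1 * q ^ 14 + 1 * q ^ 15 + 1 * q ^ 16 := by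
  simp only [ds5, List.map_cons, List.map_nil, List.sum_cons, List.sum_nil]
  ring

theorem poin_univ {T : Tabs} {X : Extra} (hF : Full T X RootE6T.R chevE6) (q : ℕ) :
    hF.poin Set.univ q = (1 * q ^ 0 + 1 * q ^ 1 + 1 * q ^ 2 + 1 * q ^ 3 + 2 * q ^ 4 + 2 * q ^ 5 + 2 * q ^ 6 + 2 * q ^ 7 + 3 * q ^ 8 + 2 * q ^ 9 + 2 * q ^ 10 + 2 * q ^ 11 + 2 * q ^ 12 + 1 * q ^ 13 + 1 * q ^ 14 + 1 * q ^ 15 + 1 * q ^ 16) * (1 * q ^ 0 + 1 * q ^ 1 + 1 * q ^ 2 + 2 * q ^ 3 + 2 * q ^ 4 + 2 * q ^ 5 + 2 * q ^ 6 + 2 * q ^ 7 + 1 * q ^ 8 + 1 * q ^ 9 + 1 * q ^ 10) * (1 * q ^ 0 + 1 * q ^ 1 + 1 * q ^ 2 + 1 * q ^ 3 + 1 * q ^ 4) * (1 * q ^ 0 + 1 * q ^ 1 + 1 * q ^ 2 + 1 * q ^ 3) * (1 * q ^ 0 + 1 * q ^ 1 + 1 * q ^ 2) * (1 * q ^ 0 + 1 * q ^ 1) := by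
  have e : hF.poin Set.univ q = hF.poin {x | x ∈ [5, 4, 1, 3, 2, 0]} q := by
    apply hF.poin_congr
    intro j hj
    have hj' : j < 6 := hj
    simp only [Set.mem_univ, Set.mem_ofPred_eq, List.mem_cons, List.not_mem_nil, or_false, true_iff]
    omega
  rw [e]
  rw [hF.poin_of_orb (j := 5) (Ls := [4, 1, 3, 2, 0]) (by decide) (by simp) cm_ok ok5 q, poly5]
  rw [hF.poin_of_orb (j := 4) (Ls := [1, 3, 2, 0]) (by decide) (by simp) cm_ok ok4 q, poly4]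
  rw [hF.poin_of_orb (j := 1) (Ls := [3, 2, 0]) (by decide) (by simp) cm_ok ok3 q, poly3]
  rw [hF.poin_of_orb (j := 3) (Ls := [2, 0]) (by decide) (by simp) cm_ok ok2 q, poly2]
  rw [hF.poin_of_orb (j := 2) (Ls := [0]) (by decide) (by simp) cm_ok ok1 q, poly1]
  rw [hF.poin_of_orb (j := 0) (Ls := []) (by decide) (by simp) cm_ok ok0 q, poly0]
  rw [hF.poin_nil, mul_one]
  simp only [mul_assoc]

theorem identity (q : ℕ) (hq : 1 ≤ q) : (q - 1) ^ chevE6.rank * ((1 * q ^ 0 + 1 * q ^ 1 + 1 * q ^ 2 + 1 * q ^ 3 + 2 * q ^ 4 + 2 * q ^ 5 + 2 * q ^ 6 + 2 * q ^ 7 + 3 * q ^ 8 + 2 * q ^ 9 + 2 * q ^ 10 + 2 * q ^ 11 + 2 * q ^ 12 + 1 * q ^ 13 + 1 * q ^ 14 + 1 * q ^ 15 + 1 * q ^ 16) * (1 * q ^ 0 + 1 * q ^ 1 + 1 * q ^ 2 + 2 * q ^ 3 + 2 * q ^ 4 + 2 * q ^ 5 + 2 * q ^ 6 + 2 * q ^ 7 + 1 * q ^ 8 + 1 * q ^ 9 + 1 * q ^ 10) *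 (1 * q ^ 0 + 1 * q ^ 1 + 1 * q ^ 2 + 1 * q ^ 3 + 1 * q ^ 4) * (1 * q ^ 0 + 1 * q ^ 1 + 1 * q ^ 2 + 1 * q ^ 3) * (1 * q ^ 0 + 1 * q ^ 1 + 1 * q ^ 2) * (1 * q ^ 0 + 1 * q ^ 1)) = (q ^ 2 - 1) * (q ^ 5 - 1) * (q ^ 6 - 1) * (q ^ 8 - 1) * (q ^ 9 - 1) * (q ^ 12 - 1) := by
  show (q - 1) ^ 6 * _ = _
  have hc : ∀ d : ℕ, ((q ^ d - 1 : ℕ) : ℤ) = (q : ℤ) ^ d - 1 := by
    intro d
    rw [Nat.cast_sub (Nat.one_le_pow _ _ hq)]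
    push_cast
    rfl
  have hc1 : ((q - 1 : ℕ) : ℤ) = (q : ℤ) - 1 := by
    rw [Nat.cast_sub hq]
    rfl
  zify
  rw [hc1]
  simp only [hc]
  ring

variable {F : Type*} [Field F] [Fintype F]

theorem card_group {T : Tabs} {X : Extra} (hF : Full T X RootE6T.R chevE6) :
    Nat.gcd 3 (Fintype.card F - 1) * Nat.card ↥(chevE6.group F) = Fintype.card F ^ 36 * (Fintype.card F ^ 2 - 1) * (Fintype.card F ^ 5 - 1) * (Fintype.card F ^ 6 - 1) * (Fintype.card F ^ 8 - 1) * (Fintype.card F ^ 9 - 1) * (Fintype.card F ^ 12 - 1) := by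
  have h1 := hF.card_group_eq (F := F)
  rw [poin_univ hF] at h1
  have h2 := Full.torus_card_E6 (F := F) hF
  have h3 := identity (Fintype.card F) Fintype.card_pos
  have h6 := Full.combine h1 h2 h3
  rw [h6]
  show Fintype.card F ^ 36 * _ = _
  simp only [mul_assoc]

end Cfsg.Agent.Lib.Chev.OrdE6
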