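import Cfsg.Agent.Lib.Chev.TwF4B
import Cfsg.Agent.Lib.StemSylow

/-!
# Central extensions of odd order: lifting 2-subgroups, and a Bruhat argument

For a central extension `σ : Γ → G` with kernel of odd exponent, every 2-subgroup `Q` of `G` has a unique lift `Lf σ Q`, consisting
of the 2-elements over `Q`.  A group with a "rank two" system of rank one subgroups has no such stem extensions, provided the rank one
subgroups have cyclic Sylow subgroups for the prime in question.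
-/

set_option autoImplicit false
set_option linter.unusedSectionVars false
set_option linter.unusedVariables false
set_option linter.unnecessarySimpa false

namespace Cfsg.Agent.Lib.Chev.SchOdd

open scoped commutatorElement

variable {Γ G : Type*} [Group Γ] [Group G] {σ : Γ →* G}

/-- `x` is a 2-element. -/
def T2 {Y : Type*} [Monoid Y] (x : Y) : Prop := ∃ k : ℕ, x ^ (2 ^ k) = 1

theorem T2_of_le {Y : Type*} [Monoid Y] {x : Y} {a : ℕ} (h : x ^ (2 ^ a) = 1) (b : ℕ) (hb : a ≤ b) : x ^ (2 ^ b) = 1 := by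
  obtain ⟨c, rfl⟩ := Nat.exists_eq_add_of_le hb
  rw [pow_add, pow_mul, h, one_pow]

/-- A central extension with kernel of odd exponent. -/
structure Ext (σ : Γ →* G) (r : ℕ) : Prop where
  surj : Function.Surjective σ
  cen : ∀ k, σ k = 1 → ∀ x, k * x = x * k
  odd : Odd r
  ker : ∀ k, σ k = 1 → k ^ r = 1

/-- The lift of a subgroup. -/
def Lf (σ : Γ →* G) (Q : Subgroup G) : Subgroup Γ := Subgroup.closure {x | σ x ∈ Q ∧ T2 x}

/-- The subgroup generated by two lifts. -/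
def Lt (σ : Γ →* G) (A B : Subgroup G) : Subgroup Γ := Subgroup.closure ((Lf σ A : Set Γ) ∪ (Lf σ B : Set Γ))

/-- The subgroup generated by two subgroups. -/
def Lb (A B : Subgroup G) : Subgroup G := Subgroup.closure ((A : Set G) ∪ (B : Set G))

variable {r : ℕ} (hE : Ext σ r)

include hE

/-- Uniqueness of the lift of a 2-element. -/
theorem T2_unique {x y : Γ} (h : σ x = σ y) (hx : T2 x) (hy : T2 y) : x = y := by
  obtain ⟨a, ha⟩ := hx
  obtain ⟨b, hb⟩ := hy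
  set c := x⁻¹ * y with hc
  have hc1 : σ c = 1 := by
    rw [hc, map_mul, map_inv, h, inv_mul_cancel]
  have ey : y = x * c := by
    rw [hc]
    group
  have hcomm : Commute x c := (hE.cen c hc1 x).symm
  have h1 : c ^ (2 ^ (a + b)) = 1 := by
    have h2 := T2_of_le ha (a + b) (by omega)
    have h3 := T2_of_le hb (a + b) (by omega)
    rw [ey, hcomm.mul_pow, h2, one_mul] at h3
    exact h3
  have h2 := hE.ker c hc1
  have h3 : Nat.gcd (2 ^ (a + b)) r = 1 := by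
    apply Nat.Coprime.pow_left
    exact (Nat.coprime_two_left).2 hE.odd
  have h4 := pow_gcd_eq_one.2 ⟨h1, h2⟩
  rw [h3, pow_one] at h4
  rw [ey, h4, mul_one]

section lift

variable [Finite Γ] {Q : Subgroup G} (hQ : ∀ q ∈ Q, T2 q)

include hQ

/-- A Sylow subgroup of the inverse image is a lift. -/
theorem exists_S : ∃ S : Subgroup Γ, (∀ x ∈ S, σ x ∈ Q ∧ T2 x) ∧ (∀ q ∈ Q, ∃ x ∈ S, σ x = q) := by
  classical
  haveI : Fact (Nat.Prime 2) := ⟨Nat.prime_two⟩
  let Qh : Subgroup Γ := Q.comap σ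
  let P : Sylow 2 ↥Qh := default
  let σ' : ↥Qh →* ↥Q := (σ.comp Qh.subtype).codRestrict Q (fun x => x.2)
  have hs : Function.Surjective σ' := by
    rintro ⟨q, hq⟩
    obtain ⟨x, rfl⟩ := hE.surj q
    exact ⟨⟨x, hq⟩, rfl⟩
  have hPQ : IsPGroup 2 ↥Q := by
    rintro ⟨q, hq⟩
    obtain ⟨k, hk⟩ := hQ q hq
    exact ⟨k, Subtype.ext hk⟩
  have htop : (P.mapSurjective hs : Subgroup ↥Q) = ⊤ := by
    have h1 : IsPGroup 2 ↥(⊤ : Subgroup ↥Q) := hPQ.to_subgroup ⊤
    exact ((P.mapSurjective hs).is_maximal' h1 le_top).symm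
  refine ⟨P.1.map Qh.subtype, ?_, ?_⟩
  · rintro _ ⟨y, hy, rfl⟩
    refine ⟨y.2, ?_⟩
    obtain ⟨k, hk⟩ := P.2 ⟨y, hy⟩
    exact ⟨k, by simpa using congrArg (fun a : ↥P.1 => ((a.1 : ↥Qh) : Γ)) hk⟩
  · intro q hq
    have h1 : (⟨q, hq⟩ : ↥Q) ∈ (P.mapSurjective hs : Subgroup ↥Q) := by
      rw [htop]
      exact Subgroup.mem_top _
    obtain ⟨y, hy, e⟩ := h1
    exact ⟨y.1, ⟨y, hy, rfl⟩, congrArg Subtype.val e⟩

theorem mem_Lf {x : Γ} : x ∈ Lf σ Q ↔ σ x ∈ Q ∧ T2 x := by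
  obtain ⟨S, h1, h2⟩ := exists_S hE hQ
  constructor
  · intro hx
    have hle : Lf σ Q ≤ S := by
      unfold Lf
      rw [Subgroup.closure_le]
      rintro y ⟨hy, hy2⟩
      obtain ⟨s, hs, e⟩ := h2 _ hy
      have := T2_unique hE e (h1 s hs).2 hy2
      rw [SetLike.mem_coe, ← this]
      exact hs
    exact h1 x (hle hx)
  · intro hx
    exact Subgroup.subset_closure hx

theorem exists_Lf {q : G} (hq : q ∈ Q) : ∃ x ∈ Lf σ Q, σ x = q := by
  obtain ⟨S, h1, h2⟩ := exists_S hE hQ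
  obtain ⟨s, hs, e⟩ := h2 q hq
  exact ⟨s, (mem_Lf hE hQ).2 (h1 s hs), e⟩

end lift

omit hE in
theorem T2_conj {x : Γ} (hx : T2 x) (g : Γ) : T2 (g * x * g⁻¹) := by
  obtain ⟨k, hk⟩ := hx
  exact ⟨k, by rw [conj_pow, hk]; group⟩

section lift2

variable [Finite Γ] {Q Q' : Subgroup G} (hQ : ∀ q ∈ Q, T2 q) (hQ' : ∀ q ∈ Q', T2 q)

include hQ hQ'

theorem Lf_conj {x : Γ} (hx : x ∈ Lf σ Q) (g : Γ) (hg : ∀ q ∈ Q, σ g * q * (σ g)⁻¹ ∈ Q') : g * x * g⁻¹ ∈ Lf σ Q' := by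
  obtain ⟨h1, h2⟩ := (mem_Lf hE hQ).1 hx
  refine (mem_Lf hE hQ').2 ⟨?_, T2_conj h2 g⟩
  rw [map_mul, map_mul, map_inv]
  exact hg _ h1

theorem Lf_mono (hle : Q ≤ Q') {x : Γ} (hx : x ∈ Lf σ Q) : x ∈ Lf σ Q' := by
  obtain ⟨h1, h2⟩ := (mem_Lf hE hQ).1 hx
  exact (mem_Lf hE hQ').2 ⟨hle h1, h2⟩

theorem Lf_eq {x y : Γ} (hx : x ∈ Lf σ Q) (hy : y ∈ Lf σ Q') (e : σ x = σ y) : x = y :=
  T2_unique hE e ((mem_Lf hE hQ).1 hx).2 ((mem_Lf hE hQ').1 hy).2

end lift2

section rk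

variable [Finite Γ] {A B : Subgroup G} (hA : ∀ q ∈ A, T2 q) (hB : ∀ q ∈ B, T2 q)

include hA hB

theorem Lt_left {x : Γ} (hx : x ∈ Lf σ A) : x ∈ Lt σ A B := Subgroup.subset_closure (Or.inl hx)

theorem Lt_right {x : Γ} (hx : x ∈ Lf σ B) : x ∈ Lt σ A B := Subgroup.subset_closure (Or.inr hx)

theorem map_Lt {x : Γ} (hx : x ∈ Lt σ A B) : σ x ∈ Lb A B := by
  unfold Lt at hx
  induction hx using Subgroup.closure_induction with
  | mem y hy =>
    rcases hy with hy | hy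
    · exact Subgroup.subset_closure (Or.inl ((mem_Lf hE hA).1 hy).1)
    · exact Subgroup.subset_closure (Or.inr ((mem_Lf hE hB).1 hy).1)
  | one => rw [map_one]; exact Subgroup.one_mem _
  | mul a b _ _ ha hb => rw [map_mul]; exact Subgroup.mul_mem _ ha hb
  | inv a _ ha => rw [map_inv]; exact Subgroup.inv_mem _ ha

theorem exists_Lt {y : G} (hy : y ∈ Lb A B) : ∃ x ∈ Lt σ A B, σ x = y := by
  unfold Lb at hy
  induction hy using Subgroup.closure_induction with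
  | mem y hy =>
    rcases hy with hy | hy
    · obtain ⟨x, hx, e⟩ := exists_Lf hE hA hy
      exact ⟨x, Lt_left hE hA hB hx, e⟩
    · obtain ⟨x, hx, e⟩ := exists_Lf hE hB hy
      exact ⟨x, Lt_right hE hA hB hx, e⟩
  | one => exact ⟨1, Subgroup.one_mem _, map_one _⟩
  | mul a b _ _ ha hb =>
    obtain ⟨x, hx, rfl⟩ := ha
    obtain ⟨x', hx', rfl⟩ := hb
    exact ⟨x * x', Subgroup.mul_mem _ hx hx', map_mul _ _ _⟩
  | inv a _ ha =>
    obtain ⟨x, hx, rfl⟩ := ha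
    exact ⟨x⁻¹, Subgroup.inv_mem _ hx, map_inv _ _⟩

/-- Conjugation by an element normalising the two subgroups. -/
theorem Lt_conj {x : Γ} (hx : x ∈ Lt σ A B) (g : Γ) (hgA : ∀ q ∈ A, σ g * q * (σ g)⁻¹ ∈ A) (hgB : ∀ q ∈ B, σ g * q * (σ g)⁻¹ ∈ B) :
    g * x * g⁻¹ ∈ Lt σ A B := by
  unfold Lt at hx
  induction hx using Subgroup.closure_induction with
  | mem y hy =>
    rcases hy with hy | hy
    · exact Lt_left hE hA hB (Lf_conj hE hA hA hy g hgA)
    · exact Lt_right hE hA hB (Lf_conj hE hB hB hy g hgB)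
  | one => simp [Subgroup.one_mem]
  | mul a b _ _ ha hb =>
    have e : g * (a * b) * g⁻¹ = (g * a * g⁻¹) * (g * b * g⁻¹) := by group
    rw [e]
    exact Subgroup.mul_mem _ ha hb
  | inv a _ ha =>
    have e : g * a⁻¹ * g⁻¹ = (g * a * g⁻¹)⁻¹ := by group
    rw [e]
    exact Subgroup.inv_mem _ ha

/-- The elements of `Lt` are 2-elements modulo commutators. -/
theorem T2_abel {x : Γ} (hx : x ∈ Lt σ A B) : T2 (Abelianization.of (⟨x, hx⟩ : ↥(Lt σ A B))) := by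
  have key : ∀ x (hx : x ∈ Subgroup.closure ((Lf σ A : Set Γ) ∪ (Lf σ B : Set Γ))),
      T2 (Abelianization.of (⟨x, hx⟩ : ↥(Subgroup.closure ((Lf σ A : Set Γ) ∪ (Lf σ B : Set Γ))))) := by
    intro x hx
    induction hx using Subgroup.closure_induction with
    | mem y hy =>
      have hy2 : T2 y := by
        rcases hy with hy | hy
        · exact ((mem_Lf hE hA).1 hy).2
        · exact ((mem_Lf hE hB).1 hy).2
      obtain ⟨k, hk⟩ := hy2
      refine ⟨k, ?_⟩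
      rw [← map_pow]
      have : (⟨y, Subgroup.subset_closure hy⟩ : ↥(Subgroup.closure ((Lf σ A : Set Γ) ∪ (Lf σ B : Set Γ)))) ^ (2 ^ k) = 1 := Subtype.ext hk
      rw [this, map_one]
    | one =>
      exact ⟨0, by
        have : (⟨1, Subgroup.one_mem _⟩ : ↥(Subgroup.closure ((Lf σ A : Set Γ) ∪ (Lf σ B : Set Γ)))) = 1 := rfl
        rw [this, map_one, one_pow]⟩
    | mul a b ha hb iha ihb =>
      obtain ⟨k, hk⟩ := iha
      obtain ⟨l, hl⟩ := ihb
      refine ⟨k + l, ?_⟩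
      have e : (⟨a * b, Subgroup.mul_mem _ ha hb⟩ : ↥(Subgroup.closure ((Lf σ A : Set Γ) ∪ (Lf σ B : Set Γ)))) = ⟨a, ha⟩ * ⟨b, hb⟩ := rfl
      rw [e, map_mul, mul_pow, T2_of_le hk _ (by omega), T2_of_le hl _ (by omega), one_mul]
    | inv a ha iha =>
      obtain ⟨k, hk⟩ := iha
      refine ⟨k, ?_⟩
      have e : (⟨a⁻¹, Subgroup.inv_mem _ ha⟩ : ↥(Subgroup.closure ((Lf σ A : Set Γ) ∪ (Lf σ B : Set Γ)))) = (⟨a, ha⟩)⁻¹ := rfl
      rw [e, map_inv, inv_pow, hk, inv_one]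
  exact key x hx

/-- The kernel in `Lt` lies in its commutator subgroup. -/
theorem ker_le_comm {x : Γ} (hx : x ∈ Lt σ A B) (hx1 : σ x = 1) :
    (⟨x, hx⟩ : ↥(Lt σ A B)) ∈ commutator ↥(Lt σ A B) := by
  obtain ⟨k, hk⟩ := T2_abel hE hA hB hx
  have h1 : (⟨x, hx⟩ : ↥(Lt σ A B)) ^ r = 1 := Subtype.ext (hE.ker x hx1)
  have h2 : (Abelianization.of (⟨x, hx⟩ : ↥(Lt σ A B))) ^ r = 1 := by
    rw [← map_pow, h1, map_one]
  have h3 : Nat.gcd (2 ^ k) r = 1 := by
    apply Nat.Coprime.pow_left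
    exact (Nat.coprime_two_left).2 hE.odd
  have h4 := pow_gcd_eq_one.2 ⟨hk, h2⟩
  rw [h3, pow_one] at h4
  exact (QuotientGroup.eq_one_iff _).1 h4

/-- If the subgroups of order a power of `r` in `Lb A B` are cyclic then `Lt A B` meets the kernel trivially. -/
theorem ker_Lt [Finite G] [hr : Fact r.Prime] (hc : ∀ R : Subgroup G, R ≤ Lb A B → IsPGroup r R → IsCyclic R) {z : Γ} (hz : z ∈ Lt σ A B) (hz1 : σ z = 1) : z = 1 := by
  classical
  by_contra hne
  let L := Lt σ A B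
  let σ' : ↥L →* G := σ.comp L.subtype
  let τ : ↥L →* ↥σ'.range := σ'.rangeRestrict
  have hstem : Cfsg.IsStemExtension τ := by
    refine ⟨σ'.rangeRestrict_surjective, ?_, ?_⟩
    · rintro ⟨x, hx⟩ h1
      have h2 : σ x = 1 := congrArg Subtype.val (MonoidHom.mem_ker.1 h1)
      refine Subgroup.mem_center_iff.2 (fun g => Subtype.ext ?_)
      exact (hE.cen x h2 g.1).symm
    · rintro ⟨x, hx⟩ h1
      have h2 : σ x = 1 := congrArg Subtype.val (MonoidHom.mem_ker.1 h1)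
      exact ker_le_comm hE hA hB hx h2
  let zz : ↥L := ⟨z, hz⟩
  have hzz : zz ^ r = 1 := Subtype.ext (hE.ker z hz1)
  have hzo : orderOf zz = r := orderOf_eq_prime hzz (fun h => hne (congrArg Subtype.val h))
  have hzp : IsPGroup r (Subgroup.zpowers zz) := by
    apply IsPGroup.of_card (n := 1)
    rw [pow_one, Nat.card_zpowers, hzo]
  obtain ⟨P₁, hP₁⟩ := hzp.exists_le_sylow
  have hzP : zz ∈ (P₁ : Subgroup ↥L) := hP₁ (Subgroup.mem_zpowers zz)
  have hker : zz ∈ τ.ker := by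
    apply MonoidHom.mem_ker.2
    exact Subtype.ext hz1
  have hcyc : IsCyclic (((P₁ : Subgroup ↥L).map τ : Subgroup ↥σ'.range)) := by
    let R : Subgroup G := ((P₁ : Subgroup ↥L).map τ).map σ'.range.subtype
    have hR : R ≤ Lb A B := by
      rintro _ ⟨_, ⟨x, hx, rfl⟩, rfl⟩
      exact map_Lt hE hA hB x.2
    have hRp : IsPGroup r R := ((P₁.2.map τ).map σ'.range.subtype)
    haveI := hc R hR hRp
    let f : ↥((P₁ : Subgroup ↥L).map τ) →* ↥R :=
      { toFun := fun y => ⟨y.1.1, ⟨y.1, y.2, rfl⟩⟩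
        map_one' := rfl
        map_mul' := fun _ _ => rfl }
    exact isCyclic_of_injective f (fun a b e => by
      have h : a.1.1 = b.1.1 := congrArg (fun y : ↥R => y.1) e
      exact Subtype.ext (Subtype.ext h))
  exact hne (congrArg Subtype.val (StemSylow.crit_cyclic hstem P₁ hcyc hker hzP))

end rk

end Cfsg.Agent.Lib.Chev.SchOdd
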