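import Cfsg.Agent.Lib.Chev.SchOdd

/-!
# Central extensions of odd order: the Bruhat argument
-/

set_option autoImplicit false
set_option linter.unusedSectionVars false
set_option linter.unusedVariables false
set_option linter.unnecessarySimpa false

namespace Cfsg.Agent.Lib.Chev.SchOdd

open scoped commutatorElement

variable {Γ G : Type*} [Group Γ] [Group G] {σ : Γ →* G}

/-- The data of the Bruhat argument. -/
structure BD (U H N : Subgroup G) (Ui Vi Qi : Fin 2 → Subgroup G) (n : Fin 2 → G) (φ : ↥N →* DihedralGroup 8) : Prop where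
  hU : ∀ x ∈ U, T2 x
  hV : ∀ i, ∀ x ∈ Vi i, T2 x
  Ui_le : ∀ i, Ui i ≤ U
  Qi_le : ∀ i, Qi i ≤ U
  fac : ∀ i, ∀ u ∈ U, ∃ a ∈ Ui i, ∃ b ∈ Qi i, u = a * b
  nrmQ : ∀ i, ∀ l ∈ Lb (Ui i) (Vi i), ∀ q ∈ Qi i, l * q * l⁻¹ ∈ Qi i
  rk1 : ∀ i, ∀ x ∈ Lb (Ui i) (Vi i), ∃ a ∈ Ui i, ∃ m ∈ N, ∃ b ∈ Ui i, x = a * m * b
  nN : ∀ i, n i ∈ N
  nL : ∀ i, n i ∈ Lb (Ui i) (Vi i)
  hNL : ∀ i, ∀ x ∈ Lb (Ui i) (Vi i), x ∈ N → x ∈ H ∨ (n i)⁻¹ * x ∈ H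
  dich : ∀ i, ∀ m ∈ N, (∀ u ∈ Ui i, m⁻¹ * u * m ∈ U) ∨ (∀ u ∈ Ui i, (m⁻¹ * n i) * u * (m⁻¹ * n i)⁻¹ ∈ U)
  gen : ∀ x : G, x ∈ Subgroup.closure {y | ∃ i : Fin 2, y ∈ Lb (Ui i) (Vi i)}
  UN : ∀ x ∈ U, x ∈ N → x = 1
  HN : H ≤ N
  Hcomm : ∀ a ∈ H, ∀ b ∈ H, a * b = b * a
  NH : ∀ m ∈ N, ∀ h ∈ H, m * h * m⁻¹ ∈ H
  HU : ∀ i, ∀ h ∈ H, ∀ u ∈ Ui i, h * u * h⁻¹ ∈ Ui i
  HV : ∀ i, ∀ h ∈ H, ∀ u ∈ Vi i, h * u * h⁻¹ ∈ Vi i
  T01 : ∀ x, x ∈ Lb (Ui 0) (Vi 0) → x ∈ Lb (Ui 1) (Vi 1) → x ∈ H → x = 1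
  φker : ∀ x (hx : x ∈ N), φ ⟨x, hx⟩ = 1 ↔ x ∈ H
  φ0 : ∀ h, φ ⟨n 0, h⟩ = DihedralGroup.sr 0
  φ1 : ∀ h, φ ⟨n 1, h⟩ = DihedralGroup.sr 1
  wU : ∀ u ∈ Ui 0, (n 1 * n 0 * n 1 * n 0 * n 1 * n 0 * n 1) * u * (n 1 * n 0 * n 1 * n 0 * n 1 * n 0 * n 1)⁻¹ ∈ Ui 0
  wV : ∀ u ∈ Vi 0, (n 1 * n 0 * n 1 * n 0 * n 1 * n 0 * n 1) * u * (n 1 * n 0 * n 1 * n 0 * n 1 * n 0 * n 1)⁻¹ ∈ Vi 0

/-- The subgroup of the lifts of the monomial elements. -/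
def Nz (σ : Γ →* G) (Ui Vi : Fin 2 → Subgroup G) (N : Subgroup G) : Subgroup Γ :=
  Subgroup.closure {x | ∃ i : Fin 2, x ∈ Lt σ (Ui i) (Vi i) ∧ σ x ∈ N}

/-- The lifts of the torus of a rank one subgroup. -/
def TT (σ : Γ →* G) (Ui Vi : Fin 2 → Subgroup G) (H : Subgroup G) (i : Fin 2) : Subgroup Γ :=
  Lt σ (Ui i) (Vi i) ⊓ H.comap σ

/-- The product of two commuting subgroups. -/
def prodSub (A B : Subgroup Γ) (h : ∀ a ∈ A, ∀ b ∈ B, a * b = b * a) : Subgroup Γ where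
  carrier := {x | ∃ a ∈ A, ∃ b ∈ B, x = a * b}
  mul_mem' := by
    rintro _ _ ⟨a, ha, b, hb, rfl⟩ ⟨a', ha', b', hb', rfl⟩
    refine ⟨a * a', A.mul_mem ha ha', b * b', B.mul_mem hb hb', ?_⟩
    calc a * b * (a' * b') = a * (b * a') * b' := by simp only [mul_assoc]
      _ = a * (a' * b) * b' := by rw [h a' ha' b hb]
      _ = _ := by simp only [mul_assoc]
  one_mem' := ⟨1, A.one_mem, 1, B.one_mem, by simp⟩
  inv_mem' := by
    rintro _ ⟨a, ha, b, hb, rfl⟩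
    refine ⟨a⁻¹, A.inv_mem ha, b⁻¹, B.inv_mem hb, ?_⟩
    rw [mul_inv_rev]
    exact (h a⁻¹ (A.inv_mem ha) b⁻¹ (B.inv_mem hb)).symm

/-- The relations in the quotient. -/
theorem braid_rel {W : Type*} [Group W] (s t : W) (hs : s * s = 1) (ht : t * t = 1)
    (h : (t * s * t * s * t * s * t) * s = s * (t * s * t * s * t * s * t)) : (s * t) ^ 8 = 1 ∧ s * (s * t) * s = (s * t)⁻¹ := by
  have hs' : ∀ x, s * (s * x) = x := fun x => by rw [← mul_assoc, hs, one_mul]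
  have ht' : ∀ x, t * (t * x) = x := fun x => by rw [← mul_assoc, ht, one_mul]
  set w := t * s * t * s * t * s * t with hw
  have hww : w * w = 1 := by
    simp only [hw, mul_assoc, ht', hs', hs, ht]
  have hb4 : (t * s) ^ 4 = w * s := by
    simp only [hw, pow_succ, pow_zero, one_mul, mul_assoc]
  have hb8 : (t * s) ^ 8 = 1 := by
    have e : (t * s) ^ 8 = (t * s) ^ 4 * (t * s) ^ 4 := by rw [← pow_add]
    rw [e, hb4]
    calc w * s * (w * s) = w * (s * w) * s := by simp only [mul_assoc]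
      _ = w * (w * s) * s := by rw [h]
      _ = (w * w) * (s * s) := by simp only [mul_assoc]
      _ = 1 := by rw [hww, hs, one_mul]
  have hinv : (s * t)⁻¹ = t * s := by
    apply inv_eq_of_mul_eq_one_right
    simp only [mul_assoc, ht', hs]
  constructor
  · have e : s * t = (t * s)⁻¹ := by
      rw [← hinv, inv_inv]
    rw [e, inv_pow, hb8, inv_one]
  · rw [hinv, ← mul_assoc, hs, one_mul]

section main

variable [Finite Γ] {r : ℕ} (hE : Ext σ r)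
  {U H N : Subgroup G} {Ui Vi Qi : Fin 2 → Subgroup G} {n : Fin 2 → G} {φ : ↥N →* DihedralGroup 8} (D : BD U H N Ui Vi Qi n φ)

include hE D

theorem hUi (i : Fin 2) : ∀ q ∈ Ui i, T2 q := fun q hq => D.hU q (D.Ui_le i hq)

theorem hQi (i : Fin 2) : ∀ q ∈ Qi i, T2 q := fun q hq => D.hU q (D.Qi_le i hq)

theorem Nz_le {x : Γ} (hx : x ∈ Nz σ Ui Vi N) : σ x ∈ N := by
  unfold Nz at hx
  induction hx using Subgroup.closure_induction with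
  | mem y hy =>
    obtain ⟨i, -, h⟩ := hy
    exact h
  | one => rw [map_one]; exact N.one_mem
  | mul a b _ _ ha hb => rw [map_mul]; exact N.mul_mem ha hb
  | inv a _ ha => rw [map_inv]; exact N.inv_mem ha

theorem rank1_lift (i : Fin 2) {l : Γ} (hl : l ∈ Lt σ (Ui i) (Vi i)) :
    ∃ a ∈ Lf σ (Ui i), ∃ m, m ∈ Lt σ (Ui i) (Vi i) ∧ σ m ∈ N ∧ ∃ b ∈ Lf σ (Ui i), l = a * m * b := by
  have h2 := hUi hE D i
  have h3 := D.hV i
  obtain ⟨a₀, ha₀, m₀, hm₀, b₀, hb₀, e⟩ := D.rk1 i _ (map_Lt hE h2 h3 hl)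
  obtain ⟨a, ha, ea⟩ := exists_Lf hE h2 ha₀
  obtain ⟨b, hb, eb⟩ := exists_Lf hE h2 hb₀
  refine ⟨a, ha, a⁻¹ * l * b⁻¹, ?_, ?_, b, hb, by group⟩
  · exact Subgroup.mul_mem _ (Subgroup.mul_mem _ (Subgroup.inv_mem _ (Lt_left hE h2 h3 ha)) hl) (Subgroup.inv_mem _ (Lt_left hE h2 h3 hb))
  · rw [map_mul, map_mul, map_inv, map_inv, ea, eb, e]
    have e2 : a₀⁻¹ * (a₀ * m₀ * b₀) * b₀⁻¹ = m₀ := by group
    rw [e2]
    exact hm₀

/-- The first step of the Bruhat closure. -/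
theorem step1 (i : Fin 2) {l x u' : Γ} (hl : l ∈ Lt σ (Ui i) (Vi i)) (hx : x ∈ Nz σ Ui Vi N) (hu' : u' ∈ Lf σ U) :
    ∃ u ∈ Lf σ U, ∃ m ∈ Nz σ Ui Vi N, ∃ v ∈ Lf σ U, l * x * u' = u * m * v := by
  have h2 := hUi hE D i
  have h3 := D.hV i
  have hU2 := D.hU
  obtain ⟨a, ha, m, hm, hmN, b, hb, rfl⟩ := rank1_lift hE D i hl
  have hmz : m ∈ Nz σ Ui Vi N := Subgroup.subset_closure ⟨i, hm, hmN⟩
  have hxN := Nz_le hE D hx
  rcases D.dich i _ hxN with hc | hc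
  · have hc' : x⁻¹ * b * x⁻¹⁻¹ ∈ Lf σ U := Lf_conj hE h2 hU2 hb x⁻¹ (by
      intro q hq
      rw [map_inv, inv_inv]
      exact hc q hq)
    refine ⟨a, Lf_mono hE h2 hU2 (D.Ui_le i) ha, m * x, Subgroup.mul_mem _ hmz hx, (x⁻¹ * b * x⁻¹⁻¹) * u', Subgroup.mul_mem _ hc' hu', ?_⟩
    group
  · obtain ⟨nt, hnt, ent⟩ := exists_Lt hE h2 h3 (D.nL i)
    have hntz : nt ∈ Nz σ Ui Vi N := Subgroup.subset_closure ⟨i, hnt, by rw [ent]; exact D.nN i⟩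
    set x' := nt⁻¹ * x with hx'
    have hx'z : x' ∈ Nz σ Ui Vi N := Subgroup.mul_mem _ (Subgroup.inv_mem _ hntz) hx
    have hl2 : m * b * nt ∈ Lt σ (Ui i) (Vi i) := Subgroup.mul_mem _ (Subgroup.mul_mem _ hm (Lt_left hE h2 h3 hb)) hnt
    obtain ⟨a₂, ha₂, m₂, hm₂, hm₂N, b₂, hb₂, e₂⟩ := rank1_lift hE D i hl2
    have hm₂z : m₂ ∈ Nz σ Ui Vi N := Subgroup.subset_closure ⟨i, hm₂, hm₂N⟩
    have hc' : x'⁻¹ * b₂ * x'⁻¹⁻¹ ∈ Lf σ U := Lf_conj hE h2 hU2 hb₂ x'⁻¹ (by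
      intro q hq
      have e3 : σ x'⁻¹ = (σ x)⁻¹ * n i := by
        rw [hx', mul_inv_rev, inv_inv, map_mul, map_inv, ent]
      rw [e3]
      exact hc q hq)
    refine ⟨a * a₂, Subgroup.mul_mem _ (Lf_mono hE h2 hU2 (D.Ui_le i) ha) (Lf_mono hE h2 hU2 (D.Ui_le i) ha₂), m₂ * x', Subgroup.mul_mem _ hm₂z hx'z,
      (x'⁻¹ * b₂ * x'⁻¹⁻¹) * u', Subgroup.mul_mem _ hc' hu', ?_⟩
    have e4 : a * m * b * x * u' = a * (m * b * nt) * x' * u' := by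
      rw [hx']
      group
    rw [e4, e₂]
    group

/-- The second step of the Bruhat closure. -/
theorem step2 (i : Fin 2) {l u x u' : Γ} (hl : l ∈ Lt σ (Ui i) (Vi i)) (hu : u ∈ Lf σ U) (hx : x ∈ Nz σ Ui Vi N) (hu' : u' ∈ Lf σ U) :
    ∃ u₁ ∈ Lf σ U, ∃ m ∈ Nz σ Ui Vi N, ∃ v ∈ Lf σ U, l * (u * x * u') = u₁ * m * v := by
  have h2 := hUi hE D i
  have h3 := D.hV i
  have h4 := hQi hE D i
  have hU2 := D.hU
  obtain ⟨a₀, ha₀, b₀, hb₀, e⟩ := D.fac i _ ((mem_Lf hE hU2).1 hu).1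
  obtain ⟨a, ha, ea⟩ := exists_Lf hE h2 ha₀
  obtain ⟨b, hb, eb⟩ := exists_Lf hE h4 hb₀
  have hab : u = a * b := by
    refine Lf_eq hE hU2 hU2 hu (Subgroup.mul_mem _ (Lf_mono hE h2 hU2 (D.Ui_le i) ha) (Lf_mono hE h4 hU2 (D.Qi_le i) hb)) ?_
    rw [map_mul, ea, eb, e]
  set l' := l * a with hl'
  have hl'm : l' ∈ Lt σ (Ui i) (Vi i) := Subgroup.mul_mem _ hl (Lt_left hE h2 h3 ha)
  have hq : l' * b * l'⁻¹ ∈ Lf σ (Qi i) := Lf_conj hE h4 h4 hb l' (fun q hq => D.nrmQ i _ (map_Lt hE h2 h3 hl'm) q hq)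
  obtain ⟨u₁, hu₁, m, hm, v, hv, e₁⟩ := step1 hE D i hl'm hx hu'
  refine ⟨(l' * b * l'⁻¹) * u₁, Subgroup.mul_mem _ (Lf_mono hE h4 hU2 (D.Qi_le i) hq) hu₁, m, hm, v, hv, ?_⟩
  have e2 : l * (u * x * u') = (l' * b * l'⁻¹) * (l' * x * u') := by
    rw [hab, hl']
    group
  rw [e2, e₁]
  group

/-- Every element of the subgroup generated by the rank one subgroups has a Bruhat decomposition. -/
theorem all_X {x : Γ} (hx : x ∈ Subgroup.closure {y | ∃ i : Fin 2, y ∈ Lt σ (Ui i) (Vi i)}) :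
    ∃ u ∈ Lf σ U, ∃ m ∈ Nz σ Ui Vi N, ∃ v ∈ Lf σ U, x = u * m * v := by
  induction hx using Subgroup.closure_induction_left with
  | one => exact ⟨1, Subgroup.one_mem _, 1, Subgroup.one_mem _, 1, Subgroup.one_mem _, by simp⟩
  | mul_left y hy z hz ih =>
    obtain ⟨i, hi⟩ := hy
    obtain ⟨u, hu, m, hm, v, hv, rfl⟩ := ih
    exact step2 hE D i hi hu hm hv
  | inv_mul_cancel y hy z hz ih =>
    obtain ⟨i, hi⟩ := hy
    obtain ⟨u, hu, m, hm, v, hv, rfl⟩ := ih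
    exact step2 hE D i (Subgroup.inv_mem _ hi) hu hm hv

/-- The subgroup generated by the rank one subgroups contains the commutators. -/
theorem comm_le : commutator Γ ≤ Subgroup.closure {y | ∃ i : Fin 2, y ∈ Lt σ (Ui i) (Vi i)} := by
  set Γ₁ := Subgroup.closure {y | ∃ i : Fin 2, y ∈ Lt σ (Ui i) (Vi i)} with hΓ₁
  have hmap : ∀ g : G, ∃ x ∈ Γ₁, σ x = g := by
    intro g
    have hg := D.gen g
    induction hg using Subgroup.closure_induction with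
    | mem y hy =>
      obtain ⟨i, hi⟩ := hy
      obtain ⟨x, hx, e⟩ := exists_Lt hE (hUi hE D i) (D.hV i) hi
      exact ⟨x, Subgroup.subset_closure ⟨i, hx⟩, e⟩
    | one => exact ⟨1, Subgroup.one_mem _, map_one _⟩
    | mul a b _ _ ha hb =>
      obtain ⟨x, hx, rfl⟩ := ha
      obtain ⟨x', hx', rfl⟩ := hb
      exact ⟨x * x', Subgroup.mul_mem _ hx hx', map_mul _ _ _⟩
    | inv a _ ha =>
      obtain ⟨x, hx, rfl⟩ := ha
      exact ⟨x⁻¹, Subgroup.inv_mem _ hx, map_inv _ _⟩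
  rw [_root_.commutator_def, Subgroup.commutator_le]
  intro x _ y _
  obtain ⟨x₁, hx₁, e₁⟩ := hmap (σ x)
  obtain ⟨y₁, hy₁, e₂⟩ := hmap (σ y)
  obtain ⟨k, hk, ek⟩ : ∃ k, σ k = 1 ∧ x = x₁ * k := ⟨x₁⁻¹ * x, by rw [map_mul, map_inv, e₁, inv_mul_cancel], by group⟩
  obtain ⟨l, hl, el⟩ : ∃ l, σ l = 1 ∧ y = y₁ * l := ⟨y₁⁻¹ * y, by rw [map_mul, map_inv, e₂, inv_mul_cancel], by group⟩
  have e3 : ⁅x, y⁆ = ⁅x₁, y₁⁆ := by
    rw [ek, el, commutatorElement_def, commutatorElement_def]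
    have c1 : ∀ w, k * w = w * k := hE.cen k hk
    have c2 : ∀ w, l * w = w * l := hE.cen l hl
    calc x₁ * k * (y₁ * l) * (x₁ * k)⁻¹ * (y₁ * l)⁻¹
        = x₁ * k * (y₁ * l) * (k⁻¹ * x₁⁻¹) * (l⁻¹ * y₁⁻¹) := by simp only [mul_inv_rev]
      _ = x₁ * y₁ * (k * l * (k⁻¹ * (x₁⁻¹ * l⁻¹))) * y₁⁻¹ := by
        rw [show x₁ * k * (y₁ * l) = x₁ * y₁ * (k * l) by rw [mul_assoc x₁ k, ← mul_assoc k y₁, c1 y₁]; simp only [mul_assoc]]
        simp only [mul_assoc]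
      _ = x₁ * y₁ * x₁⁻¹ * y₁⁻¹ := by
        have c3 : k * l * (k⁻¹ * (x₁⁻¹ * l⁻¹)) = x₁⁻¹ := by
          have hll : x₁⁻¹ * l⁻¹ = l⁻¹ * x₁⁻¹ := by
            have := c2 x₁⁻¹
            calc x₁⁻¹ * l⁻¹ = l⁻¹ * (l * x₁⁻¹) * l⁻¹ := by group
              _ = l⁻¹ * (x₁⁻¹ * l) * l⁻¹ := by rw [this]
              _ = _ := by group
          rw [hll]
          have c4 := c1 l
          calc k * l * (k⁻¹ * (l⁻¹ * x₁⁻¹)) = (l * k) * (k⁻¹ * (l⁻¹ * x₁⁻¹)) := by rw [c4]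
            _ = x₁⁻¹ := by group
        rw [c3]
  rw [e3, commutatorElement_def]
  exact Subgroup.mul_mem _ (Subgroup.mul_mem _ (Subgroup.mul_mem _ hx₁ hy₁) (Subgroup.inv_mem _ hx₁)) (Subgroup.inv_mem _ hy₁)

/-- The kernel lies in the subgroup of the monomial lifts. -/
theorem ker_mem_Nz {z : Γ} (hz : z ∈ commutator Γ) (hz1 : σ z = 1) : z ∈ Nz σ Ui Vi N := by
  obtain ⟨u, hu, m, hm, v, hv, e⟩ := all_X hE D (comm_le hE D hz)
  have hU2 := D.hU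
  have hm1 : σ m = 1 := by
    have h1 : σ m = (σ u)⁻¹ * (σ v)⁻¹ := by
      have h2 := congrArg σ e
      rw [hz1, map_mul, map_mul] at h2
      calc σ m = (σ u)⁻¹ * (σ u * σ m * σ v) * (σ v)⁻¹ := by group
        _ = _ := by rw [← h2]; group
    refine D.UN _ ?_ (Nz_le hE D hm)
    rw [h1]
    exact U.mul_mem (U.inv_mem ((mem_Lf hE hU2).1 hu).1) (U.inv_mem ((mem_Lf hE hU2).1 hv).1)
  have huv : u * v = 1 := by
    have h1 : σ (u * v) = σ (1 : Γ) := by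
      have h2 := congrArg σ e
      rw [hz1, map_mul, map_mul, hm1, mul_one] at h2
      rw [map_mul, map_one]
      exact h2.symm
    exact Lf_eq hE hU2 hU2 (Subgroup.mul_mem _ hu hv) (Subgroup.one_mem _) h1
  have e2 : z = m := by
    rw [e, mul_assoc, hE.cen m hm1 v, ← mul_assoc, huv, one_mul]
  rw [e2]
  exact hm

variable [Finite G] [hr : Fact r.Prime] (hc : ∀ i, ∀ R : Subgroup G, R ≤ Lb (Ui i) (Vi i) → IsPGroup r R → IsCyclic R)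

include hc

theorem hL0 (i : Fin 2) {z : Γ} (hz : z ∈ Lt σ (Ui i) (Vi i)) (hz1 : σ z = 1) : z = 1 :=
  ker_Lt hE (hUi hE D i) (D.hV i) (hc i) hz hz1

/-- The torus lifts are central in the lift of the torus. -/
theorem TT_cen (i : Fin 2) {g t : Γ} (hg : σ g ∈ H) (ht : t ∈ TT σ Ui Vi H i) : g * t = t * g := by
  have h2 := hUi hE D i
  have h3 := D.hV i
  have h1 : g * t * g⁻¹ ∈ Lt σ (Ui i) (Vi i) :=
    Lt_conj hE h2 h3 ht.1 g (fun q hq => D.HU i _ hg q hq) (fun q hq => D.HV i _ hg q hq)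
  have h4 : g * t * g⁻¹ * t⁻¹ ∈ Lt σ (Ui i) (Vi i) := Subgroup.mul_mem _ h1 (Subgroup.inv_mem _ ht.1)
  have h5 : σ (g * t * g⁻¹ * t⁻¹) = 1 := by
    have ht' : σ t ∈ H := ht.2
    simp only [map_mul, map_inv]
    rw [D.Hcomm _ hg _ ht']
    group
  have h6 := hL0 hE D hc i h4 h5
  calc g * t = (g * t * g⁻¹ * t⁻¹) * (t * g) := by group
    _ = t * g := by rw [h6, one_mul]

/-- The kernel meets the subgroup of the monomial lifts trivially. -/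
theorem Nz_ker {x : Γ} (hx : x ∈ Nz σ Ui Vi N) (hx1 : σ x = 1) : x = 1 := by
  classical
  have hU' := hUi hE D
  have hV' := D.hV
  have hTM : ∀ i, ∀ t ∈ TT σ Ui Vi H i, t ∈ Nz σ Ui Vi N := fun i t ht =>
    Subgroup.subset_closure ⟨i, ht.1, D.HN ht.2⟩
  have hcomm : ∀ a ∈ TT σ Ui Vi H 0, ∀ b ∈ TT σ Ui Vi H 1, a * b = b * a :=
    fun a ha b hb => (TT_cen hE D hc 1 ha.2 hb)
  let E : Subgroup Γ := prodSub (TT σ Ui Vi H 0) (TT σ Ui Vi H 1) hcomm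
  have hE0 : ∀ t ∈ TT σ Ui Vi H 0, t ∈ E := fun t ht => ⟨t, ht, 1, Subgroup.one_mem _, by simp⟩
  have hE1 : ∀ t ∈ TT σ Ui Vi H 1, t ∈ E := fun t ht => ⟨1, Subgroup.one_mem _, t, ht, by simp⟩
  have hEi : ∀ i, ∀ t ∈ TT σ Ui Vi H i, t ∈ E := by
    intro i
    fin_cases i
    · exact hE0
    · exact hE1
  have hEH : ∀ y ∈ E, σ y ∈ H := by
    rintro _ ⟨a, ha, b, hb, rfl⟩
    rw [map_mul]
    exact H.mul_mem ha.2 hb.2
  have hEM : ∀ y ∈ E, y ∈ Nz σ Ui Vi N := by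
    rintro _ ⟨a, ha, b, hb, rfl⟩
    exact Subgroup.mul_mem _ (hTM 0 a ha) (hTM 1 b hb)
  -- `E` meets the kernel trivially
  have hEk : ∀ y ∈ E, σ y = 1 → y = 1 := by
    rintro _ ⟨a, ha, b, hb, rfl⟩ h1
    rw [map_mul] at h1
    have h2 : σ a = (σ b)⁻¹ := eq_inv_of_mul_eq_one_left h1
    have h3 : σ a = 1 := by
      refine D.T01 _ (map_Lt hE (hU' 0) (hV' 0) ha.1) ?_ ha.2
      rw [h2]
      exact Subgroup.inv_mem _ (map_Lt hE (hU' 1) (hV' 1) hb.1)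
    have h4 : σ b = 1 := by
      rw [h3] at h1
      simpa using h1
    rw [hL0 hE D hc 0 ha.1 h3, hL0 hE D hc 1 hb.1 h4, mul_one]
  -- normality
  have hgen : ∀ g, (∃ i : Fin 2, g ∈ Lt σ (Ui i) (Vi i) ∧ σ g ∈ N) → ∀ y ∈ E, g * y * g⁻¹ ∈ E := by
    rintro g ⟨i, hg, hgN⟩ y hy
    have hyH := hEH y hy
    have h1 : y * g⁻¹ * y⁻¹ ∈ Lt σ (Ui i) (Vi i) :=
      Lt_conj hE (hU' i) (hV' i) (Subgroup.inv_mem _ hg) y (fun q hq => D.HU i _ hyH q hq) (fun q hq => D.HV i _ hyH q hq)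
    have h2 : g * (y * g⁻¹ * y⁻¹) ∈ TT σ Ui Vi H i := by
      refine ⟨Subgroup.mul_mem _ hg h1, ?_⟩
      show σ (g * (y * g⁻¹ * y⁻¹)) ∈ H
      have e : σ (g * (y * g⁻¹ * y⁻¹)) = (σ g * σ y * (σ g)⁻¹) * (σ y)⁻¹ := by
        simp only [map_mul, map_inv]
        group
      rw [e]
      exact H.mul_mem (D.NH _ hgN _ hyH) (H.inv_mem hyH)
    have e : g * y * g⁻¹ = (g * (y * g⁻¹ * y⁻¹)) * y := by group
    rw [e]
    exact E.mul_mem (hEi i _ h2) hy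
  have hnorm : ∀ g ∈ Nz σ Ui Vi N, (∀ y ∈ E, g * y * g⁻¹ ∈ E) ∧ (∀ y ∈ E, g⁻¹ * y * g⁻¹⁻¹ ∈ E) := by
    intro g hg
    unfold Nz at hg
    induction hg using Subgroup.closure_induction with
    | mem g hg =>
      refine ⟨hgen g hg, ?_⟩
      obtain ⟨i, h1, h2⟩ := hg
      exact hgen g⁻¹ ⟨i, Subgroup.inv_mem _ h1, by rw [map_inv]; exact N.inv_mem h2⟩
    | one => simp
    | mul a b _ _ ha hb =>
      constructor
      · intro y hy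
        have e : a * b * y * (a * b)⁻¹ = a * (b * y * b⁻¹) * a⁻¹ := by group
        rw [e]
        exact ha.1 _ (hb.1 y hy)
      · intro y hy
        have e : (a * b)⁻¹ * y * (a * b)⁻¹⁻¹ = b⁻¹ * (a⁻¹ * y * a⁻¹⁻¹) * b⁻¹⁻¹ := by group
        rw [e]
        exact hb.2 _ (ha.2 y hy)
    | inv a _ ha =>
      refine ⟨ha.2, ?_⟩
      simpa using ha.1
  -- lifts of the reflections
  obtain ⟨n0, hn0, e0⟩ := exists_Lt hE (hU' 0) (hV' 0) (D.nL 0)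
  obtain ⟨n1, hn1, e1⟩ := exists_Lt hE (hU' 1) (hV' 1) (D.nL 1)
  let M := Nz σ Ui Vi N
  have hn0M : n0 ∈ M := Subgroup.subset_closure ⟨0, hn0, by rw [e0]; exact D.nN 0⟩
  have hn1M : n1 ∈ M := Subgroup.subset_closure ⟨1, hn1, by rw [e1]; exact D.nN 1⟩
  let E₁ : Subgroup ↥M := E.subgroupOf M
  haveI : E₁.Normal := ⟨fun y hy g => Subgroup.mem_subgroupOf.2 ((hnorm g.1 g.2).1 y.1 (Subgroup.mem_subgroupOf.1 hy))⟩
  let π : ↥M →* ↥M ⧸ E₁ := QuotientGroup.mk' E₁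
  have hπ : ∀ y : ↥M, π y = 1 ↔ y.1 ∈ E := fun y => by
    rw [QuotientGroup.mk'_apply, QuotientGroup.eq_one_iff]
    exact Subgroup.mem_subgroupOf
  let s := π ⟨n0, hn0M⟩
  let t := π ⟨n1, hn1M⟩
  -- the values of `φ`
  let Φ₀ : ↥M →* ↥N := (σ.comp M.subtype).codRestrict N (fun y => Nz_le hE D y.2)
  let Φ : ↥M →* DihedralGroup 8 := φ.comp Φ₀
  have hΦ : ∀ (y : ↥M) (h : σ y.1 ∈ N), Φ y = φ ⟨σ y.1, h⟩ := fun y h => rfl
  have hΦ0 : Φ ⟨n0, hn0M⟩ = DihedralGroup.sr 0 := by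
    have e : Φ₀ ⟨n0, hn0M⟩ = ⟨n 0, D.nN 0⟩ := Subtype.ext e0
    show φ (Φ₀ ⟨n0, hn0M⟩) = _
    rw [e]
    exact D.φ0 _
  have hΦ1 : Φ ⟨n1, hn1M⟩ = DihedralGroup.sr 1 := by
    have e : Φ₀ ⟨n1, hn1M⟩ = ⟨n 1, D.nN 1⟩ := Subtype.ext e1
    show φ (Φ₀ ⟨n1, hn1M⟩) = _
    rw [e]
    exact D.φ1 _
  have hmemE : ∀ (i : Fin 2) (y : ↥M), y.1 ∈ Lt σ (Ui i) (Vi i) → Φ y = 1 → y.1 ∈ E := by
    intro i y h1 h2
    have h3 : σ y.1 ∈ H := (D.φker _ (Nz_le hE D y.2)).1 h2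
    exact hEi i _ ⟨h1, h3⟩
  -- the relations
  have hss : s * s = 1 := by
    have e : s * s = π (⟨n0, hn0M⟩ * ⟨n0, hn0M⟩) := (map_mul π _ _).symm
    rw [e, hπ]
    refine hmemE 0 _ (Subgroup.mul_mem _ hn0 hn0) ?_
    rw [map_mul, hΦ0]
    decide
  have htt : t * t = 1 := by
    have e : t * t = π (⟨n1, hn1M⟩ * ⟨n1, hn1M⟩) := (map_mul π _ _).symm
    rw [e, hπ]
    refine hmemE 1 _ (Subgroup.mul_mem _ hn1 hn1) ?_
    rw [map_mul, hΦ1]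
    decide
  let a0 : ↥M := ⟨n0, hn0M⟩
  let a1 : ↥M := ⟨n1, hn1M⟩
  let nw : ↥M := a1 * a0 * a1 * a0 * a1 * a0 * a1
  have hσw : σ nw.1 = n 1 * n 0 * n 1 * n 0 * n 1 * n 0 * n 1 := by
    show σ (n1 * n0 * n1 * n0 * n1 * n0 * n1) = _
    simp only [map_mul, e0, e1]
  have hw0 : π (nw * a0 * nw⁻¹ * a0⁻¹) = 1 := by
    rw [hπ]
    refine hmemE 0 _ ?_ ?_
    · refine Subgroup.mul_mem _ ?_ (Subgroup.inv_mem _ hn0)
      exact Lt_conj hE (hU' 0) (hV' 0) hn0 nw.1 (fun q hq => by rw [hσw]; exact D.wU q hq) (fun q hq => by rw [hσw]; exact D.wV q hq)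
    · simp only [map_mul, map_inv, nw]
      have e2 : Φ a0 = DihedralGroup.sr 0 := hΦ0
      have e3 : Φ a1 = DihedralGroup.sr 1 := hΦ1
      rw [e2, e3]
      decide
  have hw1 : (t * s * t * s * t * s * t) * s = s * (t * s * t * s * t * s * t) := by
    have e2 : π (nw * a0 * nw⁻¹ * a0⁻¹) = (t * s * t * s * t * s * t) * s * (t * s * t * s * t * s * t)⁻¹ * s⁻¹ := by
      simp only [map_mul, map_inv, nw]
      rfl
    rw [e2] at hw0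
    have e3 := mul_inv_eq_one.1 hw0
    exact mul_inv_eq_iff_eq_mul.1 e3
  obtain ⟨hord, hsa⟩ := braid_rel s t hss htt hw1
  obtain ⟨ψ, hψ1, hψ2⟩ := TwF4.exists_dihedral_hom s (s * t) hss hord hsa
  have hΦE : ∀ y ∈ E₁, Φ y = 1 := by
    intro y hy
    have h1 : y.1 ∈ E := Subgroup.mem_subgroupOf.1 hy
    exact (D.φker _ (Nz_le hE D y.2)).2 (hEH _ h1)
  let Φb : ↥M ⧸ E₁ →* DihedralGroup 8 := QuotientGroup.lift E₁ Φ hΦE
  have hΦb : ∀ y, Φb (π y) = Φ y := fun y => rfl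
  have hbs : Φb s = DihedralGroup.sr 0 := by
    show Φb (π _) = _
    rw [hΦb]
    exact hΦ0
  have hbt : Φb t = DihedralGroup.sr 1 := by
    show Φb (π _) = _
    rw [hΦb]
    exact hΦ1
  have hbst : Φb (s * t) = DihedralGroup.r 1 := by
    rw [map_mul, hbs, hbt]
    decide
  have hcomp : ∀ w, Φb (ψ w) = w := by
    rintro (i | i)
    · rw [hψ1, map_pow, hbst, DihedralGroup.r_one_pow, ZMod.natCast_zmod_val]
    · rw [hψ2, map_mul, map_pow, hbst, hbs, DihedralGroup.r_one_pow, ZMod.natCast_zmod_val, DihedralGroup.sr_mul_r, zero_add]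
  have hψs : ψ (DihedralGroup.sr 0) = s := by
    rw [hψ2]
    simp
  have hψt : ψ (DihedralGroup.sr 1) = t := by
    rw [hψ2]
    have : (1 : ZMod 8).val = 1 := rfl
    rw [this, pow_one, ← mul_assoc, hss, one_mul]
  have hrange : ∀ i : Fin 2, ∃ (ni : ↥M), ni.1 ∈ Lt σ (Ui i) (Vi i) ∧ σ ni.1 = n i ∧ π ni ∈ ψ.range := by
    intro i
    fin_cases i
    · exact ⟨a0, hn0, e0, _, hψs⟩
    · exact ⟨a1, hn1, e1, _, hψt⟩
  have hsurj : ∀ y (hy : y ∈ Subgroup.closure {x | ∃ i : Fin 2, x ∈ Lt σ (Ui i) (Vi i) ∧ σ x ∈ N}), π ⟨y, hy⟩ ∈ ψ.range := by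
    intro y hy
    induction hy using Subgroup.closure_induction with
    | mem y hy =>
      obtain ⟨i, h1, h2⟩ := hy
      rcases D.hNL i _ (map_Lt hE (hU' i) (hV' i) h1) h2 with h3 | h3
      · have h4 : π ⟨y, Subgroup.subset_closure ⟨i, h1, h2⟩⟩ = 1 := (hπ _).2 (hEi i _ ⟨h1, h3⟩)
        rw [h4]
        exact Subgroup.one_mem _
      · obtain ⟨ni, hni, eni, hr⟩ := hrange i
        have h4 : ni⁻¹ * ⟨y, Subgroup.subset_closure ⟨i, h1, h2⟩⟩ ∈ (π.ker : Subgroup ↥M) := by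
          apply MonoidHom.mem_ker.2
          rw [hπ]
          refine hEi i _ ⟨Subgroup.mul_mem _ (Subgroup.inv_mem _ hni) h1, ?_⟩
          show σ (ni.1⁻¹ * y) ∈ H
          rw [map_mul, map_inv, eni]
          exact h3
        have h5 : π ni⁻¹ * π ⟨y, Subgroup.subset_closure ⟨i, h1, h2⟩⟩ = 1 := by
          rw [← map_mul]
          exact h4
        have h6 : π ⟨y, Subgroup.subset_closure ⟨i, h1, h2⟩⟩ = π ni := by
          rw [map_inv] at h5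
          exact (inv_mul_eq_one.1 h5).symm
        rw [h6]
        exact hr
    | one =>
      have : π ⟨1, Subgroup.one_mem _⟩ = 1 := map_one π
      rw [this]
      exact Subgroup.one_mem _
    | mul a b ha hb iha ihb =>
      have : π ⟨a * b, Subgroup.mul_mem _ ha hb⟩ = π ⟨a, ha⟩ * π ⟨b, hb⟩ := map_mul π (⟨a, ha⟩ : ↥M) (⟨b, hb⟩ : ↥M)
      rw [this]
      exact Subgroup.mul_mem _ iha ihb
    | inv a ha iha =>
      have : π ⟨a⁻¹, Subgroup.inv_mem _ ha⟩ = (π ⟨a, ha⟩)⁻¹ := map_inv π (⟨a, ha⟩ : ↥M)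
      rw [this]
      exact Subgroup.inv_mem _ iha
  obtain ⟨w, hw⟩ := hsurj x hx
  have h7 : Φ ⟨x, hx⟩ = 1 := by
    have e : Φ₀ ⟨x, hx⟩ = 1 := Subtype.ext hx1
    show φ (Φ₀ ⟨x, hx⟩) = 1
    rw [e, map_one]
  have h8 : w = 1 := by
    have := hcomp w
    rw [hw, hΦb, h7] at this
    exact this.symm
  rw [h8, map_one] at hw
  exact hEk x ((hπ _).1 hw.symm) hx1

end main

/-- The theorem: there is no stem extension with kernel of odd prime order. -/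
theorem no_odd_kernel [Finite Γ] [Finite G] (hσ : Cfsg.IsStemExtension σ) {r : ℕ} (hr : r.Prime) (hr2 : r ≠ 2) (hK : Nat.card σ.ker = r)
    {U H N : Subgroup G} {Ui Vi Qi : Fin 2 → Subgroup G} {n : Fin 2 → G} {φ : ↥N →* DihedralGroup 8} (D : BD U H N Ui Vi Qi n φ)
    (hc : ∀ i, ∀ R : Subgroup G, R ≤ Lb (Ui i) (Vi i) → IsPGroup r R → IsCyclic R) : False := by
  haveI : Fact r.Prime := ⟨hr⟩
  have hE : Ext σ r := by
    refine ⟨hσ.1, fun k hk x => (Subgroup.mem_center_iff.1 (hσ.2.1 hk) x).symm, hr.odd_of_ne_two hr2, fun k hk => ?_⟩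
    have h4 : (⟨k, hk⟩ : σ.ker) ^ Nat.card σ.ker = 1 := pow_card_eq_one'
    rw [hK] at h4
    exact congrArg Subtype.val h4
  obtain ⟨⟨z, hz⟩, hzo⟩ : ∃ x : σ.ker, orderOf x = r := exists_prime_orderOf_dvd_card' r (by rw [hK])
  have hzo' : orderOf z = r := (Subgroup.orderOf_mk z hz).symm.trans hzo
  have hz1 : z ≠ 1 := by
    rintro rfl
    rw [orderOf_one] at hzo'
    exact hr.one_lt.ne hzo'
  exact hz1 (Nz_ker hE D hc (ker_mem_Nz hE D (hσ.2.2 hz) hz) hz)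

end Cfsg.Agent.Lib.Chev.SchOdd
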