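import Cfsg.Agent.Lib.Chev.TwG2Sch

/-!
# Central extensions by a group of order two: retractions

For a central extension `σ : Γ → G` with kernel `{1, z}`, `z² = 1`, a *retraction* over a subgroup `A ≤ G` is a function `ρ : Γ → ZMod 2`,
additive on the inverse image of `A`, with `ρ z = 1`.  Such a retraction over a Sylow subgroup contradicts `z ∈ P'`.
The lemmas below build retractions over a chain of subgroups of a group with a torus acting.
-/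

set_option autoImplicit false
set_option linter.unusedSectionVars false
set_option linter.unusedVariables false

namespace Cfsg.Agent.Lib.Chev.SchTwo

open scoped commutatorElement
open Cfsg.Agent.Lib.Chev.TwG2 (CExt)

variable {Γ G : Type*} [Group Γ] [Group G] {σ : Γ →* G}

/-- The data of a central extension by a group of order two. -/
structure Ext2 (σ : Γ →* G) (z : Γ) : Prop where
  ce : CExt σ
  hz : σ z = 1
  hz1 : z ≠ 1
  hzz : z * z = 1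
  hk : ∀ k, σ k = 1 → k = 1 ∨ k = z

/-- A retraction over `A`. -/
def Ret (σ : Γ →* G) (z : Γ) (A : Subgroup G) (ρ : Γ → ZMod 2) : Prop :=
  (∀ x y, σ x ∈ A → σ y ∈ A → ρ (x * y) = ρ x + ρ y) ∧ ρ z = 1

theorem z2 (a : ZMod 2) : a + a = 0 := by
  have := CharTwo.add_self_eq_zero a
  exact this

namespace Ret

variable {z : Γ} {A : Subgroup G} {ρ : Γ → ZMod 2} (h : Ret σ z A ρ)

include h

theorem map_one : ρ 1 = 0 := by
  have e := h.1 1 1 (by simp [A.one_mem]) (by simp [A.one_mem])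
  rw [mul_one] at e
  exact left_eq_add.1 e

theorem map_inv {x : Γ} (hx : σ x ∈ A) : ρ x⁻¹ = ρ x := by
  have hi : σ x⁻¹ ∈ A := by rw [_root_.map_inv]; exact A.inv_mem hx
  have e := h.1 x x⁻¹ hx hi
  rw [mul_inv_cancel, h.map_one] at e
  have e2 := z2 (ρ x)
  have e3 : ρ x + ρ x⁻¹ = ρ x + ρ x := by rw [← e, e2]
  exact add_left_cancel e3

theorem map_conj {x y : Γ} (hx : σ x ∈ A) (hy : σ y ∈ A) : ρ (x * y * x⁻¹) = ρ y := by
  have hi : σ x⁻¹ ∈ A := by rw [_root_.map_inv]; exact A.inv_mem hx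
  have hxy : σ (x * y) ∈ A := by rw [_root_.map_mul]; exact A.mul_mem hx hy
  rw [h.1 _ _ hxy hi, h.1 _ _ hx hy, h.map_inv hx, add_comm (ρ x), add_assoc, z2, add_zero]

theorem map_comm {x y : Γ} (hx : σ x ∈ A) (hy : σ y ∈ A) : ρ ⁅x, y⁆ = 0 := by
  have hi : σ y⁻¹ ∈ A := by rw [_root_.map_inv]; exact A.inv_mem hy
  have hxy : σ (x * y * x⁻¹) ∈ A := by
    simp only [_root_.map_mul, _root_.map_inv]
    exact A.mul_mem (A.mul_mem hx hy) (A.inv_mem hx)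
  rw [commutatorElement_def, h.1 _ _ hxy hi, h.map_conj hx hy, h.map_inv hy, z2]

theorem mono {B : Subgroup G} (hB : B ≤ A) : Ret σ z B ρ :=
  ⟨fun x y hx hy => h.1 x y (hB hx) (hB hy), h.2⟩

end Ret

section sq

theorem z2_ne : ∀ a : ZMod 2, a ≠ 0 → a = 1 := by decide

/-- A group in which all squares lie in a subgroup `W` not containing `z` has a functional not vanishing on `z`. -/
theorem exists_fun_of_sq {Y : Type*} [Group Y] (W : Subgroup Y) (hW : ∀ y : Y, y * y ∈ W) {z : Y} (hz : z ∉ W) :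
    ∃ f : Y → ZMod 2, (∀ x y, f (x * y) = f x + f y) ∧ f z = 1 := by
  classical
  have hnorm : W.Normal := by
    constructor
    intro n hn g
    have e2 : g * n * g⁻¹ = (g * n) * (g * n) * n⁻¹ * (g⁻¹ * g⁻¹) := by group
    rw [e2]
    exact W.mul_mem (W.mul_mem (hW _) (W.inv_mem hn)) (hW _)
  have hQ2 : ∀ q : Y ⧸ W, q * q = 1 := by
    intro q
    obtain ⟨y, rfl⟩ := QuotientGroup.mk_surjective q
    rw [← QuotientGroup.mk_mul]
    exact (QuotientGroup.eq_one_iff _).2 (hW y)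
  have hcomm : ∀ a b : Y ⧸ W, a * b = b * a := by
    intro a b
    calc a * b = a * b * (b * a * (b * a)) := by rw [hQ2, mul_one]
      _ = a * (b * b) * a * (b * a) := by simp only [mul_assoc]
      _ = a * a * (b * a) := by rw [hQ2, mul_one]
      _ = b * a := by rw [hQ2, one_mul]
  letI cg : CommGroup (Y ⧸ W) := { (inferInstance : Group (Y ⧸ W)) with mul_comm := hcomm }
  letI : Module (ZMod 2) (Additive (Y ⧸ W)) := AddCommGroup.zmodModule (n := 2) (by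
    intro x
    rw [two_nsmul]
    exact congrArg Additive.ofMul (hQ2 (Additive.toMul x)))
  haveI : Fact (Nat.Prime 2) := ⟨Nat.prime_two⟩
  have hv : (Additive.ofMul ((z : Y) : Y ⧸ W)) ≠ 0 := by
    intro h
    have h1 : ((z : Y) : Y ⧸ W) = 1 := congrArg Additive.toMul h
    exact hz ((QuotientGroup.eq_one_iff _).1 h1)
  obtain ⟨φ, hφ⟩ : ∃ φ : Module.Dual (ZMod 2) (Additive (Y ⧸ W)), φ (Additive.ofMul ((z : Y) : Y ⧸ W)) ≠ 0 := by
    by_contra hc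
    push Not at hc
    exact hv ((Module.forall_dual_apply_eq_zero_iff (ZMod 2) _).1 hc)
  refine ⟨fun y => φ (Additive.ofMul ((y : Y) : Y ⧸ W)), ?_, ?_⟩
  · intro x y
    show φ (Additive.ofMul (((x * y : Y)) : Y ⧸ W)) = _
    rw [QuotientGroup.mk_mul, ofMul_mul, map_add]
  · exact z2_ne _ hφ

end sq

variable {z : Γ}

/-- A retraction exists as soon as the squares of the inverse image lie in a subgroup not containing `z`. -/
theorem ret_of_sq (hE : Ext2 σ z) (A : Subgroup G) (W : Subgroup Γ) (hW : ∀ y, σ y ∈ A → y * y ∈ W) (hz : z ∉ W) :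
    ∃ ρ, Ret σ z A ρ := by
  classical
  have hzA : z ∈ A.comap σ := by
    show σ z ∈ A
    rw [hE.hz]
    exact A.one_mem
  obtain ⟨f, hf1, hf2⟩ := exists_fun_of_sq (Y := ↥(A.comap σ)) (W.subgroupOf (A.comap σ))
    (fun y => Subgroup.mem_subgroupOf.2 (hW y.1 y.2)) (z := ⟨z, hzA⟩)
    (fun h => hz (Subgroup.mem_subgroupOf.1 h))
  refine ⟨fun x => if hx : σ x ∈ A then f ⟨x, hx⟩ else 0, ?_, ?_⟩
  · intro x y hx hy
    have hxy : σ (x * y) ∈ A := by rw [map_mul]; exact A.mul_mem hx hy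
    simp only [dif_pos hx, dif_pos hy, dif_pos hxy]
    exact hf1 ⟨x, hx⟩ ⟨y, hy⟩
  · have h1 : σ z ∈ A := hzA
    simp only [dif_pos h1]
    exact hf2

section avg

variable {H : Type*} [Group H] (ι : H →* G)

/-- Invariance of a function on the inverse image of `A` under the action of `H`. -/
def Inv (σ : Γ →* G) (ι : H →* G) (A : Subgroup G) (ρ : Γ → ZMod 2) : Prop :=
  ∀ g h x, σ g = ι h → σ x ∈ A → ρ (g * x * g⁻¹) = ρ x

omit [Group G] in
theorem conj_mem_of {G : Type*} [Group G] {A : Subgroup G} {a b : G} (ha : a ∈ A) (hb : b ∈ A) : a * b * a⁻¹ ∈ A :=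
  A.mul_mem (A.mul_mem ha hb) (A.inv_mem ha)

/-- Averaging a retraction. -/
theorem exists_inv [Fintype H] (hE : Ext2 σ z) (hodd : Odd (Fintype.card H)) {A : Subgroup G}
    (hst : ∀ h a, a ∈ A → ι h * a * (ι h)⁻¹ ∈ A) {ρ : Γ → ZMod 2} (hρ : Ret σ z A ρ) :
    ∃ ρ', Ret σ z A ρ' ∧ Inv σ ι A ρ' := by
  classical
  let L : H → Γ := fun h => hE.ce.L (ι h)
  have hL : ∀ h, σ (L h) = ι h := fun h => hE.ce.σL _
  have hmem : ∀ (h : H) x, σ x ∈ A → σ (L h * x * (L h)⁻¹) ∈ A := by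
    intro h x hx
    simp only [map_mul, map_inv, hL]
    exact hst h _ hx
  refine ⟨fun x => ∑ h : H, ρ (L h * x * (L h)⁻¹), ⟨?_, ?_⟩, ?_⟩
  · intro x y hx hy
    show ∑ h : H, ρ (L h * (x * y) * (L h)⁻¹) = ∑ h : H, ρ (L h * x * (L h)⁻¹) + ∑ h : H, ρ (L h * y * (L h)⁻¹)
    rw [← Finset.sum_add_distrib]
    refine Finset.sum_congr rfl (fun h _ => ?_)
    have e : L h * (x * y) * (L h)⁻¹ = (L h * x * (L h)⁻¹) * (L h * y * (L h)⁻¹) := by group
    rw [e]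
    exact hρ.1 _ _ (hmem h x hx) (hmem h y hy)
  · show ∑ h : H, ρ (L h * z * (L h)⁻¹) = 1
    have e : ∀ h, L h * z * (L h)⁻¹ = z := by
      intro h
      rw [(hE.ce.cen z hE.hz (L h)).symm, mul_assoc, mul_inv_cancel, mul_one]
    simp only [e, hρ.2, Finset.sum_const, Finset.card_univ]
    obtain ⟨k, hk⟩ := hodd
    rw [hk]
    have : (2 : ZMod 2) = 0 := by decide
    simp [this]
  · intro g h₀ x hg hx
    show ∑ h : H, ρ (L h * (g * x * g⁻¹) * (L h)⁻¹) = ∑ h : H, ρ (L h * x * (L h)⁻¹)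
    rw [← Equiv.sum_comp (Equiv.mulRight h₀) (fun h => ρ (L h * x * (L h)⁻¹))]
    refine Finset.sum_congr rfl (fun h _ => ?_)
    show ρ (L h * (g * x * g⁻¹) * (L h)⁻¹) = ρ (L (h * h₀) * x * (L (h * h₀))⁻¹)
    congr 1
    have e0 : L h * (g * x * g⁻¹) * (L h)⁻¹ = (L h * g) * x * (L h * g)⁻¹ := by group
    rw [e0]
    apply Cfsg.Agent.Lib.SzTorus.conj_eq_of_map hE.ce.cen
    rw [map_mul, hL, hg, hL, map_mul]

end avg

section glue

/-- Gluing two retractions over a product. -/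
theorem glue (hE : Ext2 σ z) {A B C : Subgroup G} {ρA ρB : Γ → ZMod 2} (hA : Ret σ z A ρA) (hB : Ret σ z B ρB)
    (hfac : ∀ x ∈ C, ∃ a ∈ A, ∃ b ∈ B, x = a * b) (hint : ∀ a, a ∈ A → a ∈ B → a = 1)
    (hnrm : ∀ a ∈ A, ∀ b ∈ B, a * b * a⁻¹ ∈ B)
    (hinv : ∀ x y, σ x ∈ A → σ y ∈ B → ρB (x * y * x⁻¹) = ρB y) :
    ∃ ρ, Ret σ z C ρ := by
  classical
  have hlift : ∀ x : Γ, σ x ∈ C → ∃ u v : Γ, σ u ∈ A ∧ σ v ∈ B ∧ x = u * v := by
    intro x hx
    obtain ⟨a, ha, b, hb, e⟩ := hfac _ hx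
    refine ⟨hE.ce.L a, (hE.ce.L a)⁻¹ * x, by rw [hE.ce.σL]; exact ha, ?_, by group⟩
    rw [map_mul, map_inv, hE.ce.σL, e, inv_mul_cancel_left]
    exact hb
  have hker : ∀ k, σ k = 1 → ρA k = ρB k := by
    intro k hk
    have h1 : σ 1 ∈ A := by simp [A.one_mem]
    rcases hE.hk k hk with rfl | rfl
    · rw [hA.map_one, hB.map_one]
    · rw [hA.2, hB.2]
  -- the value does not depend on the factorisation
  have hwd : ∀ u v u' v' : Γ, σ u ∈ A → σ v ∈ B → σ u' ∈ A → σ v' ∈ B → u * v = u' * v' →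
      ρA u + ρB v = ρA u' + ρB v' := by
    intro u v u' v' hu hv hu' hv' e
    have h1 : u'⁻¹ * u = v' * v⁻¹ := by
      rw [inv_mul_eq_iff_eq_mul, ← mul_assoc, ← e]
      group
    have h2 : σ (u'⁻¹ * u) ∈ A := by
      rw [map_mul, map_inv]
      exact A.mul_mem (A.inv_mem hu') hu
    have h3 : σ (u'⁻¹ * u) ∈ B := by
      rw [h1, map_mul, map_inv]
      exact B.mul_mem hv' (B.inv_mem hv)
    have h4 : σ (u'⁻¹ * u) = 1 := hint _ h2 h3
    have h5 := hker _ h4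
    have hi : σ u'⁻¹ ∈ A := by rw [map_inv]; exact A.inv_mem hu'
    have hi' : σ v⁻¹ ∈ B := by rw [map_inv]; exact B.inv_mem hv
    rw [hA.1 _ _ hi hu, hA.map_inv hu', h1, hB.1 _ _ hv' hi', hB.map_inv hv] at h5
    have h6 : ρA u' + ρA u + (ρA u' + ρB v) = ρB v' + ρB v + (ρA u' + ρB v) := by rw [h5]
    have e1 : ρA u' + ρA u + (ρA u' + ρB v) = ρA u + ρB v + (ρA u' + ρA u') := by ring
    have e2 : ρB v' + ρB v + (ρA u' + ρB v) = ρA u' + ρB v' + (ρB v + ρB v) := by ring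
    rw [e1, e2, z2, z2, add_zero, add_zero] at h6
    exact h6
  let fu : Γ → Γ := fun x => if hx : σ x ∈ C then (hlift x hx).choose else 1
  let fv : Γ → Γ := fun x => if hx : σ x ∈ C then (hlift x hx).choose_spec.choose else 1
  have hfu : ∀ x (hx : σ x ∈ C), σ (fu x) ∈ A ∧ σ (fv x) ∈ B ∧ x = fu x * fv x := by
    intro x hx
    simp only [fu, fv, dif_pos hx]
    exact (hlift x hx).choose_spec.choose_spec
  refine ⟨fun x => ρA (fu x) + ρB (fv x), ?_, ?_⟩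
  · intro x y hx hy
    have hxy : σ (x * y) ∈ C := by rw [map_mul]; exact C.mul_mem hx hy
    obtain ⟨a1, b1, e1⟩ := hfu x hx
    obtain ⟨a2, b2, e2⟩ := hfu y hy
    obtain ⟨a3, b3, e3⟩ := hfu (x * y) hxy
    show ρA (fu (x * y)) + ρB (fv (x * y)) = ρA (fu x) + ρB (fv x) + (ρA (fu y) + ρB (fv y))
    set u := fu x
    set v := fv x
    set u' := fu y
    set v' := fv y
    have hi : σ u'⁻¹ ∈ A := by rw [map_inv]; exact A.inv_mem a2
    have hc : σ (u'⁻¹ * v * u'⁻¹⁻¹) ∈ B := by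
      simp only [map_mul, map_inv]
      have := hnrm _ (A.inv_mem a2) _ b1
      simpa using this
    have hfac2 : (u * u') * ((u'⁻¹ * v * u'⁻¹⁻¹) * v') = fu (x * y) * fv (x * y) := by
      have e4 : x * y = u * v * (u' * v') := by rw [← e1, ← e2]
      rw [← e3, e4]
      group
    have h1 := hwd _ _ _ _ a3 b3 (by rw [map_mul]; exact A.mul_mem a1 a2) (by rw [map_mul]; exact B.mul_mem hc b2) hfac2.symm
    rw [h1, hA.1 _ _ a1 a2, hB.1 _ _ hc b2, hinv _ _ hi b1]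
    ring
  · have h1 : σ z ∈ C := by rw [hE.hz]; exact C.one_mem
    obtain ⟨a3, b3, e3⟩ := hfu z h1
    have h2 : σ z ∈ A := by rw [hE.hz]; exact A.one_mem
    have h3 : σ (1 : Γ) ∈ B := by rw [map_one]; exact B.one_mem
    have h4 := hwd _ _ z 1 a3 b3 h2 h3 (by rw [← e3, mul_one])
    show ρA (fu z) + ρB (fv z) = 1
    rw [h4, hA.2, hB.map_one, add_zero]

end glue

section inner

variable {H : Type*} [Group H] (ι : H →* G)

/-- The action of `h` on `A` has the property that `a = a' · h(a') · s²` for all `a`. -/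
def Dv (h : G) (A : Subgroup G) : Prop := ∀ a ∈ A, ∃ a' ∈ A, ∃ s ∈ A, a = a' * (h * a' * h⁻¹) * (s * s)

/-- One step: a retraction over `B` invariant under `H`, and under `A` on `D`, is invariant under `A` on `C` too. -/
theorem inner (hE : Ext2 σ z) {A B C D : Subgroup G} {ρ : Γ → ZMod 2} (hρ : Ret σ z B ρ) (hI : Inv σ ι B ρ)
    (hnrm : ∀ a ∈ A, ∀ b ∈ B, a * b * a⁻¹ ∈ B) (hAst : ∀ h a, a ∈ A → ι h * a * (ι h)⁻¹ ∈ A)
    (hDB : D ≤ B) (hCB : C ≤ B)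
    (hD : ∀ x y, σ x ∈ A → σ y ∈ D → ρ (x * y * x⁻¹) = ρ y)
    (hcm : ∀ a ∈ A, ∀ c ∈ C, ⁅a, c⁆ ∈ D)
    (hsep : ∃ h : H, (∀ c ∈ C, ι h * c * (ι h)⁻¹ = c) ∧ Dv (ι h) A) :
    ∀ x y, σ x ∈ A → σ y ∈ C → ρ (x * y * x⁻¹) = ρ y := by
  have hcen : ∀ k, σ k = 1 → ∀ x, k * x = x * k := hE.ce.cen
  have hB' : ∀ x y, σ x ∈ A → σ y ∈ B → σ (x * y * x⁻¹) ∈ B := by
    intro x y hx hy
    simp only [map_mul, map_inv]
    exact hnrm _ hx _ hy
  -- the defect is additive in the first variable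
  have hadd : ∀ x₁ x₂ y, σ x₁ ∈ A → σ x₂ ∈ A → σ y ∈ C →
      ρ ((x₁ * x₂) * y * (x₁ * x₂)⁻¹) + ρ y = (ρ (x₁ * y * x₁⁻¹) + ρ y) + (ρ (x₂ * y * x₂⁻¹) + ρ y) := by
    intro x₁ x₂ y h1 h2 hy
    have hyB : σ y ∈ B := hCB hy
    let w := x₂ * y * x₂⁻¹ * y⁻¹
    have hw : σ w ∈ D := by
      have := hcm _ h2 _ hy
      simpa [w, commutatorElement_def, map_mul, map_inv] using this
    have hwB : σ w ∈ B := hDB hw
    have e1 : (x₁ * x₂) * y * (x₁ * x₂)⁻¹ = (x₁ * w * x₁⁻¹) * (x₁ * y * x₁⁻¹) := by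
      simp only [w]
      group
    have e2 : x₂ * y * x₂⁻¹ = w * y := by
      simp only [w]
      group
    have e3 : ρ (x₂ * y * x₂⁻¹) = ρ w + ρ y := by
      rw [e2]
      exact hρ.1 _ _ hwB hyB
    rw [e1, hρ.1 _ _ (hB' _ _ h1 hwB) (hB' _ _ h1 hyB), hD _ _ h1 hw, e3]
    have := z2 (ρ y)
    linear_combination (-1 : ZMod 2) * this
  obtain ⟨h, hfix, hdv⟩ := hsep
  obtain ⟨g, hg⟩ := hE.ce.surj (ι h)
  -- invariance under `g` of the defect
  have hgi : ∀ x y, σ x ∈ A → σ y ∈ C →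
      ρ ((g * x * g⁻¹) * y * (g * x * g⁻¹)⁻¹) = ρ (x * y * x⁻¹) := by
    intro x y hx hy
    have hy' : σ (g⁻¹ * y * g) = σ y := by
      have h1 := hfix _ hy
      rw [map_mul, map_mul, map_inv, hg]
      calc (ι h)⁻¹ * σ y * ι h = (ι h)⁻¹ * (ι h * σ y * (ι h)⁻¹) * ι h := by rw [h1]
        _ = σ y := by group
    obtain ⟨k, hk, ek⟩ := Cfsg.Agent.Lib.SzTorus.exists_ker_of_map hy'
    have e1 : (g * x * g⁻¹) * y * (g * x * g⁻¹)⁻¹ = g * (x * (g⁻¹ * y * g) * x⁻¹) * g⁻¹ := by group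
    have hb : σ (x * (g⁻¹ * y * g) * x⁻¹) ∈ B := hB' _ _ hx (by rw [hy']; exact hCB hy)
    rw [e1, hI g h _ hg hb]
    have hkB : σ k ∈ B := by rw [hk]; exact B.one_mem
    have e2 : x * (g⁻¹ * y * g) * x⁻¹ = (x * y * x⁻¹) * k := by
      rw [ek]
      calc x * (y * k) * x⁻¹ = x * y * (k * x⁻¹) := by simp only [mul_assoc]
        _ = x * y * (x⁻¹ * k) := by rw [hcen k hk]
        _ = _ := by simp only [mul_assoc]
    have hk0 : ρ k = 0 := by
      have h3 := hI g h (g⁻¹ * y * g) hg (by rw [hy']; exact hCB hy)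
      have e3 : g * (g⁻¹ * y * g) * g⁻¹ = y := by group
      rw [e3, ek, hρ.1 _ _ (hCB hy) hkB] at h3
      exact left_eq_add.1 h3
    rw [e2, hρ.1 _ _ (hB' _ _ hx (hCB hy)) hkB, hk0, add_zero]
  intro x y hx hy
  have hyB : σ y ∈ B := hCB hy
  obtain ⟨a', ha', s, hs, eA⟩ := hdv _ hx
  let x' := hE.ce.L a'
  let ss := hE.ce.L s
  have hx' : σ x' = a' := hE.ce.σL _
  have hss : σ ss = s := hE.ce.σL _
  have hgx : σ (g * x' * g⁻¹) = ι h * a' * (ι h)⁻¹ := by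
    rw [map_mul, map_mul, map_inv, hg, hx']
  have hm1 : σ x' ∈ A := by rw [hx']; exact ha'
  have hm2 : σ (g * x' * g⁻¹) ∈ A := by rw [hgx]; exact hAst _ _ ha'
  have hm3 : σ ss ∈ A := by rw [hss]; exact hs
  have hm4 : σ (x' * (g * x' * g⁻¹)) ∈ A := by rw [map_mul]; exact A.mul_mem hm1 hm2
  have hm5 : σ (ss * ss) ∈ A := by rw [map_mul]; exact A.mul_mem hm3 hm3
  have hm6 : σ (x' * (g * x' * g⁻¹) * (ss * ss)) ∈ A := by rw [map_mul]; exact A.mul_mem hm4 hm5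
  have ex : σ x = σ (x' * (g * x' * g⁻¹) * (ss * ss)) := by
    rw [eA, map_mul, map_mul σ x', map_mul σ ss, hgx, hx', hss]
  obtain ⟨k, hk, ek⟩ := Cfsg.Agent.Lib.SzTorus.exists_ker_of_map ex
  have e0 : x * y * x⁻¹ = (x' * (g * x' * g⁻¹) * (ss * ss)) * y * (x' * (g * x' * g⁻¹) * (ss * ss))⁻¹ := by
    apply Cfsg.Agent.Lib.SzTorus.conj_eq_of_map hE.ce.cen ex
  have h1 := hadd _ _ y hm4 hm5 hy
  have h2 := hadd _ _ y hm1 hm2 hy
  have h3 := hadd _ _ y hm3 hm3 hy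
  rw [hgi _ _ hm1 hy, z2] at h2
  rw [z2] at h3
  rw [← e0, h2, h3, add_zero] at h1
  have h5 := z2 (ρ y)
  linear_combination h1 - h5

section tower

variable {H : Type*} [Group H] [Fintype H] (ι : H →* G)

/-- The step of the tower. -/
theorem tower_step (hE : Ext2 σ z) (hodd : Odd (Fintype.card H)) {S : ℕ → ℕ → Subgroup G} {k N : ℕ}
    (hkN : k ≤ N)
    (hbase : ∃ ρ, Ret σ z (S k k) ρ)
    (hemp : S (k + 1) k = ⊥)
    (hR : ∀ j, k + 1 ≤ j → j ≤ N → ∀ x ∈ S (k + 1) j, ∃ d ∈ S (k + 1) (j - 1), ∃ c ∈ S j j, x = d * c)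
    (hL : ∀ x ∈ S k N, ∃ a ∈ S k k, ∃ b ∈ S (k + 1) N, x = a * b)
    (hI : ∀ a, a ∈ S k k → a ∈ S (k + 1) N → a = 1)
    (hC : ∀ j, k < j → j ≤ N → ∀ a ∈ S k k, ∀ c ∈ S j j, ⁅a, c⁆ ∈ S (k + 1) (j - 1))
    (hm : ∀ j, k ≤ j → j ≤ N → S (k + 1) j ≤ S (k + 1) N)
    (hmm : ∀ j, k < j → j ≤ N → S j j ≤ S (k + 1) N)
    (hnrm : ∀ a ∈ S k k, ∀ b ∈ S (k + 1) N, a * b * a⁻¹ ∈ S (k + 1) N)
    (hst : ∀ h a, a ∈ S k k → ι h * a * (ι h)⁻¹ ∈ S k k)
    (hst' : ∀ h a, a ∈ S (k + 1) N → ι h * a * (ι h)⁻¹ ∈ S (k + 1) N)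
    (hsep : ∀ j, k < j → j ≤ N → ∃ h : H, (∀ c ∈ S j j, ι h * c * (ι h)⁻¹ = c) ∧ Dv (ι h) (S k k))
    (hT : ∃ ρ, Ret σ z (S (k + 1) N) ρ) :
    ∃ ρ, Ret σ z (S k N) ρ := by
  obtain ⟨ρ₀, h₀⟩ := hT
  obtain ⟨ρ, hρ, hinv⟩ := exists_inv ι hE hodd hst' h₀
  obtain ⟨ρA, hA⟩ := hbase
  have key : ∀ n j, k + n = j → j ≤ N → ∀ x y, σ x ∈ S k k → σ y ∈ S (k + 1) j → ρ (x * y * x⁻¹) = ρ y := by
    intro n
    induction n with
    | zero =>
      intro j hj _ x y _ hy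
      have hjk : j = k := by omega
      subst hjk
      rw [hemp] at hy
      have h1 : σ y = 1 := Subgroup.mem_bot.1 hy
      have e : x * y * x⁻¹ = y := by
        rw [mul_assoc, hE.ce.cen y h1 x⁻¹, mul_inv_cancel_left]
      rw [e]
    | succ n ih =>
      intro j hj hjN x y hx hy
      have hj1 : k + n = j - 1 := by omega
      have hle : ∀ b, b ∈ S (k + 1) (j - 1) → b ∈ S (k + 1) N := fun b hb => hm (j - 1) (by omega) (by omega) hb
      have hin := inner ι hE hρ hinv hnrm hst (D := S (k + 1) (j - 1)) (C := S j j) hle (hmm j (by omega) hjN)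
        (ih _ hj1 (by omega)) (hC j (by omega) hjN) (hsep j (by omega) hjN)
      obtain ⟨d, hd, c, hc, e⟩ := hR j (by omega) hjN _ hy
      obtain ⟨y', e1⟩ : ∃ y', y = hE.ce.L d * y' := ⟨(hE.ce.L d)⁻¹ * y, by group⟩
      have hy' : σ y' = c := by
        have h3 := congrArg σ e1
        rw [map_mul, hE.ce.σL, e] at h3
        exact (mul_left_cancel h3).symm
      have hd' : σ (hE.ce.L d) ∈ S (k + 1) (j - 1) := by rw [hE.ce.σL]; exact hd
      have hc' : σ y' ∈ S j j := by rw [hy']; exact hc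
      have hdN : σ (hE.ce.L d) ∈ S (k + 1) N := hle _ hd'
      have hcN : σ y' ∈ S (k + 1) N := hmm j (by omega) hjN hc'
      have hs : ∀ b, σ b ∈ S (k + 1) N → σ (x * b * x⁻¹) ∈ S (k + 1) N := by
        intro b hb
        simp only [map_mul, map_inv]
        exact hnrm _ hx _ hb
      have e2 : x * y * x⁻¹ = (x * hE.ce.L d * x⁻¹) * (x * y' * x⁻¹) := by
        rw [e1]
        group
      rw [e2, hρ.1 _ _ (hs _ hdN) (hs _ hcN), ih _ hj1 (by omega) _ _ hx hd', hin _ _ hx hc', e1, hρ.1 _ _ hdN hcN]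
  have hinv' : ∀ x y, σ x ∈ S k k → σ y ∈ S (k + 1) N → ρ (x * y * x⁻¹) = ρ y := key (N - k) N (by omega) le_rfl
  exact glue hE hA hρ hL hI hnrm hinv'

end tower

/-- Two subgroups commuting, one of them centralised by `h` and `h` acting suitably on the other: lifts commute. -/
theorem comm_of_sep (hE : Ext2 σ z) {A C : Subgroup G} (hc : ∀ a ∈ A, ∀ c ∈ C, a * c = c * a) {h : G}
    (hAst : ∀ a ∈ A, h * a * h⁻¹ ∈ A) (hfix : ∀ c ∈ C, h * c * h⁻¹ = c) (hdv : Dv h A) :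
    ∀ x y, σ x ∈ A → σ y ∈ C → x * y = y * x := by
  have hz2 : ∀ k, σ k = 1 → k * k = 1 := by
    intro k hk
    rcases hE.hk k hk with rfl | rfl
    · simp
    · exact hE.hzz
  intro x y hx hy
  apply commutatorElement_eq_one_iff_mul_comm.1
  obtain ⟨a', ha', s, hs, eA⟩ := hdv _ hx
  obtain ⟨g, hg⟩ := hE.ce.surj h
  let x' := hE.ce.L a'
  let ss := hE.ce.L s
  have hx' : σ x' = a' := hE.ce.σL _
  have hss : σ ss = s := hE.ce.σL _
  have hcm : ∀ u, σ u ∈ A → σ u * σ y = σ y * σ u := fun u hu => hc _ hu _ hy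
  have hgx : σ (g * x' * g⁻¹) = h * a' * h⁻¹ := by
    rw [map_mul, map_mul, map_inv, hg, hx']
  have hm1 : σ x' ∈ A := by rw [hx']; exact ha'
  have hm2 : σ (g * x' * g⁻¹) ∈ A := by rw [hgx]; exact hAst _ ha'
  have hm3 : σ ss ∈ A := by rw [hss]; exact hs
  have hm5 : σ (ss * ss) ∈ A := by rw [map_mul]; exact A.mul_mem hm3 hm3
  have e1 : ⁅x, y⁆ = ⁅x' * (g * x' * g⁻¹) * (ss * ss), y⁆ := by
    apply hE.ce.cm_eq _ rfl
    rw [eA, map_mul, map_mul σ x', map_mul σ ss, hgx, hx', hss]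
  rw [e1, hE.ce.cm_left (hcm _ hm5), hE.ce.cm_left (hcm _ hm2), hE.ce.cm_left (hcm _ hm3)]
  have e2 : ⁅g * x' * g⁻¹, y⁆ = ⁅x', y⁆ := by
    apply hE.ce.cm_conj h
    · rw [hgx, hx']
    · rw [hfix _ hy]
    · exact hcm _ hm1
  rw [e2, hz2 _ (CExt.cm_ker (hcm _ hm1)), hz2 _ (CExt.cm_ker (hcm _ hm3)), one_mul]

/-- The three subgroups lemma for lifts. -/
theorem three (hE : Ext2 σ z) {A₁ A₂ Y M : Subgroup G} (h31 : ∀ y ∈ Y, ∀ a ∈ A₁, y * a = a * y)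
    (h23 : ∀ b ∈ A₂, ∀ y ∈ Y, ⁅b, y⁆ ∈ M) (hMA : ∀ m a, σ m ∈ M → σ a ∈ A₁ → m * a = a * m) :
    ∀ a b y, σ a ∈ A₁ → σ b ∈ A₂ → σ y ∈ Y → ⁅a, b⁆ * y = y * ⁅a, b⁆ := by
  have h1 : ⁅⁅A₂.comap σ, Y.comap σ⁆, A₁.comap σ⁆ = ⊥ := by
    rw [eq_bot_iff, Subgroup.commutator_le]
    intro w hw a ha
    have hwM : w ∈ M.comap σ := by
      have hle : ⁅A₂.comap σ, Y.comap σ⁆ ≤ M.comap σ := by
        rw [Subgroup.commutator_le]
        intro b hb y hy
        show σ ⁅b, y⁆ ∈ M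
        rw [map_commutatorElement]
        exact h23 _ hb _ hy
      exact hle hw
    rw [Subgroup.mem_bot]
    exact commutatorElement_eq_one_iff_mul_comm.2 (hMA _ _ hwM ha)
  have h2 : ⁅⁅Y.comap σ, A₁.comap σ⁆, A₂.comap σ⁆ = ⊥ := by
    rw [eq_bot_iff, Subgroup.commutator_le]
    intro w hw b hb
    have hwZ : w ∈ σ.ker := by
      have hle : ⁅Y.comap σ, A₁.comap σ⁆ ≤ σ.ker := by
        rw [Subgroup.commutator_le]
        intro y hy a ha
        exact CExt.cm_ker (h31 _ hy _ ha)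
      exact hle hw
    rw [Subgroup.mem_bot]
    exact commutatorElement_eq_one_iff_mul_comm.2 (hE.ce.cen _ hwZ b)
  have h3 := Subgroup.commutator_commutator_eq_bot_of_rotate h1 h2
  intro a b y ha hb hy
  apply commutatorElement_eq_one_iff_mul_comm.1
  have h4 : ⁅⁅a, b⁆, y⁆ ∈ ⁅⁅A₁.comap σ, A₂.comap σ⁆, Y.comap σ⁆ :=
    Subgroup.commutator_mem_commutator (Subgroup.commutator_mem_commutator ha hb) hy
  rw [h3] at h4
  exact Subgroup.mem_bot.1 h4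

/-- The empty retraction. -/
theorem ret_bot (hE : Ext2 σ z) : ∃ ρ, Ret σ z ⊥ ρ := by
  classical
  refine ret_of_sq hE ⊥ ⊥ (fun y hy => ?_) (fun h => hE.hz1 (Subgroup.mem_bot.1 h))
  rw [Subgroup.mem_bot]
  rcases hE.hk y (Subgroup.mem_bot.1 hy) with rfl | rfl
  · simp
  · exact hE.hzz

section tower2

variable {H : Type*} [Group H] [Fintype H] (ι : H →* G)

/-- The tower. -/
theorem tower (hE : Ext2 σ z) (hodd : Odd (Fintype.card H)) {S : ℕ → ℕ → Subgroup G} {N : ℕ}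
    (hbase : ∀ k, 1 ≤ k → k ≤ N → ∃ ρ, Ret σ z (S k k) ρ)
    (hemp : ∀ i j, j < i → S i j = ⊥)
    (hR : ∀ k j, 1 ≤ k → k + 1 ≤ j → j ≤ N → ∀ x ∈ S (k + 1) j, ∃ d ∈ S (k + 1) (j - 1), ∃ c ∈ S j j, x = d * c)
    (hL : ∀ k, 1 ≤ k → k ≤ N → ∀ x ∈ S k N, ∃ a ∈ S k k, ∃ b ∈ S (k + 1) N, x = a * b)
    (hI : ∀ k, 1 ≤ k → k ≤ N → ∀ a, a ∈ S k k → a ∈ S (k + 1) N → a = 1)
    (hC : ∀ k j, 1 ≤ k → k < j → j ≤ N → ∀ a ∈ S k k, ∀ c ∈ S j j, ⁅a, c⁆ ∈ S (k + 1) (j - 1))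
    (hm : ∀ k j, 1 ≤ k → k ≤ j → j ≤ N → S (k + 1) j ≤ S (k + 1) N)
    (hmm : ∀ k j, 1 ≤ k → k < j → j ≤ N → S j j ≤ S (k + 1) N)
    (hnrm : ∀ k, 1 ≤ k → k ≤ N → ∀ a ∈ S k k, ∀ b ∈ S (k + 1) N, a * b * a⁻¹ ∈ S (k + 1) N)
    (hst : ∀ i j h a, a ∈ S i j → ι h * a * (ι h)⁻¹ ∈ S i j)
    (hsep : ∀ k j, 1 ≤ k → k < j → j ≤ N → ∃ h : H, (∀ c ∈ S j j, ι h * c * (ι h)⁻¹ = c) ∧ Dv (ι h) (S k k)) :
    ∃ ρ, Ret σ z (S 1 N) ρ := by
  have key : ∀ n k, k + n = N + 1 → 1 ≤ k → ∃ ρ, Ret σ z (S k N) ρ := by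
    intro n
    induction n with
    | zero =>
      intro k hk _
      have hkN : N < k := by omega
      rw [hemp _ _ hkN]
      exact ret_bot hE
    | succ n ih =>
      intro k hk hk1
      have hkN : k ≤ N := by omega
      exact tower_step ι hE hodd hkN (hbase k hk1 hkN) (hemp _ _ (by omega)) (hR k · hk1) (hL k hk1 hkN) (hI k hk1 hkN)
        (hC k · hk1) (hm k · hk1) (hmm k · hk1) (hnrm k hk1 hkN) (hst k k) (hst (k + 1) N) (hsep k · hk1) (ih (k + 1) (by omega) (by omega))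
  by_cases hN : 1 ≤ N
  · exact key N 1 (by omega) le_rfl
  · rw [hemp _ _ (by omega)]
    exact ret_bot hE

end tower2

section base

variable {F : Type*} [Field F] [Fintype F]

theorem exists_ne01 (hq : 5 ≤ Fintype.card F) : ∃ l : F, l ≠ 0 ∧ l ≠ 1 := by
  classical
  obtain ⟨x, hx⟩ := Cfsg.Agent.Lib.Chev.TwG2.PairA.exists_not_mem (F := F) {0, 1} (by
    have := Finset.card_le_two (a := (0 : F)) (b := 1)
    omega)
  simp only [Finset.mem_insert, Finset.mem_singleton, not_or] at hx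
  exact ⟨x, hx.1, hx.2⟩

/-- Type `A`: an elementary abelian group with a transitive scaling action. -/
theorem ret_A (hq : 5 ≤ Fintype.card F) (h2 : (2 : F) = 0) (hsq : ∀ y : Fˣ, IsSquare y ∨ IsSquare (-y)) (hE : Ext2 σ z) {A : Subgroup G} (E : F → G)
    (hadd : ∀ a b, E (a + b) = E a * E b) (hcomm : ∀ a b, E a * E b = E b * E a) (hA : ∀ x ∈ A, ∃ t, x = E t)
    (hscale : ∀ s : F, s ≠ 0 → ∃ g : G, ∀ a, E (s * a) = g * E a * g⁻¹) : ∃ ρ, Ret σ z A ρ := by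
  have hL := hE.ce.lift_pair hq hsq E hadd hcomm (fun s hs => by
    obtain ⟨g, hg⟩ := hscale (s * s) (mul_ne_zero hs hs)
    exact ⟨g, hg⟩)
  have hz2 : ∀ k, σ k = 1 → k * k = 1 := by
    intro k hk
    rcases hE.hk k hk with rfl | rfl
    · simp
    · exact hE.hzz
  have hE0 : E 0 = 1 := by
    have := hadd 0 0
    rw [add_zero] at this
    exact left_eq_mul.1 this
  have hcm : ∀ x y a b, σ x = E a → σ y = E b → x * y = y * x := by
    intro x y a b hx hy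
    apply commutatorElement_eq_one_iff_mul_comm.1
    rw [← hL a b]
    apply hE.ce.cm_eq
    · rw [hx, hE.ce.σL]
    · rw [hy, hE.ce.σL]
  refine ret_of_sq hE A ⊥ (fun y hy => ?_) (fun h => hE.hz1 (Subgroup.mem_bot.1 h))
  rw [Subgroup.mem_bot]
  obtain ⟨t, ht⟩ := hA _ hy
  obtain ⟨l, hl0, hl1⟩ := exists_ne01 hq
  have hl : 1 + l ≠ 0 := by
    intro h
    apply hl1
    linear_combination h - h2
  obtain ⟨g, hg⟩ := hscale l hl0
  let t' := t * (1 + l)⁻¹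
  have et : t = t' + l * t' := by
    simp only [t']
    field_simp
  obtain ⟨g', hg'⟩ := hE.ce.surj g
  let X := hE.ce.L (E t')
  have hX : σ X = E t' := hE.ce.σL _
  have hC : σ (g' * X * g'⁻¹) = E (l * t') := by
    rw [map_mul, map_mul, map_inv, hg', hX, hg]
  have hXX : σ (X * X) = 1 := by
    rw [map_mul, hX, ← hadd]
    have : t' + t' = 0 := by linear_combination t' * h2
    rw [this, hE0]
  have e1 : σ y = σ (X * (g' * X * g'⁻¹)) := by
    rw [ht, map_mul, hC, hX, ← hadd, ← et]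
  obtain ⟨k, hk, ek⟩ := Cfsg.Agent.Lib.SzTorus.exists_ker_of_map e1
  have hcXC : X * (g' * X * g'⁻¹) = (g' * X * g'⁻¹) * X := hcm _ _ _ _ hX hC
  have e2 : (g' * X * g'⁻¹) * (g' * X * g'⁻¹) = X * X := by
    have e3 : (g' * X * g'⁻¹) * (g' * X * g'⁻¹) = g' * (X * X) * g'⁻¹ := by group
    rw [e3, mul_assoc, hE.ce.cen _ hXX g'⁻¹, mul_inv_cancel_left]
  have e4 : (X * (g' * X * g'⁻¹)) * (X * (g' * X * g'⁻¹)) = (X * X) * (X * X) := by
    calc (X * (g' * X * g'⁻¹)) * (X * (g' * X * g'⁻¹)) = X * ((g' * X * g'⁻¹) * X) * (g' * X * g'⁻¹) := by simp only [mul_assoc]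
      _ = X * (X * (g' * X * g'⁻¹)) * (g' * X * g'⁻¹) := by rw [hcXC]
      _ = (X * X) * ((g' * X * g'⁻¹) * (g' * X * g'⁻¹)) := by simp only [mul_assoc]
      _ = _ := by rw [e2]
  rw [ek]
  have e5 : (X * (g' * X * g'⁻¹)) * k * ((X * (g' * X * g'⁻¹)) * k) = ((X * (g' * X * g'⁻¹)) * (X * (g' * X * g'⁻¹))) * (k * k) := by
    calc (X * (g' * X * g'⁻¹)) * k * ((X * (g' * X * g'⁻¹)) * k) = (X * (g' * X * g'⁻¹)) * (k * (X * (g' * X * g'⁻¹))) * k := by simp only [mul_assoc]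
      _ = (X * (g' * X * g'⁻¹)) * ((X * (g' * X * g'⁻¹)) * k) * k := by rw [hE.ce.cen k hk]
      _ = _ := by simp only [mul_assoc]
  rw [e5, e4, hz2 _ hk, mul_one, hz2 _ hXX]

/-- Type `B`: a group of Suzuki type with a central lifted part. -/
theorem ret_B {H : Type*} [Group H] [Fintype H] (ι : H →* G) (hodd : Odd (Fintype.card H))
    (hq : 5 ≤ Fintype.card F) (h2 : (2 : F) = 0) (hsq : ∀ y : Fˣ, IsSquare y ∨ IsSquare (-y)) (hE : Ext2 σ z) {A : Subgroup G}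
    (E : F → F → G) (f : F →+* F)
    (hmul : ∀ t u t' u', E t u * E t' u' = E (t + t') (u + u' + f t * t'))
    (hA : ∀ x ∈ A, ∃ t u, x = E t u)
    (hact : ∀ h : H, ∃ l : F, ∀ t u, ι h * E t u * (ι h)⁻¹ = E (l * t) (l * f l * u))
    (hsurj : ∀ l : F, l ≠ 0 → ∃ h : H, ∀ t u, ι h * E t u * (ι h)⁻¹ = E (l * t) (l * f l * u))
    (hw : ∀ w : F, w ≠ 0 → ∃ b : F, b ≠ 0 ∧ b * f b = w)
    (hcen : ∀ u x y t v, σ x = E 0 u → σ y = E t v → x * y = y * x) :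
    ∃ ρ, Ret σ z A ρ := by
  have hz2 : ∀ k, σ k = 1 → k * k = 1 := by
    intro k hk
    rcases hE.hk k hk with rfl | rfl
    · simp
    · exact hE.hzz
  have hE00 : E 0 0 = 1 := by
    have := hmul 0 0 0 0
    simp only [map_zero, mul_zero, add_zero] at this
    exact mul_eq_left.1 this
  have h00 : ∀ u u', E 0 u * E 0 u' = E 0 (u + u') := by
    intro u u'
    rw [hmul]
    simp
  have hsplit : ∀ t u, E t 0 * E 0 u = E t u := by
    intro t u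
    rw [hmul]
    simp
  have hsplit' : ∀ t u, E 0 u * E t 0 = E t u := by
    intro t u
    rw [hmul]
    simp
  have hcom0 : ∀ T w, E T 0 * E 0 w = E 0 w * E T 0 := by
    intro T w
    rw [hsplit, hsplit']
  have h0inv : ∀ u, (E 0 u)⁻¹ = E 0 u := by
    intro u
    apply inv_eq_of_mul_eq_one_right
    rw [h00]
    have : u + u = 0 := by linear_combination u * h2
    rw [this, hE00]
  let C : Subgroup G :=
    { carrier := Set.range (E 0)
      mul_mem' := by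
        rintro _ _ ⟨u, rfl⟩ ⟨u', rfl⟩
        exact ⟨u + u', (h00 u u').symm⟩
      one_mem' := ⟨0, hE00⟩
      inv_mem' := by
        rintro _ ⟨u, rfl⟩
        exact ⟨u, (h0inv u).symm⟩ }
  have hCm : ∀ u, E 0 u ∈ C := fun u => ⟨u, rfl⟩
  -- the retraction on the central part
  obtain ⟨ρ₀, hρ₀⟩ : ∃ ρ, Ret σ z C ρ := by
    refine ret_A hq h2 hsq hE (E 0) (fun a b => (h00 a b).symm) (fun a b => by rw [h00, h00, add_comm]) ?_ ?_
    · rintro _ ⟨u, rfl⟩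
      exact ⟨u, rfl⟩
    · intro s hs
      obtain ⟨b, hb0, hb⟩ := hw s hs
      obtain ⟨h, hh⟩ := hsurj b hb0
      refine ⟨ι h, fun a => ?_⟩
      rw [hh, hb]
      simp
  obtain ⟨ρ, hρ, hinv⟩ := exists_inv ι hE hodd (A := C) (by
    rintro h _ ⟨u, rfl⟩
    obtain ⟨l, hl⟩ := hact h
    rw [hl]
    simp only [mul_zero]
    exact hCm _) hρ₀
  -- notation for elements over the group
  let Y : Γ → Prop := fun x => ∃ t u, σ x = E t u
  have hYmul : ∀ x y, Y x → Y y → Y (x * y) := by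
    rintro x y ⟨t, u, hx⟩ ⟨t', u', hy⟩
    exact ⟨_, _, by rw [map_mul, hx, hy, hmul]⟩
  have hYinv : ∀ x, Y x → Y x⁻¹ := by
    rintro x ⟨t, u, hx⟩
    refine ⟨t, u + f t * t, ?_⟩
    rw [map_inv, hx]
    apply inv_eq_of_mul_eq_one_right
    rw [hmul]
    have e1 : t + t = 0 := by linear_combination t * h2
    have e2 : u + (u + f t * t) + f t * t = 0 := by linear_combination (u + f t * t) * h2
    rw [e1, e2, hE00]
  -- commutators and squares lie over the central part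
  have hcomC : ∀ x y, Y x → Y y → σ ⁅x, y⁆ ∈ C := by
    rintro x y ⟨t, u, hx⟩ ⟨t', u', hy⟩
    have e1 : σ ⁅x, y⁆ = (E t u * E t' u') * (E t' u' * E t u)⁻¹ := by
      rw [commutatorElement_def, map_mul, map_mul, map_mul, map_inv, map_inv, hx, hy]
      group
    rw [e1, hmul, hmul, add_comm t' t, ← hsplit (t + t') (u + u' + f t * t'), ← hsplit (t + t') (u' + u + f t' * t)]
    have e2 : E (t + t') 0 * E 0 (u + u' + f t * t') * (E (t + t') 0 * E 0 (u' + u + f t' * t))⁻¹ =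
        E (t + t') 0 * (E 0 (u + u' + f t * t') * (E 0 (u' + u + f t' * t))⁻¹) * (E (t + t') 0)⁻¹ := by group
    rw [e2, h0inv, h00, hcom0, mul_inv_cancel_right]
    exact hCm _
  have hsqC : ∀ x, Y x → σ (x * x) ∈ C := by
    rintro x ⟨t, u, hx⟩
    rw [map_mul, hx, hmul]
    have e1 : t + t = 0 := by linear_combination t * h2
    rw [e1]
    exact hCm _
  have hcen' : ∀ w x, σ w ∈ C → Y x → w * x = x * w := by
    rintro w x ⟨u, hu⟩ ⟨t, v, hx⟩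
    exact hcen u w x t v hu.symm hx
  have hYC : ∀ w, σ w ∈ C → Y w := by
    rintro w ⟨u, hu⟩
    exact ⟨0, u, hu.symm⟩
  have hc_left : ∀ x x' y, Y x → Y x' → Y y → ρ ⁅x * x', y⁆ = ρ ⁅x, y⁆ + ρ ⁅x', y⁆ := by
    intro x x' y hx hx' hy
    rw [Cfsg.Agent.Lib.SzTorus.cm_mul_left (hcen' _ _ (hcomC _ _ hx' hy) hx).symm, hρ.1 _ _ (hcomC _ _ hx' hy) (hcomC _ _ hx hy), add_comm]
  have hc_right : ∀ x y y', Y x → Y y → Y y' → ρ ⁅x, y * y'⁆ = ρ ⁅x, y⁆ + ρ ⁅x, y'⁆ := by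
    intro x y y' hx hy hy'
    rw [Cfsg.Agent.Lib.SzTorus.cm_mul_right (hcen' _ _ (hcomC _ _ hx hy') hy).symm, hρ.1 _ _ (hcomC _ _ hx hy) (hcomC _ _ hx hy')]
  have hc_cen : ∀ w y, σ w ∈ C → Y y → ρ ⁅w, y⁆ = 0 := by
    intro w y hw hy
    rw [commutatorElement_eq_one_iff_mul_comm.2 (hcen' _ _ hw hy), hρ.map_one]
  have hc_cen' : ∀ x w, Y x → σ w ∈ C → ρ ⁅x, w⁆ = 0 := by
    intro x w hx hw
    rw [commutatorElement_eq_one_iff_mul_comm.2 (hcen' _ _ hw hx).symm, hρ.map_one]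
  let Lt : F → Γ := fun t => hE.ce.L (E t 0)
  have hLt : ∀ t, σ (Lt t) = E t 0 := fun t => hE.ce.σL _
  have hYL : ∀ t, Y (Lt t) := fun t => ⟨t, 0, hLt t⟩
  -- every element over the group is a lift times an element over the central part
  have hdec : ∀ x t u, σ x = E t u → ∃ w, σ w ∈ C ∧ x = Lt t * w := by
    intro x t u hx
    refine ⟨(Lt t)⁻¹ * x, ?_, by group⟩
    rw [map_mul, map_inv, hLt, hx, ← hsplit t u, inv_mul_cancel_left]
    exact hCm _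
  have hc_add1 : ∀ a a' b, ρ ⁅Lt (a + a'), Lt b⁆ = ρ ⁅Lt a, Lt b⁆ + ρ ⁅Lt a', Lt b⁆ := by
    intro a a' b
    rw [← hc_left _ _ _ (hYL a) (hYL a') (hYL b)]
    obtain ⟨w, hw, e⟩ := hdec (Lt a * Lt a') (a + a') (0 + 0 + f a * a') (by rw [map_mul, hLt, hLt, hmul])
    rw [e, hc_left _ _ _ (hYL _) (hYC _ hw) (hYL _), hc_cen _ _ hw (hYL _), add_zero]
  have hc_add2 : ∀ a b b', ρ ⁅Lt a, Lt (b + b')⁆ = ρ ⁅Lt a, Lt b⁆ + ρ ⁅Lt a, Lt b'⁆ := by
    intro a b b'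
    rw [← hc_right _ _ _ (hYL a) (hYL b) (hYL b')]
    obtain ⟨w, hw, e⟩ := hdec (Lt b * Lt b') (b + b') (0 + 0 + f b * b') (by rw [map_mul, hLt, hLt, hmul])
    rw [e, hc_right _ _ _ (hYL _) (hYL _) (hYC _ hw), hc_cen' _ _ (hYL _) hw, add_zero]
  have hc_scale : ∀ s : F, s ≠ 0 → ∀ a b, ρ ⁅Lt (s * s * a), Lt (s * s * b)⁆ = ρ ⁅Lt a, Lt b⁆ := by
    intro s hs a b
    obtain ⟨h, hh⟩ := hsurj (s * s) (mul_ne_zero hs hs)
    obtain ⟨g, hg⟩ := hE.ce.surj (ι h)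
    have e1 : ⁅Lt (s * s * a), Lt (s * s * b)⁆ = ⁅g * Lt a * g⁻¹, g * Lt b * g⁻¹⁆ := by
      apply hE.ce.cm_eq
      · rw [hLt, map_mul, map_mul, map_inv, hg, hLt, hh, mul_zero]
      · rw [hLt, map_mul, map_mul, map_inv, hg, hLt, hh, mul_zero]
    rw [e1, ← Cfsg.Agent.Lib.SzTorus.conj_comm_eq, hinv g h _ hg (hcomC _ _ (hYL a) (hYL b))]
  have hc0 : ∀ a b, ρ ⁅Lt a, Lt b⁆ = 0 := Cfsg.Agent.Lib.Chev.TwG2.PairA.add_main hq hsq (fun a b => ρ ⁅Lt a, Lt b⁆) hc_add1 hc_add2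
    (fun a => by simp only [commutatorElement_self]; exact hρ.map_one) hc_scale
  have hcc0 : ∀ x y, Y x → Y y → ρ ⁅x, y⁆ = 0 := by
    rintro x y ⟨t, u, hx⟩ ⟨t', u', hy⟩
    obtain ⟨w, hw, rfl⟩ := hdec x t u hx
    obtain ⟨w', hw', rfl⟩ := hdec y t' u' hy
    rw [hc_left _ _ _ (hYL _) (hYC _ hw) (hYmul _ _ (hYL _) (hYC _ hw')), hc_cen _ _ hw (hYmul _ _ (hYL _) (hYC _ hw')), add_zero,
      hc_right _ _ _ (hYL _) (hYL _) (hYC _ hw'), hc_cen' _ _ (hYL _) hw', add_zero, hc0]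
  have hss : ∀ x y, Y x → Y y → ρ ((x * y) * (x * y)) = ρ (x * x) + ρ (y * y) := by
    intro x y hx hy
    have e1 : (x * y) * (x * y) = (x * x) * ⁅x⁻¹, y⁆ * (y * y) := by
      rw [commutatorElement_def]
      group
    have hm1 := hcomC _ _ (hYinv _ hx) hy
    have hm2 : σ ((x * x) * ⁅x⁻¹, y⁆) ∈ C := by
      rw [map_mul]
      exact C.mul_mem (hsqC _ hx) hm1
    rw [e1, hρ.1 _ _ hm2 (hsqC _ hy), hρ.1 _ _ (hsqC _ hx) hm1, hcc0 _ _ (hYinv _ hx) hy, add_zero]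
  have hss0 : ∀ x, Y x → ρ (x * x) = 0 := by
    rintro x ⟨t, u, hx⟩
    obtain ⟨l, hl0, hl1⟩ := exists_ne01 hq
    have hl : 1 + l ≠ 0 := by
      intro h
      apply hl1
      linear_combination h - h2
    obtain ⟨h, hh⟩ := hsurj l hl0
    obtain ⟨g, hg⟩ := hE.ce.surj (ι h)
    let t' := t * (1 + l)⁻¹
    have et : t' + l * t' = t := by
      simp only [t']
      field_simp
    let X := Lt t'
    have hC : σ (g * X * g⁻¹) = E (l * t') 0 := by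
      rw [map_mul, map_mul, map_inv, hg, hLt, hh, mul_zero]
    have hYC' : Y (g * X * g⁻¹) := ⟨_, _, hC⟩
    obtain ⟨w, hw, e⟩ : ∃ w, σ w ∈ C ∧ x = (X * (g * X * g⁻¹)) * w := by
      refine ⟨(X * (g * X * g⁻¹))⁻¹ * x, ?_, by group⟩
      have e1 : σ (X * (g * X * g⁻¹)) = E t (f t' * (l * t')) := by
        rw [map_mul, hC, hLt, hmul, et]
        simp
      rw [map_mul, map_inv, e1, hx, ← hsplit t (f t' * (l * t')), ← hsplit t u]
      have e2 : (E t 0 * E 0 (f t' * (l * t')))⁻¹ * (E t 0 * E 0 u) = (E 0 (f t' * (l * t')))⁻¹ * E 0 u := by group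
      rw [e2, h0inv, h00]
      exact hCm _
    have e3 : ρ ((g * X * g⁻¹) * (g * X * g⁻¹)) = ρ (X * X) := by
      have e4 : (g * X * g⁻¹) * (g * X * g⁻¹) = g * (X * X) * g⁻¹ := by group
      rw [e4, hinv g h _ hg (hsqC _ (hYL _))]
    rw [e, hss _ _ (hYmul _ _ (hYL _) hYC') (hYC _ hw), hss _ _ (hYL _) hYC', e3, z2, zero_add, hρ.1 _ _ hw hw, z2]
  let W : Subgroup Γ :=
    { carrier := {x | σ x ∈ C ∧ ρ x = 0}
      mul_mem' := by
        rintro a b ⟨ha, ha'⟩ ⟨hb, hb'⟩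
        refine ⟨by rw [map_mul]; exact C.mul_mem ha hb, ?_⟩
        rw [hρ.1 _ _ ha hb, ha', hb', add_zero]
      one_mem' := ⟨by rw [map_one]; exact C.one_mem, hρ.map_one⟩
      inv_mem' := by
        rintro a ⟨ha, ha'⟩
        refine ⟨by rw [map_inv]; exact C.inv_mem ha, ?_⟩
        rw [hρ.map_inv ha, ha'] }
  refine ret_of_sq hE A W (fun y hy => ?_) (fun h => ?_)
  · obtain ⟨t, u, e⟩ := hA _ hy
    exact ⟨hsqC _ ⟨t, u, e⟩, hss0 _ ⟨t, u, e⟩⟩
  · have h1 := h.2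
    rw [hρ.2] at h1
    exact one_ne_zero h1

end base

end inner

end Cfsg.Agent.Lib.Chev.SchTwo
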