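import Cfsg.Agent.Lib.ChevAut.SimpleRoot
import Cfsg.Agent.Lib.Chev.TwSCBN
import Cfsg.Agent.Lib.Chev.TwSCP

/-!
# Automorphisms of twisted groups with orthogonal classes: the root words of a class
-/

set_option autoImplicit false
set_option linter.unusedSectionVars false
set_option linter.unusedVariables false
set_option linter.unnecessarySimpa false

namespace Cfsg.Agent.Lib.Chev.TwAut

open Cfsg.Lie Matrix Equiv Cfsg.Agent.Lib.Chev
open Cfsg.Agent.Lib.Chev.Full (cellS)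

variable {T : Tabs} {X : Extra} {R : RootTab} {D : ChevalleyDatum} {F : Type*} [Field F]
variable {hF : Full T X R D} {τ : Tw hF F} {f : F ≃+* F} {ρ' π' : ℕ → ℕ} {J : ℕ → List ℕ} {A dd : ℕ → ℕ}
variable (h : SCOK τ f ρ' π' J A dd)

/-- The word of a class, positive. -/
noncomputable def wP (_h : SCOK τ f ρ' π' J A dd) (i : ℕ) (t : F) : GL D.Idx F :=
  hF.c.wordG (cw ρ' f (D.simple (A i)) (dd i) t)

/-- The word of a class, negative. -/
noncomputable def wN (_h : SCOK τ f ρ' π' J A dd) (i : ℕ) (t : F) : GL D.Idx F :=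
  hF.c.wordG (cw ρ' f (D.neg (D.simple (A i))) (dd i) t)

/-- The product of `n`-elements of a class. -/
noncomputable def nW (_h : SCOK τ f ρ' π' J A dd) (i : ℕ) (t : F) : GL D.Idx F :=
  ((List.range (dd i)).map fun k => hF.c.nG (ρ'^[k] (D.simple (A i))) (f^[k] t)).prod

/-- The product of `h`-elements of a class. -/
noncomputable def HH (_h : SCOK τ f ρ' π' J A dd) (i : ℕ) (t : F) : GL D.Idx F :=
  ((List.range (dd i)).map fun k => hF.c.hG (ρ'^[k] (D.simple (A i))) (f^[k] t)).prod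

/-- The element of `N` of a class. -/
noncomputable def nCl (_h : SCOK τ f ρ' π' J A dd) (i : ℕ) : GL D.Idx F :=
  ((J i).map hF.nS).prod

include h

theorem wP_mem {i : ℕ} (hi : i < D.rank) {t : F} (ht : f^[dd i] t = t) : wP h i t ∈ h.G1 :=
  Subgroup.subset_closure ⟨i, hi, t, ht, Or.inl rfl⟩

theorem wN_mem {i : ℕ} (hi : i < D.rank) {t : F} (ht : f^[dd i] t = t) : wN h i t ∈ h.G1 :=
  Subgroup.subset_closure ⟨i, hi, t, ht, Or.inr rfl⟩

theorem wP_add {i : ℕ} (hi : i < D.rank) (a b : F) : wP h i (a + b) = wP h i a * wP h i b :=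
  h.word_add hi a b

theorem wN_add {i : ℕ} (hi : i < D.rank) (a b : F) : wN h i (a + b) = wN h i a * wN h i b :=
  h.word_add_neg hi a b

theorem iter_zero (k : ℕ) : f^[k] (0 : F) = 0 := by
  induction k with
  | zero => rfl
  | succ k ih => rw [Function.iterate_succ_apply', ih, map_zero]

theorem iter_neg' (k : ℕ) (t : F) : f^[k] (-t) = - f^[k] t := by
  induction k with
  | zero => rfl
  | succ k ih => rw [Function.iterate_succ_apply', Function.iterate_succ_apply', ih, map_neg]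

theorem wP_zero (i : ℕ) : wP h i 0 = 1 := by
  unfold wP cw
  have key : ∀ L : List ℕ, hF.c.wordG (L.map fun k => (ρ'^[k] (D.simple (A i)), f^[k] (0 : F))) = 1 := by
    intro L
    induction L with
    | nil => exact hF.c.wordG_nil
    | cons a L ih =>
      rw [List.map_cons, Checks.wordG_cons, ih, iter_zero h, Checks.xG_zero, one_mul]
  exact key _

theorem wN_zero (i : ℕ) : wN h i 0 = 1 := by
  unfold wN cw
  have key : ∀ L : List ℕ, hF.c.wordG (L.map fun k => (ρ'^[k] (D.neg (D.simple (A i))), f^[k] (0 : F))) = 1 := by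
    intro L
    induction L with
    | nil => exact hF.c.wordG_nil
    | cons a L ih =>
      rw [List.map_cons, Checks.wordG_cons, ih, iter_zero h, Checks.xG_zero, one_mul]
  exact key _

theorem wP_neg {i : ℕ} (hi : i < D.rank) (a : F) : wP h i (-a) = (wP h i a)⁻¹ := by
  rw [eq_inv_iff_mul_eq_one, ← wP_add h hi, neg_add_cancel, wP_zero]

theorem wN_neg {i : ℕ} (hi : i < D.rank) (a : F) : wN h i (-a) = (wN h i a)⁻¹ := by
  rw [eq_inv_iff_mul_eq_one, ← wN_add h hi, neg_add_cancel, wN_zero]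

/-- roots of the class -/
theorem rk_eq {i : ℕ} (hi : i < D.rank) (k : ℕ) :
    ρ'^[k] (D.simple (A i)) = D.simple (π'^[k] (A i)) := (h.iter_simple k _ (h.A_lt i hi)).2

theorem rk_lt {i : ℕ} (hi : i < D.rank) (k : ℕ) : π'^[k] (A i) < D.rank := (h.iter_simple k _ (h.A_lt i hi)).1

theorem rkn_eq {i : ℕ} (hi : i < D.rank) (k : ℕ) :
    ρ'^[k] (D.neg (D.simple (A i))) = D.neg (ρ'^[k] (D.simple (A i))) := by
  apply h.iter_neg k (hF.simple_lt (h.A_lt i hi))
  intro m _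
  rw [rk_eq h hi]
  exact hF.simple_lt (rk_lt h hi m)

theorem mem_Jk {i : ℕ} (hi : i < D.rank) {k : ℕ} (hk : k < dd i) : π'^[k] (A i) ∈ J i := by
  rw [h.J_eq i hi]
  exact List.mem_map.2 ⟨k, List.mem_range.2 hk, rfl⟩

theorem Jk_ne {i : ℕ} (hi : i < D.rank) {k l : ℕ} (hk : k < dd i) (hl : l < dd i) (hkl : k ≠ l) :
    π'^[k] (A i) ≠ π'^[l] (A i) := by
  intro e
  have hnd := h.nd i hi
  rw [h.J_eq i hi] at hnd
  exact hkl ((List.inj_on_of_nodup_map hnd) (List.mem_range.2 hk) (List.mem_range.2 hl) e)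

/-- Commutation across a class. -/
theorem cross {i : ℕ} (hi : i < D.rank) {k l : ℕ} (hk : k < dd i) (hl : l < dd i) (hkl : k ≠ l) (a b : F) :
    Commute (hF.c.xG (ρ'^[k] (D.simple (A i))) a) (hF.c.xG (ρ'^[l] (D.simple (A i))) b) ∧
    Commute (hF.c.xG (ρ'^[k] (D.simple (A i))) a) (hF.c.xG (D.neg (ρ'^[l] (D.simple (A i)))) b) ∧
    Commute (hF.c.xG (D.neg (ρ'^[k] (D.simple (A i)))) a) (hF.c.xG (ρ'^[l] (D.simple (A i))) b) ∧
    Commute (hF.c.xG (D.neg (ρ'^[k] (D.simple (A i)))) a) (hF.c.xG (D.neg (ρ'^[l] (D.simple (A i)))) b) := by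
  have hne := Jk_ne h hi hk hl hkl
  obtain ⟨⟨h1, h2⟩, ⟨h3, h4, h5⟩, ⟨h6, h7, h8⟩⟩ := h.orth i hi _ (mem_Jk h hi hk) _ (mem_Jk h hi hl) hne
  obtain ⟨⟨h1', h2'⟩, ⟨h3', h4', h5'⟩, -⟩ := h.orth i hi _ (mem_Jk h hi hl) _ (mem_Jk h hi hk) hne.symm
  have hal := rk_lt h hi k
  have hbl := rk_lt h hi l
  simp only [rk_eq h hi]
  refine ⟨?_, ?_, ?_, ?_⟩
  · refine Full.xG_commute_of_nil (hF := hF) (hF.simple_lt hal) (hF.simple_lt hbl) ?_ h1 h2 a b
    intro e2
    exact hne (hF.simple_inj hbl hal e2).symm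
  · exact Full.xG_commute_of_nil (hF := hF) (hF.simple_lt hal) (hF.neg_lt (hF.simple_lt hbl)) h3 h4 h5 a b
  · exact (Full.xG_commute_of_nil (hF := hF) (hF.simple_lt hbl) (hF.neg_lt (hF.simple_lt hal)) h3' h4' h5' _ _).symm
  · exact Full.xG_commute_of_nil (hF := hF) (hF.neg_lt (hF.simple_lt hal)) (hF.neg_lt (hF.simple_lt hbl)) h6 h7 h8 a b

/-- `x y x` in a class is the product of `n`-elements. -/
theorem wP_wN_wP {i : ℕ} (hi : i < D.rank) (t : F) : wP h i t * wN h i (-t⁻¹) * wP h i t = nW h i t := by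
  have e := hF.words_n (L := List.range (dd i)) List.nodup_range (fun k => ρ'^[k] (D.simple (A i))) (fun k => f^[k] t)
    (fun k => f^[k] (-t⁻¹)) (by
      intro a ha b hb hab
      obtain ⟨c1, c2, -, c4⟩ := cross h hi (List.mem_range.1 ha) (List.mem_range.1 hb) hab (f^[a] t) (f^[b] t)
      obtain ⟨-, c2', -, c4'⟩ := cross h hi (List.mem_range.1 ha) (List.mem_range.1 hb) hab (f^[a] t) (f^[b] (-t⁻¹))
      obtain ⟨-, -, -, c4''⟩ := cross h hi (List.mem_range.1 ha) (List.mem_range.1 hb) hab (f^[a] (-t⁻¹)) (f^[b] (-t⁻¹))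
      exact ⟨c1, c2', c4''⟩)
  have e3 : (List.range (dd i)).map (fun k => (D.neg (ρ'^[k] (D.simple (A i))), f^[k] (-t⁻¹))) =
      cw ρ' f (D.neg (D.simple (A i))) (dd i) (-t⁻¹) := by
    unfold cw
    apply List.map_congr_left
    intro k _
    rw [rkn_eq h hi]
  rw [e3] at e
  unfold wP wN nW
  unfold cw at e ⊢
  rw [e]
  congr 1
  apply List.map_congr_left
  intro k _
  rw [h.iter_f_inv k]
  rfl

/-- Commuting of `n`-elements. -/
theorem nG_cross {i : ℕ} (hi : i < D.rank) {k l : ℕ} (hk : k < dd i) (hl : l < dd i) (hkl : k ≠ l) (a b : F) :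
    Commute (hF.c.nG (ρ'^[k] (D.simple (A i))) a) (hF.c.nG (ρ'^[l] (D.simple (A i))) b) := by
  apply hF.nG_commute
  · intro u v
    exact (cross h hi hk hl hkl u v).1
  · intro u v
    exact (cross h hi hk hl hkl u v).2.1
  · intro u v
    exact (cross h hi hk hl hkl u v).2.2.1
  · intro u v
    exact (cross h hi hk hl hkl u v).2.2.2

theorem hG_cross {i : ℕ} (hi : i < D.rank) {k l : ℕ} (hk : k < dd i) (hl : l < dd i) (hkl : k ≠ l) (a b : F) :
    Commute (hF.c.hG (ρ'^[k] (D.simple (A i))) a) (hF.c.nG (ρ'^[l] (D.simple (A i))) b) := by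
  unfold Checks.hG
  exact (nG_cross h hi hk hl hkl a b).mul_left (nG_cross h hi hk hl hkl (-1) b)

theorem nW_one {i : ℕ} (hi : i < D.rank) : nW h i 1 = nCl h i := by
  unfold nW nCl
  rw [h.J_eq i hi, List.map_map]
  congr 1
  apply List.map_congr_left
  intro k _
  rw [h.f_one, rk_eq h hi]
  rfl

/-- `nW t = HH t * nCl`. -/
theorem nW_eq {i : ℕ} (hi : i < D.rank) (t : F) : nW h i t = HH h i t * nCl h i := by
  rw [← nW_one h hi]
  have h2 := Full.list_prod_map_mul (L := List.range (dd i)) List.nodup_range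
    (fun k => hF.c.hG (ρ'^[k] (D.simple (A i))) (f^[k] t)) (fun k => hF.c.nG (ρ'^[k] (D.simple (A i))) (f^[k] 1))
    (fun a ha b hb hab => (hG_cross h hi (List.mem_range.1 hb) (List.mem_range.1 ha) hab.symm _ _).symm)
  have h3 : nW h i t = ((List.range (dd i)).map fun k => hF.c.hG (ρ'^[k] (D.simple (A i))) (f^[k] t) *
      hF.c.nG (ρ'^[k] (D.simple (A i))) (f^[k] 1)).prod := by
    unfold nW
    congr 1
    apply List.map_congr_left
    intro k _
    rw [h.f_one, hF.c.nG_eq_hG_mul]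
  rw [h3, h2]
  rfl

theorem HH_mem_diag {i : ℕ} (hi : i < D.rank) {t : F} (ht0 : t ≠ 0) : HH h i t ∈ D.diagonalSubgroup F := by
  unfold HH
  apply Subgroup.list_prod_mem
  intro y hy
  obtain ⟨k, hk, rfl⟩ := List.mem_map.1 hy
  rw [rk_eq h hi]
  apply hF.c.hG_mem_diagonal (hF.simple_lt (rk_lt h hi k))
  intro e
  apply ht0
  have key : ∀ k, f^[k] t = 0 → t = 0 := by
    intro k
    induction k with
    | zero => exact id
    | succ k ih =>
      intro e
      rw [Function.iterate_succ_apply'] at e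
      exact ih ((map_eq_zero f).1 e)
  exact key k e

theorem HH_mem {i : ℕ} (hi : i < D.rank) {t : F} (ht0 : t ≠ 0) (ht : f^[dd i] t = t) : HH h i t ∈ h.G1 :=
  h.prod_hG_mem hi ht0 ht

theorem nCl_mem {i : ℕ} (hi : i < D.rank) : nCl h i ∈ h.G1 := h.nC_mem hi

/-- The form of a negative word. -/
theorem wN_form {i : ℕ} (hi : i < D.rank) {c : F} (hc : c ≠ 0) :
    wN h i c = wP h i c⁻¹ * HH h i (-c⁻¹) * nCl h i * wP h i c⁻¹ := by
  have h1 := wP_wN_wP h hi (-c⁻¹)
  rw [nW_eq h hi] at h1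
  have e : - (-c⁻¹ : F)⁻¹ = c := by
    rw [inv_neg, neg_neg, inv_inv]
  rw [e, wP_neg h hi] at h1
  have e2 : wN h i c = wP h i c⁻¹ * ((wP h i c⁻¹)⁻¹ * wN h i c * (wP h i c⁻¹)⁻¹) * wP h i c⁻¹ := by group
  rw [e2, h1]
  group

theorem wP_mem_U {i : ℕ} (hi : i < D.rank) (t : F) : wP h i t ∈ D.posUnipotent F := by
  unfold wP
  apply hF.c.wordG_mem
  intro p hp
  simp only [cw, List.mem_map] at hp
  obtain ⟨k, hk, rfl⟩ := hp
  simp only
  rw [rk_eq h hi]
  exact hF.xG_mem_U (hF.simple_lt (rk_lt h hi k)) (hF.simple_ge (rk_lt h hi k)) _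

theorem wN_mem_V {i : ℕ} (hi : i < D.rank) (t : F) : wN h i t ∈ D.negUnipotent F := by
  unfold wN
  apply hF.c.wordG_mem
  intro p hp
  simp only [cw, List.mem_map] at hp
  obtain ⟨k, hk, rfl⟩ := hp
  simp only
  rw [rkn_eq h hi, rk_eq h hi]
  exact hF.xG_mem_V (hF.neg_lt_N (hF.simple_lt (rk_lt h hi k)) (hF.simple_ge (rk_lt h hi k))) _

theorem wP_mem_UL {i : ℕ} (hi : i < D.rank) (t : F) : wP h i t ∈ UL D F {x | x ∈ J i} := by
  unfold wP
  apply hF.c.wordG_mem
  intro p hp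
  simp only [cw, List.mem_map] at hp
  obtain ⟨k, hk, rfl⟩ := hp
  exact hF.xG_mem_rootClosure ((h.lq_rs hi _).2 (mem_rsOf (List.mem_range.1 hk))) _

theorem wP_fix {i : ℕ} (hi : i < D.rank) {t : F} (ht : f^[dd i] t = t) : τ.s (wP h i t) = wP h i t :=
  (h.gens_fixed ⟨i, hi, t, ht, Or.inl rfl⟩).2

/-- A fixed element of the `U_J` of a class is a word. -/
theorem exists_wP_of_UL {i : ℕ} (hi : i < D.rank) {x : GL D.Idx F} (hx : x ∈ UL D F {x | x ∈ J i}) (hfix : τ.s x = x) :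
    ∃ t : F, f^[dd i] t = t ∧ x = wP h i t :=
  τ.of_fixed f (h.dd_pos i hi) (h.cl_pos hi)
        (by rw [h.rs_eq hi]; exact h.pos_rs hi) (by rw [h.rs_eq hi]; exact h.nd_rs hi)
        (by rw [h.rs_eq hi]; exact h.comm_pos hi) (h.hsp hi) (h.lq_rs hi) hx hfix

theorem wP_inj {i : ℕ} (hi : i < D.rank) {t t' : F} (e : wP h i t = wP h i t') : t = t' :=
  Tw.cw_inj (hF := hF) f (h.dd_pos i hi) (by rw [h.rs_eq hi]; exact h.pos_rs hi) (by rw [h.rs_eq hi]; exact h.nd_rs hi)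
        (by rw [h.rs_eq hi]; exact h.comm_pos hi) e

theorem iter_ne {t : F} (ht : t ≠ 0) (k : ℕ) : f^[k] t ≠ 0 := by
  induction k with
  | zero => exact ht
  | succ k ih =>
    rw [Function.iterate_succ_apply']
    exact (map_ne_zero f).2 ih

/-- The form of `wP t` in terms of a product -/
theorem wP_eq_prod (i : ℕ) (t : F) : wP h i t =
    ((List.range (dd i)).map fun k => hF.c.xG (ρ'^[k] (D.simple (A i))) (f^[k] t)).prod := by
  unfold wP Checks.wordG cw
  rw [List.map_map]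
  rfl

theorem wN_eq_prod (i : ℕ) (t : F) : wN h i t =
    ((List.range (dd i)).map fun k => hF.c.xG (ρ'^[k] (D.neg (D.simple (A i)))) (f^[k] t)).prod := by
  unfold wN Checks.wordG cw
  rw [List.map_map]
  rfl

end Cfsg.Agent.Lib.Chev.TwAut
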