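import Cfsg.Agent.Lib.Chev.TwAutA

/-!
# Automorphisms of twisted groups with orthogonal classes: normalising
-/

set_option autoImplicit false
set_option linter.unusedSectionVars false
set_option linter.unusedVariables false
set_option linter.unnecessarySimpa false

namespace Cfsg.Agent.Lib.Chev.TwAut

open Cfsg.Lie Matrix Equiv Cfsg.Agent.Lib.Chev
open Cfsg.Agent.Lib.BNPair
open Cfsg.Agent.Lib.ChevFix2 (conj_U_of_borel)
open Cfsg.Agent.Lib.ChevAut (exists_conj_of_sylow)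
open scoped Pointwise

variable {T : Tabs} {X : Extra} {R : RootTab} {D : ChevalleyDatum} {F : Type*} [Field F]
variable {hF : Full T X R D} {τ : Tw hF F} {f : F ≃+* F} {ρ' π' : ℕ → ℕ} {J : ℕ → List ℕ} {A dd : ℕ → ℕ}
variable (h : SCOK τ f ρ' π' J A dd)

/-- An automorphism preserving `U` and `V`. -/
structure Nrm (h : SCOK τ f ρ' π' J A dd) (θ : ↥h.G1 ≃* ↥h.G1) : Prop where
  u : ∀ x : ↥h.G1, (θ x).1 ∈ D.posUnipotent F ↔ x.1 ∈ D.posUnipotent F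
  v : ∀ x : ↥h.G1, (θ x).1 ∈ D.negUnipotent F ↔ x.1 ∈ D.negUnipotent F

variable [Fintype F]

/-- The (B,N)-pair. -/
noncomputable def bnP (hJJ : ∀ i < D.rank, ∀ j < D.rank, j ∈ J i → J j = J i) : Cfsg.BNPair ↥h.G1 :=
  (h.twG).bnPair (fun i hi j hj hjc => by
      show ((J j).map (hF.nNt F)).prod = ((J i).map (hF.nNt F)).prod
      rw [hJJ i hi j hj hjc]) (fun i hi => h.ne_one_of_class hi)

include h

theorem wP_one_ne {i : ℕ} (hi : i < D.rank) : wP h i 1 ≠ 1 := by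
  intro e
  have := wP_inj h hi (e.trans (wP_zero h i).symm)
  exact one_ne_zero this

theorem nC_coe {i : ℕ} (hi : i < D.rank) : (((h.twG).nC i : ↥(D.monomialSubgroup F)) : GL D.Idx F) = nCl h i := by
  show (((J i).map (hF.nNt F)).prod : ↥(D.monomialSubgroup F)).1 = _
  rw [hF.coe_prod_nNt (fun j hj => h.mem_J_lt hi hj)]
  rfl

/-- Elements of `N₁` sending a simple root to a positive root. -/
theorem conj_pos_of (n : ↥(D.monomialSubgroup F)) (hn : n.1 ∈ h.G1) {m : ℕ} (hm : m < D.rank)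
    (hpos : R.N ≤ ((hF.rhoN F n ⟨D.simple m, hF.simple_lt hm⟩ : Fin D.nroots) : ℕ)) (t : F) :
    n.1 * wP h m t * n.1⁻¹ ∈ D.posUnipotent F := by
  have hposc : ∀ (m' : ℕ) (hm' : m' < D.rank), m' ∈ {x | x ∈ J m} →
      R.N ≤ ((hF.rhoN F n ⟨D.simple m', hF.simple_lt hm'⟩ : Fin D.nroots) : ℕ) := by
    intro m' hm' hmc'
    exact ((h.twG).orbit_sign ((h.twG).rho_fix n hn) hm hm' hmc').2 hpos
  exact hF.conj_UL_mem_U (hF.pos_on_LQ hposc) (wP_mem_UL h hm t)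

/-- Elements of `N₁` sending a simple root to a negative root. -/
theorem conj_neg_of (n : ↥(D.monomialSubgroup F)) (hn : n.1 ∈ h.G1) {m : ℕ} (hm : m < D.rank)
    (hneg : ((hF.rhoN F n ⟨D.simple m, hF.simple_lt hm⟩ : Fin D.nroots) : ℕ) < R.N) {t : F}
    (hB : n.1 * wP h m t * n.1⁻¹ ∈ D.borelSubgroup F) : wP h m t = 1 := by
  have hnegc : ∀ (m' : ℕ) (hm' : m' < D.rank), m' ∈ {x | x ∈ J m} →
      ((hF.rhoN F n ⟨D.simple m', hF.simple_lt hm'⟩ : Fin D.nroots) : ℕ) < R.N := by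
    intro m' hm' hmc'
    have := (h.twG).orbit_sign ((h.twG).rho_fix n hn) hm hm' hmc'
    by_contra hc
    exact absurd (this.1 (not_lt.1 hc)) (not_le.2 hneg)
  exact hF.conj_UL_eq_one (fun r hr hL => hF.neg_on_LQ (hF.rhoN_mem_Wk n) hnegc r hr hL) (wP_mem_UL h hm t) hB

theorem mem_B_iff {hJJ : ∀ i < D.rank, ∀ j < D.rank, j ∈ J i → J j = J i} (x : ↥h.G1) :
    x ∈ (bnP h hJJ).B ↔ x.1 ∈ D.borelSubgroup F :=
  ⟨fun hx => (Subgroup.mem_subgroupOf.1 hx).1, fun hx => Subgroup.mem_subgroupOf.2 ⟨hx, x.2⟩⟩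

theorem mem_N_iff {hJJ : ∀ i < D.rank, ∀ j < D.rank, j ∈ J i → J j = J i} (x : ↥h.G1) :
    x ∈ (bnP h hJJ).N ↔ x.1 ∈ D.monomialSubgroup F :=
  ⟨fun hx => (Subgroup.mem_subgroupOf.1 hx).1, fun hx => Subgroup.mem_subgroupOf.2 ⟨hx, x.2⟩⟩

/-- All positive roots go negative. -/
theorem all_neg_of {σ : Perm (Fin D.nroots)} (hσ : σ ∈ hF.Wk Set.univ)
    (hnegS : ∀ (m : ℕ) (hm : m < D.rank), ((σ ⟨D.simple m, hF.simple_lt hm⟩ : Fin D.nroots) : ℕ) < R.N) :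
    ∀ s : Fin D.nroots, (R.N ≤ (s : ℕ) ↔ ((σ s : Fin D.nroots) : ℕ) < R.N) := by
  have hneg : ∀ s : Fin D.nroots, R.N ≤ (s : ℕ) → ((σ s : Fin D.nroots) : ℕ) < R.N := by
    intro r hr
    exact hF.neg_on_LQ (J := Set.univ) hσ (fun m hm _ => hnegS m hm) r r.2
      ⟨(hF.isPos_iff).2 ⟨r.2, hr⟩, (hF.inRootSub_iff).2 ⟨r.2, fun k _ hk => absurd (Set.mem_univ k) hk⟩⟩
  intro s
  constructor
  · exact hneg s
  · intro h1
    by_contra h2
    push Not at h2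
    have h3 : R.N ≤ ((hF.negF s : Fin D.nroots) : ℕ) := hF.neg_ge_N h2
    have h4 := hneg _ h3
    have h5 := hF.neg_comm hσ s
    rw [h5] at h4
    have h6 : R.N ≤ (D.neg ((σ s : Fin D.nroots) : ℕ)) := hF.neg_ge_N h1
    exact absurd h4 (by
      show ¬ (D.neg ((σ s : Fin D.nroots) : ℕ)) < R.N
      omega)

/-- A subgroup of the form `y U y⁻¹` meeting `U` trivially is conjugate to `V` under `U`. -/
theorem exists_conj_opp (hJJ : ∀ i < D.rank, ∀ j < D.rank, j ∈ J i → J j = J i) {y : ↥h.G1}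
    (hy : ∀ u : ↥h.G1, u.1 ∈ D.posUnipotent F → (y * u * y⁻¹).1 ∈ D.posUnipotent F → u = 1) :
    ∃ w : ↥h.G1, w.1 ∈ D.posUnipotent F ∧ ∀ x : ↥h.G1,
      (w * x * w⁻¹).1 ∈ D.negUnipotent F ↔ (y⁻¹ * x * y).1 ∈ D.posUnipotent F := by
  classical
  obtain ⟨n, hn, hy'⟩ := exists_mem_dc (P := bnP h hJJ) y
  obtain ⟨b₁, hb₁, b₂, hb₂, rfl⟩ := mem_dc.1 hy'
  have hb₁' : b₁.1 ∈ D.borelSubgroup F := (mem_B_iff h _).1 hb₁
  have hb₂' : b₂.1 ∈ D.borelSubgroup F := (mem_B_iff h _).1 hb₂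
  have hn' : n.1 ∈ D.monomialSubgroup F := (mem_N_iff h _).1 hn
  let n₁ : ↥(D.monomialSubgroup F) := ⟨n.1, hn'⟩
  obtain ⟨u, hact⟩ := hF.rhoN_spec n₁
  have hnegS : ∀ (m : ℕ) (hm : m < D.rank), ((hF.rhoN F n₁ ⟨D.simple m, hF.simple_lt hm⟩ : Fin D.nroots) : ℕ) < R.N := by
    intro m hm
    by_contra hcon
    have h1 := conj_pos_of h n₁ n.2 hm (not_lt.1 hcon) 1
    have hw : wP h m 1 ∈ h.G1 := wP_mem h hm (h.f_one _)
    have hU := wP_mem_U h hm 1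
    obtain ⟨w₀, hw₀⟩ : ∃ w₀ : ↥h.G1, w₀.1 = wP h m 1 := ⟨⟨_, hw⟩, rfl⟩
    have hu₀ : (b₂⁻¹ * w₀ * b₂).1 ∈ D.posUnipotent F := by
      have := conj_U_of_borel hF (Subgroup.inv_mem _ hb₂') hU
      simp only [Subgroup.coe_mul, Subgroup.coe_inv, hw₀]
      simpa using this
    have h2 := hy (b₂⁻¹ * w₀ * b₂) hu₀ (by
      have e : (((b₁ * n * b₂) * (b₂⁻¹ * w₀ * b₂) * (b₁ * n * b₂)⁻¹ : ↥h.G1) : GL D.Idx F) =
          b₁.1 * (n.1 * wP h m 1 * n.1⁻¹) * b₁.1⁻¹ := by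
        simp only [Subgroup.coe_mul, Subgroup.coe_inv, hw₀]
        group
      rw [e]
      exact conj_U_of_borel hF hb₁' h1)
    have h3 : w₀ = 1 := by
      have e : w₀ = b₂ * (b₂⁻¹ * w₀ * b₂) * b₂⁻¹ := by group
      rw [e, h2]
      group
    apply wP_one_ne h hm
    rw [← hw₀, h3]
    rfl
  have hiff := all_neg_of h (hF.rhoN_mem_Wk n₁) hnegS
  have hmapU := hF.map_conj_U_of_act hact hiff
  obtain ⟨w, hw, t, ht, hb₁e⟩ := (h.twG).borel_split hb₁' b₁.2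
  refine ⟨⟨w, hw.2⟩⁻¹, Subgroup.inv_mem _ hw.1, ?_⟩
  intro x
  have htN := hF.diagonal_le_normalizer_V (F := F) ht.1
  have key : ∀ g : GL D.Idx F, g ∈ D.negUnipotent F ↔ n.1⁻¹ * g * n.1 ∈ D.posUnipotent F := by
    intro g
    rw [← hmapU]
    constructor
    · rintro ⟨v, hv, rfl⟩
      have : n.1⁻¹ * (n.1 * v * n.1⁻¹) * n.1 = v := by group
      exact (congrArg (· ∈ D.posUnipotent F) this).mpr hv
    · intro h'
      refine ⟨_, h', ?_⟩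
      show n.1 * (n.1⁻¹ * g * n.1) * n.1⁻¹ = g
      group
  have hb₂inv := Subgroup.inv_mem _ hb₂'
  have e1 : ((b₁ * n * b₂)⁻¹ * x * (b₁ * n * b₂)).1 =
      b₂.1⁻¹ * (n.1⁻¹ * (b₁.1⁻¹ * x.1 * b₁.1) * n.1) * b₂.1 := by
    simp only [Subgroup.coe_mul, Subgroup.coe_inv]
    group
  have e2 : (((⟨w, hw.2⟩ : ↥h.G1)⁻¹ * x * ((⟨w, hw.2⟩ : ↥h.G1)⁻¹)⁻¹).1) = w⁻¹ * x.1 * w := by
    simp only [Subgroup.coe_mul, Subgroup.coe_inv, inv_inv]
  rw [e1, e2]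
  have hconjb : ∀ g : GL D.Idx F, b₂.1⁻¹ * g * b₂.1 ∈ D.posUnipotent F ↔ g ∈ D.posUnipotent F := by
    intro g
    constructor
    · intro h
      have := conj_U_of_borel hF hb₂' h
      simpa [mul_assoc] using this
    · intro h
      have := conj_U_of_borel hF hb₂inv h
      simpa using this
  rw [hconjb, ← key]
  have e3 : b₁.1⁻¹ * x.1 * b₁.1 = t⁻¹ * (w⁻¹ * x.1 * w) * t := by
    rw [hb₁e]
    group
  rw [e3]
  have htinv := Subgroup.inv_mem _ htN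
  have := Subgroup.mem_set_normalizer_iff.1 htinv (w⁻¹ * x.1 * w)
  rw [inv_inv] at this
  exact this

/-- `B₁` is the normaliser of `U₁`. -/
theorem mem_borel_iff_conj (hJJ : ∀ i < D.rank, ∀ j < D.rank, j ∈ J i → J j = J i) (x : ↥h.G1) :
    x.1 ∈ D.borelSubgroup F ↔ ∀ u : ↥h.G1, u.1 ∈ D.posUnipotent F → (x⁻¹ * u * x).1 ∈ D.posUnipotent F := by
  constructor
  · intro hx u hu
    have := conj_U_of_borel hF (Subgroup.inv_mem _ hx) hu
    simpa using this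
  · intro hc
    obtain ⟨n, hn, hy'⟩ := exists_mem_dc (P := bnP h hJJ) x
    obtain ⟨b₁, hb₁, b₂, hb₂, rfl⟩ := mem_dc.1 hy'
    have hb₁' : b₁.1 ∈ D.borelSubgroup F := (mem_B_iff h _).1 hb₁
    have hb₂' : b₂.1 ∈ D.borelSubgroup F := (mem_B_iff h _).1 hb₂
    have hn' : n.1 ∈ D.monomialSubgroup F := (mem_N_iff h _).1 hn
    let n₁ : ↥(D.monomialSubgroup F) := ⟨n.1, hn'⟩
    have key : ∀ y : ↥h.G1, y.1 ∈ D.posUnipotent F → n.1⁻¹ * y.1 * n.1 ∈ D.posUnipotent F := by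
      intro y hy
      have h1 := hc (b₁ * y * b₁⁻¹) (conj_U_of_borel hF hb₁' hy)
      have e : (((b₁ * n * b₂)⁻¹ * (b₁ * y * b₁⁻¹) * (b₁ * n * b₂) : ↥h.G1) : GL D.Idx F) =
          b₂.1⁻¹ * (n.1⁻¹ * y.1 * n.1) * b₂.1 := by
        simp only [Subgroup.coe_mul, Subgroup.coe_inv]
        group
      rw [e] at h1
      have h2 := conj_U_of_borel hF hb₂' h1
      simpa [mul_assoc] using h2
    have hpos : ∀ (m : ℕ) (hm : m < D.rank), m ∈ (Set.univ : Set ℕ) →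
        R.N ≤ ((hF.rhoN F n₁⁻¹ ⟨D.simple m, hF.simple_lt hm⟩ : Fin D.nroots) : ℕ) := by
      intro m hm _
      by_contra hcon
      have hw : wP h m 1 ∈ h.G1 := wP_mem h hm (h.f_one _)
      have h1 := key ⟨_, hw⟩ (wP_mem_U h hm 1)
      have h2 := conj_neg_of h n₁⁻¹ (Subgroup.inv_mem _ n.2) hm (not_le.1 hcon) (t := 1) (by
        have e : ((n₁⁻¹ : ↥(D.monomialSubgroup F)) : GL D.Idx F) = n.1⁻¹ := rfl
        rw [e, inv_inv]
        exact hF.c.posUnipotent_le_borel h1)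
      exact wP_one_ne h hm h2
    have h1 := hF.Wk_pos_eq_one (J := Set.univ) (hF.rhoN_mem_Wk n₁⁻¹) hpos
    have h2 := hF.mem_diagonal_of_rhoN_eq_one h1
    have h3 : n.1 ∈ D.borelSubgroup F := by
      have := Subgroup.inv_mem _ (hF.c.diagonal_le_borel h2)
      simpa using this
    show b₁.1 * n.1 * b₂.1 ∈ _
    exact Subgroup.mul_mem _ (Subgroup.mul_mem _ hb₁' h3) hb₂'

/-- The longest element. -/
theorem exists_opp : ∃ n₀ : ↥(D.monomialSubgroup F), n₀.1 ∈ h.G1 ∧ (∃ u₀, hF.RootAct n₀.1 (hF.rhoN F n₀) u₀) ∧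
    (∀ s : Fin D.nroots, (R.N ≤ (s : ℕ) ↔ ((hF.rhoN F n₀ s : Fin D.nroots) : ℕ) < R.N)) ∧
    (∀ x : GL D.Idx F, x ∈ D.posUnipotent F ↔ n₀.1 * x * n₀.1⁻¹ ∈ D.negUnipotent F) ∧
    (∀ x : GL D.Idx F, x ∈ D.negUnipotent F ↔ n₀.1 * x * n₀.1⁻¹ ∈ D.posUnipotent F) := by
  obtain ⟨n₀, hn₀, hneg⟩ := (h.twG).exists_longest
  have hiff := all_neg_of h (hF.rhoN_mem_Wk n₀) (fun m hm => hneg _ (hF.simple_ge hm))
  obtain ⟨u₀, hact⟩ := hF.rhoN_spec n₀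
  refine ⟨n₀, hn₀, ⟨u₀, hact⟩, hiff, ?_, ?_⟩
  · have hm₁ := hF.map_conj_U_of_act hact hiff
    intro x
    constructor
    · intro h
      rw [← hm₁]
      exact ⟨x, h, rfl⟩
    · intro h
      rw [← hm₁] at h
      obtain ⟨u, hu, e⟩ := h
      have : u = x := by
        have e' : n₀.1 * u * n₀.1⁻¹ = n₀.1 * x * n₀.1⁻¹ := e
        simpa using e'
      rwa [← this]
  · have hm₂ : (D.posUnipotent F).map (MulAut.conj n₀.1⁻¹).toMonoidHom = D.negUnipotent F := by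
      refine hF.map_conj_U_of_act hact.inv ?_
      intro s
      have h1 := hiff ((hF.rhoN F n₀)⁻¹ s)
      have h0 : (hF.rhoN F n₀) ((hF.rhoN F n₀)⁻¹ s) = s := by simp
      rw [h0] at h1
      have h2 := hF.two
      have hs := s.2
      have hs' := ((hF.rhoN F n₀)⁻¹ s).2
      omega
    intro x
    constructor
    · intro h
      rw [← hm₂] at h
      obtain ⟨u, hu, e⟩ := h
      have e' : n₀.1⁻¹ * u * n₀.1⁻¹⁻¹ = x := e
      rw [← e']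
      simpa [mul_assoc] using hu
    · intro h
      rw [← hm₂]
      refine ⟨_, h, ?_⟩
      show n₀.1⁻¹ * (n₀.1 * x * n₀.1⁻¹) * n₀.1⁻¹⁻¹ = x
      group

/-- `H₁`, through normalisers. -/
theorem mem_diag_iff (hJJ : ∀ i < D.rank, ∀ j < D.rank, j ∈ J i → J j = J i) (x : ↥h.G1) :
    x.1 ∈ D.diagonalSubgroup F ↔
      (∀ u : ↥h.G1, u.1 ∈ D.posUnipotent F → (x⁻¹ * u * x).1 ∈ D.posUnipotent F) ∧
      (∀ v : ↥h.G1, v.1 ∈ D.negUnipotent F → (x⁻¹ * v * x).1 ∈ D.negUnipotent F) := by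
  constructor
  · intro hx
    constructor
    · intro u hu
      have := (Subgroup.mem_normalizer_iff.1 (hF.diagonal_le_normalizer_U (F := F) (Subgroup.inv_mem _ hx)) u.1).1 hu
      simpa using this
    · intro u hu
      have := (Subgroup.mem_normalizer_iff.1 (hF.diagonal_le_normalizer_V (F := F) (Subgroup.inv_mem _ hx)) u.1).1 hu
      simpa using this
  · rintro ⟨h1, h2⟩
    obtain ⟨n₀, hn₀, ⟨u₀, hact⟩, hiff, hU, hV⟩ := exists_opp h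
    have hx : x.1 ∈ D.borelSubgroup F := (mem_borel_iff_conj h hJJ x).2 h1
    let nG : ↥h.G1 := ⟨n₀.1, hn₀⟩
    have hx' : (nG * x * nG⁻¹).1 ∈ D.borelSubgroup F := by
      rw [mem_borel_iff_conj h hJJ]
      intro u hu
      have e1 : ((nG * x * nG⁻¹)⁻¹ * u * (nG * x * nG⁻¹)).1 = n₀.1 * (x⁻¹ * (nG⁻¹ * u * nG) * x).1 * n₀.1⁻¹ := by
        simp only [Subgroup.coe_mul, Subgroup.coe_inv, nG]
        group
      rw [e1, ← hV]
      apply h2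
      rw [hV]
      show n₀.1 * (n₀.1⁻¹ * u.1 * n₀.1) * n₀.1⁻¹ ∈ _
      simpa [mul_assoc] using hu
    exact hF.borel_inf_conj hact n₀.2 hiff hx hx'

end Cfsg.Agent.Lib.Chev.TwAut
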