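import Cfsg.Agent.Lib.Chev.TwAutB

/-!
# Automorphisms of twisted groups with orthogonal classes: the fundamental root words
-/

set_option autoImplicit false
set_option linter.unusedSectionVars false
set_option linter.unusedVariables false
set_option linter.unnecessarySimpa false

namespace Cfsg.Agent.Lib.Chev.TwAut

open Cfsg.Lie Matrix Equiv Cfsg.Agent.Lib.Chev
open Cfsg.Agent.Lib.Chev.Full (cellS)
open Cfsg.Agent.Lib.BNPair
open Cfsg.Agent.Lib.ChevFix2 (conj_U_of_borel)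
open Cfsg.Agent.Lib.ChevAut (exists_conj_of_sylow exists_parabolic_map opp_simple)
open scoped Pointwise

variable {T : Tabs} {X : Extra} {R : RootTab} {D : ChevalleyDatum} {F : Type*} [Field F]
variable {hF : Full T X R D} {τ : Tw hF F} {f : F ≃+* F} {ρ' π' : ℕ → ℕ} {J : ℕ → List ℕ} {A dd : ℕ → ℕ}
variable (h : SCOK τ f ρ' π' J A dd)
variable [Fintype F]

include h

/-- Normalisation: every automorphism can be corrected by an inner automorphism. -/
theorem exists_nrm (hJJ : ∀ i < D.rank, ∀ j < D.rank, j ∈ J i → J j = J i) {p : ℕ} [Fact p.Prime]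
    (P : Sylow p ↥h.G1) (hPmem : ∀ u : ↥h.G1, u ∈ (P : Subgroup ↥h.G1) ↔ u.1 ∈ D.posUnipotent F)
    (θ : ↥h.G1 ≃* ↥h.G1) : ∃ z : ↥h.G1, Nrm h (θ.trans (MulAut.conj z)) := by
  classical
  haveI : Finite ↥h.G1 := inferInstance
  -- first correction
  obtain ⟨x, hx⟩ := exists_conj_of_sylow P θ
  have h1 : ∀ g : ↥h.G1, (x⁻¹ * θ g * x).1 ∈ D.posUnipotent F ↔ g.1 ∈ D.posUnipotent F := by
    intro g
    rw [← hPmem, ← hPmem]
    constructor
    · intro h
      obtain ⟨u, hu, e⟩ := (hx (θ g)).2 ⟨_, h, by group⟩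
      rwa [← θ.injective e]
    · intro h
      obtain ⟨u, hu, e⟩ := (hx (θ g)).1 ⟨g, h, rfl⟩
      rw [← e]
      convert hu using 1
      group
  let θ₁ : ↥h.G1 ≃* ↥h.G1 := θ.trans (MulAut.conj x⁻¹)
  have hθ₁ : ∀ g, θ₁ g = x⁻¹ * θ g * x := by
    intro g
    show MulAut.conj x⁻¹ (θ g) = _
    simp [MulAut.conj_apply]
  have h1' : ∀ g : ↥h.G1, (θ₁ g).1 ∈ D.posUnipotent F ↔ g.1 ∈ D.posUnipotent F := by
    intro g
    rw [hθ₁]
    exact h1 g
  -- the opposite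
  obtain ⟨n, hnG, -, -, hU, hV⟩ := exists_opp h
  let nG : ↥h.G1 := ⟨n.1, hnG⟩
  have hVmem : ∀ v : ↥h.G1, v.1 ∈ D.negUnipotent F ↔ nG⁻¹ * v * nG ∈ (P : Subgroup ↥h.G1) := by
    intro v
    rw [hPmem, hU]
    have e : (nG⁻¹ * v * nG).1 = n.1⁻¹ * v.1 * n.1 := rfl
    rw [e]
    have e2 : n.1 * (n.1⁻¹ * v.1 * n.1) * n.1⁻¹ = v.1 := by group
    rw [e2]
  obtain ⟨y, hy⟩ := exists_conj_of_sylow P ((MulAut.conj nG).trans θ₁)
  have hV' : ∀ g : ↥h.G1, g.1 ∈ D.negUnipotent F ↔ (y⁻¹ * θ₁ g * y).1 ∈ D.posUnipotent F := by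
    intro g
    rw [← hPmem, hVmem]
    constructor
    · intro h
      obtain ⟨u, hu, e⟩ := (hy (θ₁ g)).1 ⟨nG⁻¹ * g * nG, h, by
        show θ₁ (MulAut.conj nG (nG⁻¹ * g * nG)) = θ₁ g
        congr 1
        simp [MulAut.conj_apply]
        group⟩
      rw [← e]
      convert hu using 1
      group
    · intro h
      obtain ⟨u, hu, e⟩ := (hy (θ₁ g)).2 ⟨_, h, by group⟩
      have e' : θ₁ (MulAut.conj nG u) = θ₁ g := e
      have e2 := θ₁.injective e'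
      rw [← e2]
      convert hu using 1
      simp [MulAut.conj_apply]
      group
  obtain ⟨w, hw, hwe⟩ := exists_conj_opp h hJJ (y := y) (by
    intro u hu hu'
    obtain ⟨g, hg⟩ := θ₁.surjective (y * u * y⁻¹)
    have hgU : g.1 ∈ D.posUnipotent F := (h1' g).1 (by rw [hg]; exact hu')
    have hgV : g.1 ∈ D.negUnipotent F := by
      rw [hV', hg]
      convert hu using 2
      group
    have h3 : g.1 ∈ D.borelSubgroup F ⊓ D.negUnipotent F := ⟨hF.c.posUnipotent_le_borel hgU, hgV⟩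
    rw [hF.B_inf_V, Subgroup.mem_bot] at h3
    have h4 : g = 1 := Subtype.ext h3
    rw [h4, map_one] at hg
    have h5 : y * u * y⁻¹ = 1 := hg.symm
    have h6 : u = y⁻¹ * (y * u * y⁻¹) * y := by group
    rw [h6, h5]
    group)
  refine ⟨w * x⁻¹, ?_, ?_⟩
  · intro g
    have e : (θ.trans (MulAut.conj (w * x⁻¹))) g = w * θ₁ g * w⁻¹ := by
      rw [hθ₁]
      show MulAut.conj (w * x⁻¹) (θ g) = _
      simp only [MulAut.conj_apply]
      group
    rw [e, ← h1' g]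
    constructor
    · intro h
      have := (D.posUnipotent F).mul_mem ((D.posUnipotent F).mul_mem ((D.posUnipotent F).inv_mem hw) h) hw
      convert this using 1
      simp only [Subgroup.coe_mul, Subgroup.coe_inv]
      group
    · intro h
      have := (D.posUnipotent F).mul_mem ((D.posUnipotent F).mul_mem hw h) ((D.posUnipotent F).inv_mem hw)
      exact this
  · intro g
    have e : (θ.trans (MulAut.conj (w * x⁻¹))) g = w * θ₁ g * w⁻¹ := by
      rw [hθ₁]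
      show MulAut.conj (w * x⁻¹) (θ g) = _
      simp only [MulAut.conj_apply]
      group
    rw [e, hwe, hV']

/-- `U`-preserving automorphisms preserve `B`. -/
theorem map_borel (hJJ : ∀ i < D.rank, ∀ j < D.rank, j ∈ J i → J j = J i) {θ : ↥h.G1 ≃* ↥h.G1}
    (hθ : ∀ x : ↥h.G1, (θ x).1 ∈ D.posUnipotent F ↔ x.1 ∈ D.posUnipotent F) (x : ↥h.G1) :
    (θ x).1 ∈ D.borelSubgroup F ↔ x.1 ∈ D.borelSubgroup F := by
  rw [mem_borel_iff_conj h hJJ, mem_borel_iff_conj h hJJ]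
  constructor
  · intro h u hu
    have := h (θ u) ((hθ u).2 hu)
    rw [← hθ]
    simpa [map_mul, map_inv] using this
  · intro h u hu
    obtain ⟨u', rfl⟩ := θ.surjective u
    have := h u' ((hθ u').1 hu)
    rw [← hθ] at this
    simpa [map_mul, map_inv] using this

theorem nCl_not_mem_B {i : ℕ} (hi : i < D.rank) : nCl h i ∉ D.borelSubgroup F := by
  intro hb
  have hm := nC_coe h hi
  have h1 : (((h.twG).nC i : ↥(D.monomialSubgroup F)) : GL D.Idx F) ∈ D.diagonalSubgroup F := by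
    rw [← hF.B_inf_N]
    exact ⟨by rw [hm]; exact hb, ((h.twG).nC i).2⟩
  have h2 := hF.rhoN_of_mem_diagonal _ h1
  have h3 := (h.twG).nC_neg i hi i hi ((h.twG).self_mem i hi)
  rw [h2] at h3
  exact absurd (hF.simple_ge hi) (not_le.2 h3)

theorem nCl_mem_N {i : ℕ} (hi : i < D.rank) : nCl h i ∈ D.monomialSubgroup F := by
  rw [← nC_coe h hi]
  exact ((h.twG).nC i).2

/-- No element of `V` lies in `B n_i`. -/
theorem V_ne_B_mul {i : ℕ} (hi : i < D.rank) {v b : GL D.Idx F} (hv : v ∈ D.negUnipotent F)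
    (hb : b ∈ D.borelSubgroup F) : v ≠ b * nCl h i := by
  intro e
  obtain ⟨n₀, hn₀, -, -, hU, hV⟩ := exists_opp h
  have hu : n₀.1⁻¹ * v * n₀.1 ∈ D.posUnipotent F := by
    rw [hU]
    have e2 : n₀.1 * (n₀.1⁻¹ * v * n₀.1) * n₀.1⁻¹ = v := by group
    rw [e2]
    exact hv
  set u := n₀.1⁻¹ * v * n₀.1 with hu'
  have h1 : n₀.1 * u ∈ cellS D F n₀.1 := ⟨1, Subgroup.one_mem _, u, hF.c.posUnipotent_le_borel hu, by simp⟩
  have h2 : n₀.1 * u ∈ cellS D F (nCl h i * n₀.1) := by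
    refine ⟨b, hb, 1, Subgroup.one_mem _, ?_⟩
    have : n₀.1 * u = v * n₀.1 := by
      rw [hu']
      group
    rw [this, e]
    group
  have hmN : nCl h i * n₀.1 ∈ D.monomialSubgroup F := Subgroup.mul_mem _ (nCl_mem_N h hi) n₀.2
  have h3 := hF.cell_disjoint n₀.2 hmN h1 h2
  have h4 : n₀.1⁻¹ * (nCl h i * n₀.1) ∈ D.diagonalSubgroup F := by
    rw [← hF.B_inf_N]
    exact ⟨h3, Subgroup.mul_mem _ (Subgroup.inv_mem _ n₀.2) hmN⟩
  have h5 := (Subgroup.mem_set_normalizer_iff.1 (hF.monomial_le_normalizer n₀.2) _).1 h4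
  have h6 : n₀.1 * (n₀.1⁻¹ * (nCl h i * n₀.1)) * n₀.1⁻¹ = nCl h i := by group
  rw [h6] at h5
  exact nCl_not_mem_B h hi (hF.c.diagonal_le_borel h5)

theorem wP_mem_B {i : ℕ} (hi : i < D.rank) (t : F) : wP h i t ∈ D.borelSubgroup F :=
  hF.c.posUnipotent_le_borel (wP_mem_U h hi t)

theorem iter_inv (k : ℕ) (a : F) : f^[k] (a⁻¹) = (f^[k] a)⁻¹ := h.iter_f_inv' k a

/-- Injectivity on negative words. -/
theorem wN_ne_one {i : ℕ} (hi : i < D.rank) {c : F} (hc : c ≠ 0) : wN h i c ∉ D.borelSubgroup F := by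
  intro hB
  rw [wN_form h hi hc] at hB
  apply nCl_not_mem_B h hi
  have h1 := wP_mem_B h hi c⁻¹
  have h2 : HH h i (-c⁻¹) ∈ D.borelSubgroup F :=
    hF.c.diagonal_le_borel (HH_mem_diag h hi (neg_ne_zero.2 (inv_ne_zero hc)))
  have e : nCl h i = (wP h i c⁻¹ * HH h i (-c⁻¹))⁻¹ * (wP h i c⁻¹ * HH h i (-c⁻¹) * nCl h i * wP h i c⁻¹) * (wP h i c⁻¹)⁻¹ := by
    group
  rw [e]
  exact Subgroup.mul_mem _ (Subgroup.mul_mem _ (Subgroup.inv_mem _ (Subgroup.mul_mem _ h1 h2)) hB) (Subgroup.inv_mem _ h1)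

theorem wN_inj {i : ℕ} (hi : i < D.rank) {t t' : F} (e : wN h i t = wN h i t') : t = t' := by
  by_contra hne
  have h0 : t - t' ≠ 0 := sub_ne_zero.2 hne
  apply wN_ne_one h hi h0
  have e1 : t - t' = t + (-t') := by ring
  rw [e1, wN_add h hi, wN_neg h hi, e, mul_inv_cancel]
  exact Subgroup.one_mem _

/-- An element of `V` in the cell of a class. -/
theorem V_inf_cell {i : ℕ} (hi : i < D.rank) {v : GL D.Idx F} (hvG : v ∈ h.G1) (hv : v ∈ D.negUnipotent F)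
    (hc : v ∈ cellS D F (nCl h i)) : ∃ t : F, f^[dd i] t = t ∧ v = wN h i t := by
  have hsW := (h.twG).nC_W i hi
  have hpos1 : ∀ (m : ℕ) (hm : m < D.rank), m ∈ (h.twG).cls i →
      R.N ≤ ((hF.rhoN F (1 : ↥(D.monomialSubgroup F)) ⟨D.simple m, hF.simple_lt hm⟩ : Fin D.nroots) : ℕ) := by
    intro m hm _
    rw [map_one]
    exact hF.simple_ge hm
  have hs1 : τ.s ((1 : ↥(D.monomialSubgroup F)) : GL D.Idx F) = ((1 : ↥(D.monomialSubgroup F)) : GL D.Idx F) := τ.s_one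
  have hc' : v ∈ cellS D F (((1 : ↥(D.monomialSubgroup F)) : GL D.Idx F) * (((h.twG).nC i : ↥(D.monomialSubgroup F)) : GL D.Idx F)) := by
    rw [nC_coe h hi]
    simpa using hc
  obtain ⟨g, hg, x, hx, e, hgf, hxf⟩ := τ.fix_step ((h.twG).stable i hi) hsW ((h.twG).nC_neg i hi) hpos1 hs1
    ((h.twG).G1_fix _ ((h.twG).nC_mem i hi)) hc' ((h.twG).G1_fix _ hvG)
  rw [nC_coe h hi] at e
  have hgB : g ∈ D.borelSubgroup F := by
    obtain ⟨b₁, h₁, b₂, h₂, rfl⟩ := hg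
    have : b₁ * ((1 : ↥(D.monomialSubgroup F)) : GL D.Idx F) * b₂ = b₁ * b₂ := by simp
    rw [this]
    exact Subgroup.mul_mem _ h₁ h₂
  obtain ⟨r, hr, rfl⟩ := exists_wP_of_UL h hi hx hxf
  by_cases hr0 : r = 0
  · exfalso
    rw [hr0, wP_zero, mul_one] at e
    exact V_ne_B_mul h hi hv hgB e
  · have hf := wN_form h hi (c := r⁻¹) (inv_ne_zero hr0)
    rw [inv_inv] at hf
    set b₄ := wP h i r * HH h i (-r) with hb₄
    have hb₄B : b₄ ∈ D.borelSubgroup F := Subgroup.mul_mem _ (wP_mem_B h hi r)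
      (hF.c.diagonal_le_borel (HH_mem_diag h hi (neg_ne_zero.2 hr0)))
    have h2 : v = g * b₄⁻¹ * wN h i r⁻¹ := by
      rw [e, hf, hb₄]
      group
    have hxm := wN_mem_V h hi r⁻¹
    have h4 : g * b₄⁻¹ ∈ D.borelSubgroup F ⊓ D.negUnipotent F := by
      refine ⟨Subgroup.mul_mem _ hgB (Subgroup.inv_mem _ hb₄B), ?_⟩
      have := Subgroup.mul_mem _ hv (Subgroup.inv_mem _ hxm)
      rw [h2] at this
      simpa using this
    rw [hF.B_inf_V, Subgroup.mem_bot] at h4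
    refine ⟨r⁻¹, ?_, ?_⟩
    · rw [iter_inv h, hr]
    · rw [h2, h4, one_mul]

/-- The element of `S` of a class. -/
noncomputable def sE {i : ℕ} (hi : i < D.rank) : ↥h.G1 := ⟨nCl h i, nCl_mem h hi⟩

theorem sE_mem_S (hJJ : ∀ i < D.rank, ∀ j < D.rank, j ∈ J i → J j = J i) {i : ℕ} (hi : i < D.rank) :
    sE h hi ∈ (bnP h hJJ).S :=
  ⟨i, hi, (nC_coe h hi).symm⟩

theorem mem_parabolic_iff_cell (hJJ : ∀ i < D.rank, ∀ j < D.rank, j ∈ J i → J j = J i) {i : ℕ} (hi : i < D.rank) (g : ↥h.G1) :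
    g ∈ (bnP h hJJ).parabolic {sE h hi} ↔ g.1 ∈ D.borelSubgroup F ∨ g.1 ∈ cellS D F (nCl h i) := by
  have hcoe := coe_parabolic_singleton (P := bnP h hJJ) (sE_mem_S h hJJ hi)
  have h1 : g ∈ (bnP h hJJ).parabolic {sE h hi} ↔ g ∈ ((bnP h hJJ).B : Set ↥h.G1) ∪ dc (bnP h hJJ) (sE h hi) := by
    rw [← hcoe]
    rfl
  rw [h1]
  apply or_congr
  · exact mem_B_iff h g
  · rw [mem_dc]
    constructor
    · rintro ⟨b, hb, b', hb', e⟩
      exact ⟨b.1, (mem_B_iff h b).1 hb, b'.1, (mem_B_iff h b').1 hb', congrArg Subtype.val e⟩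
    · intro hc
      have hc' : g.1 ∈ cellS D F (((h.twG).nC i : ↥(D.monomialSubgroup F)) : GL D.Idx F) := by
        rw [nC_coe h hi]
        exact hc
      obtain ⟨b, hb, hbG, u, hu, huG, e⟩ := (h.twG).cell_decomp g.2 ((h.twG).nC_mem i hi) hc'
      rw [nC_coe h hi] at e
      refine ⟨⟨b, hbG⟩, (mem_B_iff h _).2 hb, ⟨u, huG⟩, (mem_B_iff h _).2 (hF.c.posUnipotent_le_borel hu), Subtype.ext e⟩

theorem wN_mem_parabolic (hJJ : ∀ i < D.rank, ∀ j < D.rank, j ∈ J i → J j = J i) {i : ℕ} (hi : i < D.rank) (t : F) :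
    wN h i t ∈ D.borelSubgroup F ∨ wN h i t ∈ cellS D F (nCl h i) := by
  by_cases ht : t = 0
  · left
    rw [ht, wN_zero]
    exact Subgroup.one_mem _
  · right
    exact ⟨_, Subgroup.mul_mem _ (wP_mem_B h hi t⁻¹)
      (hF.c.diagonal_le_borel (HH_mem_diag h hi (neg_ne_zero.2 (inv_ne_zero ht)))), _, wP_mem_B h hi t⁻¹, wN_form h hi ht⟩

/-- An element of `V` in the parabolic of a class. -/
theorem V_inf_parabolic {i : ℕ} (hi : i < D.rank) {v : GL D.Idx F} (hvG : v ∈ h.G1) (hv : v ∈ D.negUnipotent F)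
    (hc : v ∈ D.borelSubgroup F ∨ v ∈ cellS D F (nCl h i)) : ∃ t : F, f^[dd i] t = t ∧ v = wN h i t := by
  rcases hc with hc | hc
  · have h3 : v ∈ D.borelSubgroup F ⊓ D.negUnipotent F := ⟨hc, hv⟩
    rw [hF.B_inf_V, Subgroup.mem_bot] at h3
    exact ⟨0, iter_zero h _, by rw [h3, wN_zero]⟩
  · exact V_inf_cell h hi hvG hv hc

/-- A normalised automorphism permutes the negative root words of the classes. -/
theorem neg_map (hJJ : ∀ i < D.rank, ∀ j < D.rank, j ∈ J i → J j = J i) {θ : ↥h.G1 ≃* ↥h.G1} (hθ : Nrm h θ) {i : ℕ} (hi : i < D.rank) :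
    ∃ j, j < D.rank ∧ ∀ g : ↥h.G1, (∃ t : F, f^[dd i] t = t ∧ g.1 = wN h i t) ↔
      ∃ t' : F, f^[dd j] t' = t' ∧ (θ g).1 = wN h j t' := by
  have hB : ∀ x, θ x ∈ (bnP h hJJ).B ↔ x ∈ (bnP h hJJ).B := by
    intro x
    rw [mem_B_iff, mem_B_iff]
    exact map_borel h hJJ hθ.u x
  obtain ⟨s', ⟨j, hj, hs'⟩, hs⟩ := exists_parabolic_map (bnP h hJJ) hB (sE_mem_S h hJJ hi)
  have hs'e : s' = sE h hj := Subtype.ext (hs'.trans (nC_coe h hj))
  subst hs'e
  refine ⟨j, hj, fun g => ?_⟩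
  constructor
  · rintro ⟨t, ht0, ht⟩
    have hgV : g.1 ∈ D.negUnipotent F := by
      rw [ht]
      exact wN_mem_V h hi t
    have hgP : g ∈ (bnP h hJJ).parabolic {sE h hi} := by
      rw [mem_parabolic_iff_cell h hJJ hi, ht]
      exact wN_mem_parabolic h hJJ hi t
    exact V_inf_parabolic h hj (θ g).2 ((hθ.v g).2 hgV) ((mem_parabolic_iff_cell h hJJ hj _).1 ((hs g).2 hgP))
  · rintro ⟨t, ht0, ht⟩
    have hgV : g.1 ∈ D.negUnipotent F := by
      rw [← hθ.v, ht]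
      exact wN_mem_V h hj t
    have hgP : g ∈ (bnP h hJJ).parabolic {sE h hi} := by
      rw [← hs, mem_parabolic_iff_cell h hJJ hj, ht]
      exact wN_mem_parabolic h hJJ hj t
    exact V_inf_parabolic h hi g.2 hgV ((mem_parabolic_iff_cell h hJJ hi _).1 hgP)

/-- The permutation of the simple indices induced by the longest element. -/
theorem exists_opp_perm : ∃ (n₀ : ↥(D.monomialSubgroup F)) (k : ℕ → ℕ), n₀.1 ∈ h.G1 ∧
    (∀ x : GL D.Idx F, x ∈ D.posUnipotent F ↔ n₀.1 * x * n₀.1⁻¹ ∈ D.negUnipotent F) ∧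
    (∀ x : GL D.Idx F, x ∈ D.negUnipotent F ↔ n₀.1 * x * n₀.1⁻¹ ∈ D.posUnipotent F) ∧
    (∀ a < D.rank, k a < D.rank) ∧ (∀ i < D.rank, ∃ a < D.rank, k a = i) ∧
    (∀ a < D.rank, ∀ t : F, f^[dd a] t = t → ∃ t' : F, f^[dd (k a)] t' = t' ∧ n₀.1 * wN h a t * n₀.1⁻¹ = wP h (k a) t') ∧
    (∀ a < D.rank, dd (k a) = dd a) := by
  classical
  obtain ⟨n₀, hn₀, ⟨u₀, hact⟩, hiff, hU, hV⟩ := exists_opp h
  have hW := hF.rhoN_mem_Wk n₀
  set σ₀ := hF.rhoN F n₀ with hσ₀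
  choose! k hkr hk using (fun (a : ℕ) (ha : a < D.rank) => opp_simple hF hW hiff ha)
  have hinj : ∀ a < D.rank, ∀ b < D.rank, k a = k b → a = b := by
    intro a ha b hb e
    have h1 := hk a ha
    rw [e, ← hk b hb] at h1
    have h2 := σ₀.injective (Fin.ext h1)
    have h3 := congrArg (fun x : Fin D.nroots => hF.negF x) h2
    simp only [hF.negF_negF] at h3
    have h4 : D.simple a = D.simple b := congrArg Fin.val h3
    exact hF.simple_inj ha hb h4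
  have hsurj : ∀ i < D.rank, ∃ a < D.rank, k a = i := by
    intro i hi
    have hmaps : Set.MapsTo k (Finset.range D.rank : Set ℕ) (Finset.range D.rank : Set ℕ) :=
      fun a ha => Finset.mem_coe.2 (Finset.mem_range.2 (hkr a (Finset.mem_range.1 (Finset.mem_coe.1 ha))))
    have hinj' : Set.InjOn k (Finset.range D.rank : Set ℕ) :=
      fun a ha b hb e => hinj a (Finset.mem_range.1 (Finset.mem_coe.1 ha)) b (Finset.mem_range.1 (Finset.mem_coe.1 hb)) e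
    have := Finset.surjOn_of_injOn_of_card_le k hmaps hinj' (le_refl _)
    obtain ⟨a, ha, e⟩ := this (Finset.mem_coe.2 (Finset.mem_range.2 hi))
    exact ⟨a, Finset.mem_range.1 (Finset.mem_coe.1 ha), e⟩
  -- `k` commutes with `π'`
  have hkπ : ∀ a < D.rank, k (π' a) = π' (k a) := by
    intro a ha
    have hc := (h.twG).rho_fix n₀ hn₀ (hF.negF ⟨D.simple a, hF.simple_lt ha⟩)
    rw [τ.ρ_neg] at hc
    have e1 : τ.ρ ⟨D.simple a, hF.simple_lt ha⟩ = ⟨D.simple (π' a), hF.simple_lt (h.π_lt a ha)⟩ := by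
      have := τ.ρ_simple ⟨a, ha⟩
      apply Fin.ext
      have e2 : ((hF.pF ⟨a, ha⟩ : Fin D.nroots)) = ⟨D.simple a, hF.simple_lt ha⟩ := rfl
      rw [e2] at this
      rw [this]
      show D.simple ((τ.π ⟨a, ha⟩ : Fin D.rank) : ℕ) = _
      rw [h.τπ a ha]
    rw [e1] at hc
    have e3 : σ₀ (hF.negF ⟨D.simple a, hF.simple_lt ha⟩) = ⟨D.simple (k a), hF.simple_lt (hkr a ha)⟩ := Fin.ext (hk a ha)
    rw [e3] at hc
    have e4 : τ.ρ ⟨D.simple (k a), hF.simple_lt (hkr a ha)⟩ = ⟨D.simple (π' (k a)), hF.simple_lt (h.π_lt _ (hkr a ha))⟩ := by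
      have := τ.ρ_simple ⟨k a, hkr a ha⟩
      apply Fin.ext
      have e2 : ((hF.pF ⟨k a, hkr a ha⟩ : Fin D.nroots)) = ⟨D.simple (k a), hF.simple_lt (hkr a ha)⟩ := rfl
      rw [e2] at this
      rw [this]
      show D.simple ((τ.π ⟨k a, hkr a ha⟩ : Fin D.rank) : ℕ) = _
      rw [h.τπ _ (hkr a ha)]
    rw [e4] at hc
    have h5 := hk (π' a) (h.π_lt a ha)
    have h6 := congrArg Fin.val hc
    apply hF.simple_inj (hkr _ (h.π_lt a ha)) (h.π_lt _ (hkr a ha))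
    rw [← h5]
    exact h6
  have hkiter : ∀ (n a : ℕ), a < D.rank → π'^[n] a < D.rank ∧ k (π'^[n] a) = π'^[n] (k a) := by
    intro n a ha
    induction n with
    | zero => exact ⟨ha, rfl⟩
    | succ n ih =>
      rw [Function.iterate_succ_apply', Function.iterate_succ_apply']
      exact ⟨h.π_lt _ ih.1, by rw [hkπ _ ih.1, ih.2]⟩
  have hstab : ∀ (i : ℕ) (hi : i < D.rank) (n c : ℕ), c < D.rank → c ∈ J i → π'^[n] c ∈ J i := by
    intro i hi n c hc hci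
    induction n with
    | zero => exact hci
    | succ n ih =>
      rw [Function.iterate_succ_apply']
      have hl : π'^[n] c < D.rank := (h.iter_simple n c hc).1
      exact (h.stable i hi _ hl).1 ih
  have hJk : ∀ a < D.rank, ∀ j ∈ J a, k j ∈ J (k a) := by
    intro a ha j hj
    obtain ⟨n, rfl⟩ := h.orbit a ha j (h.mem_J_lt ha hj) hj
    rw [(hkiter n a ha).2]
    exact hstab (k a) (hkr a ha) n (k a) (hkr a ha) (h.self _ (hkr a ha))
  have hJk' : ∀ a < D.rank, ∀ j ∈ J (k a), ∃ j' ∈ J a, k j' = j := by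
    intro a ha j hj
    obtain ⟨n, rfl⟩ := h.orbit (k a) (hkr a ha) j (h.mem_J_lt (hkr a ha) hj) hj
    exact ⟨π'^[n] a, hstab a ha n a ha (h.self a ha), (hkiter n a ha).2⟩
  have hlen : ∀ i < D.rank, (J i).length = dd i := by
    intro i hi
    rw [h.J_eq i hi]
    simp
  have hdd : ∀ a < D.rank, dd (k a) = dd a := by
    intro a ha
    rw [← hlen _ (hkr a ha), ← hlen a ha]
    have hnd1 : ((J a).map k).Nodup := (h.nd a ha).map_on (fun x hx y hy e =>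
      hinj x (h.mem_J_lt ha hx) y (h.mem_J_lt ha hy) e)
    have hp : ((J a).map k).Perm (J (k a)) := by
      apply (List.perm_ext_iff_of_nodup hnd1 (h.nd _ (hkr a ha))).2
      intro j
      constructor
      · intro hj
        obtain ⟨j', hj', rfl⟩ := List.mem_map.1 hj
        exact hJk a ha j' hj'
      · intro hj
        obtain ⟨j', hj', e⟩ := hJk' a ha j hj
        exact List.mem_map.2 ⟨j', hj', e⟩
    rw [← hp.length_eq]
    simp
  refine ⟨n₀, k, hn₀, hU, hV, hkr, hsurj, ?_, hdd⟩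
  intro a ha t ht
  have hm1 : n₀.1 * wN h a t * n₀.1⁻¹ ∈ UL D F {x | x ∈ J (k a)} := by
    let M : Subgroup (GL D.Idx F) := (UL D F {x | x ∈ J (k a)}).comap (MulAut.conj n₀.1).toMonoidHom
    have h1 : wN h a t ∈ M := by
      rw [wN_eq_prod]
      apply Subgroup.list_prod_mem
      intro y hy
      obtain ⟨l, hl, rfl⟩ := List.mem_map.1 hy
      show n₀.1 * _ * n₀.1⁻¹ ∈ UL D F {x | x ∈ J (k a)}
      have hl' := List.mem_range.1 hl
      rw [rkn_eq h ha, rk_eq h ha]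
      have hj := mem_Jk h ha hl'
      have hjl := rk_lt h ha l
      have h2 := hact.conj (hF.negF ⟨D.simple (π'^[l] (A a)), hF.simple_lt hjl⟩) (f^[l] t)
      have e0 : ((hF.negF ⟨D.simple (π'^[l] (A a)), hF.simple_lt hjl⟩ : Fin D.nroots) : ℕ) = D.neg (D.simple (π'^[l] (A a))) := rfl
      rw [e0] at h2
      rw [h2]
      have e1 : (σ₀ (hF.negF ⟨D.simple (π'^[l] (A a)), hF.simple_lt hjl⟩)) = ⟨D.simple (k (π'^[l] (A a))), hF.simple_lt (hkr _ hjl)⟩ :=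
        Fin.ext (hk _ hjl)
      rw [e1]
      apply hF.xG_mem_rootClosure
      rw [h.lq_rs (hkr a ha), h.rs_eq (hkr a ha)]
      exact List.mem_map.2 ⟨_, hJk a ha _ hj, rfl⟩
    exact h1
  have hG : n₀.1 * wN h a t * n₀.1⁻¹ ∈ h.G1 :=
    Subgroup.mul_mem _ (Subgroup.mul_mem _ hn₀ (wN_mem h ha ht)) (Subgroup.inv_mem _ hn₀)
  exact exists_wP_of_UL h (hkr a ha) hm1 ((h.twG).G1_fix _ hG)

/-- A normalised automorphism permutes the positive root words of the classes. -/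
theorem pos_map (hJJ : ∀ i < D.rank, ∀ j < D.rank, j ∈ J i → J j = J i) {θ : ↥h.G1 ≃* ↥h.G1} (hθ : Nrm h θ) {i : ℕ} (hi : i < D.rank) :
    ∃ j, j < D.rank ∧ ∀ g : ↥h.G1, (∃ t : F, f^[dd i] t = t ∧ g.1 = wP h i t) ↔
      ∃ t' : F, f^[dd j] t' = t' ∧ (θ g).1 = wP h j t' := by
  classical
  obtain ⟨n₀, k, hn₀, hU, hV, hkr, hsurj, hconj, hdd⟩ := exists_opp_perm h
  let nG : ↥h.G1 := ⟨n₀.1, hn₀⟩
  let θ' : ↥h.G1 ≃* ↥h.G1 := (MulAut.conj nG).trans (θ.trans (MulAut.conj nG⁻¹))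
  have hθ'v : ∀ x : ↥h.G1, (θ' x).1 = n₀.1⁻¹ * (θ (nG * x * nG⁻¹)).1 * n₀.1 := by
    intro x
    simp [θ', nG, MulAut.conj_apply]
  have hθ' : Nrm h θ' := by
    refine ⟨fun x => ?_, fun x => ?_⟩
    · rw [hθ'v, hU x.1]
      have h1 := hθ.v (nG * x * nG⁻¹)
      have h2 : ((nG * x * nG⁻¹ : ↥h.G1) : GL D.Idx F) = n₀.1 * x.1 * n₀.1⁻¹ := rfl
      rw [h2] at h1
      rw [← h1]
      rw [hU]
      simp [mul_assoc]
    · rw [hθ'v, hV x.1]
      have h1 := hθ.u (nG * x * nG⁻¹)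
      have h2 : ((nG * x * nG⁻¹ : ↥h.G1) : GL D.Idx F) = n₀.1 * x.1 * n₀.1⁻¹ := rfl
      rw [h2] at h1
      rw [← h1]
      rw [hV]
      simp [mul_assoc]
  -- full correspondence
  have hconj' : ∀ a < D.rank, ∀ t' : F, f^[dd (k a)] t' = t' → ∃ t : F, f^[dd a] t = t ∧ n₀.1 * wN h a t * n₀.1⁻¹ = wP h (k a) t' := by
    intro a ha t' ht'
    choose! φ hφ1 hφ2 using hconj a ha
    let S := {t : F // f^[dd a] t = t}
    let φ' : S → S := fun t => ⟨φ t.1, by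
      have := hφ1 t.1 t.2
      rwa [hdd a ha] at this⟩
    have hinj : Function.Injective φ' := by
      intro a' b' e
      apply Subtype.ext
      have e' : φ a'.1 = φ b'.1 := congrArg Subtype.val e
      have e2 := hφ2 a'.1 a'.2
      rw [e', ← hφ2 b'.1 b'.2] at e2
      exact wN_inj h ha (by simpa using e2)
    have hs : Function.Surjective φ' := Finite.surjective_of_injective hinj
    obtain ⟨t, ht⟩ := hs ⟨t', by rwa [← hdd a ha]⟩
    refine ⟨t.1, t.2, ?_⟩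
    rw [hφ2 t.1 t.2]
    have : φ t.1 = t' := congrArg Subtype.val ht
    rw [this]
  have hiff : ∀ a < D.rank, ∀ y : GL D.Idx F, (∃ t : F, f^[dd (k a)] t = t ∧ y = wP h (k a) t) ↔
      ∃ t : F, f^[dd a] t = t ∧ n₀.1⁻¹ * y * n₀.1 = wN h a t := by
    intro a ha y
    constructor
    · rintro ⟨t, ht, rfl⟩
      obtain ⟨t', ht', e⟩ := hconj' a ha t ht
      refine ⟨t', ht', ?_⟩
      rw [← e]
      group
    · rintro ⟨t, ht, e⟩
      obtain ⟨t', ht', e'⟩ := hconj a ha t ht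
      refine ⟨t', ht', ?_⟩
      rw [← e', ← e]
      group
  obtain ⟨a, ha, rfl⟩ := hsurj i hi
  obtain ⟨b, hb, hab⟩ := neg_map h hJJ hθ' ha
  refine ⟨k b, hkr b hb, fun g => ?_⟩
  rw [hiff a ha, hiff b hb]
  have e1 := hab (nG⁻¹ * g * nG)
  have e2 : ((nG⁻¹ * g * nG : ↥h.G1) : GL D.Idx F) = n₀.1⁻¹ * g.1 * n₀.1 := rfl
  rw [e2] at e1
  rw [e1, hθ'v]
  have e3 : nG * (nG⁻¹ * g * nG) * nG⁻¹ = g := by group
  rw [e3]

end Cfsg.Agent.Lib.Chev.TwAut
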