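import Cfsg.Agent.Lib.Chev.TwAutC

/-!
# Automorphisms of twisted groups with orthogonal classes: the parameters of an automorphism
-/

set_option autoImplicit false
set_option linter.unusedSectionVars false
set_option linter.unusedVariables false
set_option linter.unnecessarySimpa false

namespace Cfsg.Agent.Lib.Chev.TwAut

open Cfsg.Lie Matrix Equiv Cfsg.Agent.Lib.Chev
open Cfsg.Agent.Lib.Chev.Full (cellS)

variable {T : Tabs} {X : Extra} {R : RootTab} {D : ChevalleyDatum} {F : Type*} [Field F]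
variable {hF : Full T X R D} {τ : Tw hF F} {f : F ≃+* F} {ρ' π' : ℕ → ℕ} {J : ℕ → List ℕ} {A dd : ℕ → ℕ}
variable (h : SCOK τ f ρ' π' J A dd)

include h

theorem iter_add' (k : ℕ) (a b : F) : f^[k] (a + b) = f^[k] a + f^[k] b := by
  induction k with
  | zero => rfl
  | succ k ih => rw [Function.iterate_succ_apply', Function.iterate_succ_apply', Function.iterate_succ_apply', ih, map_add]

theorem iter_mul' (k : ℕ) (a b : F) : f^[k] (a * b) = f^[k] a * f^[k] b := h.iter_f_mul k a b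

/-- The action of a fixed torus element on root elements. -/
theorem chi_step (c : Fin D.rank → Fˣ) (hc : τ.s (tor R D c) = tor R D c) {m : ℕ} (hm : m < D.rank) :
    ((chiT D c (ρ' (D.simple m)) : Fˣ) : F) = f ((chiT D c (D.simple m) : Fˣ) : F) := by
  have hp := hF.simple_lt hm
  have hp' : ρ' (D.simple m) < D.nroots := by
    rw [h.ρπ m hm]
    exact hF.simple_lt (h.π_lt m hm)
  have h1 := hF.tor_conj_xG c hp 1
  have hT : tor R D c ∈ D.group F := hF.c.diagonal_le_group (hF.tor_mem_diagonal c)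
  have hX : hF.c.xG (D.simple m) (1 : F) ∈ D.group F := hF.c.xG_mem_group hp _
  have h2 := congrArg τ.s h1
  rw [τ.s_mul (Subgroup.mul_mem _ hT hX) (Subgroup.inv_mem _ hT), τ.s_mul hT hX, τ.s_inv hT, hc, h.s_pos m hm,
    h.s_pos m hm, map_one, hF.tor_conj_xG c hp' 1, mul_one, mul_one] at h2
  exact hF.xG_param_inj hp' h2

theorem chi_iter (c : Fin D.rank → Fˣ) (hc : τ.s (tor R D c) = tor R D c) {i : ℕ} (hi : i < D.rank) (k : ℕ) :
    ((chiT D c (ρ'^[k] (D.simple (A i))) : Fˣ) : F) = f^[k] ((chiT D c (D.simple (A i)) : Fˣ) : F) := by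
  induction k with
  | zero => rfl
  | succ k ih =>
    rw [Function.iterate_succ_apply', Function.iterate_succ_apply', ← ih, rk_eq h hi]
    exact chi_step h c hc (rk_lt h hi k)

theorem chi_fixed (c : Fin D.rank → Fˣ) (hc : τ.s (tor R D c) = tor R D c) {i : ℕ} (hi : i < D.rank) :
    f^[dd i] ((chiT D c (D.simple (A i)) : Fˣ) : F) = ((chiT D c (D.simple (A i)) : Fˣ) : F) := by
  rw [← chi_iter h c hc hi, h.cl_pos hi]

theorem tor_conj_wP (c : Fin D.rank → Fˣ) (hc : τ.s (tor R D c) = tor R D c) {i : ℕ} (hi : i < D.rank) (t : F) :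
    tor R D c * wP h i t * (tor R D c)⁻¹ = wP h i (((chiT D c (D.simple (A i)) : Fˣ) : F) * t) :=
  h.tor_conj_cw c (fun k _ => by
    rw [rk_eq h hi]
    exact hF.simple_lt (rk_lt h hi k)) (fun k _ => chi_iter h c hc hi k) t

theorem tor_conj_wN (c : Fin D.rank → Fˣ) (hc : τ.s (tor R D c) = tor R D c) {i : ℕ} (hi : i < D.rank) (t : F) :
    tor R D c * wN h i t * (tor R D c)⁻¹ = wN h i ((((chiT D c (D.simple (A i)) : Fˣ) : F))⁻¹ * t) :=
  h.tor_conj_cw c (fun k _ => by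
    rw [rkn_eq h hi, rk_eq h hi]
    exact hF.neg_lt (hF.simple_lt (rk_lt h hi k))) (fun k _ => by
    rw [rkn_eq h hi, hF.chiT_neg c (by
      rw [rk_eq h hi]
      exact hF.simple_lt (rk_lt h hi k)), Units.val_inv_eq_inv_val, chi_iter h c hc hi k, h.iter_f_inv']) t

/-- Parameters from a correspondence of word sets. -/
theorem data_of_iff {H : Subgroup (GL D.Idx F)} {θ : ↥H ≃* ↥H} {d d' : ℕ} {W W' : F → GL D.Idx F}
    (hW : ∀ t, f^[d] t = t → W t ∈ H) (hW' : ∀ t, f^[d'] t = t → W' t ∈ H)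
    (hadd : ∀ a b, W (a + b) = W a * W b) (hadd' : ∀ a b, W' (a + b) = W' a * W' b)
    (hinj : ∀ a b, W a = W b → a = b) (hinj' : ∀ a b, W' a = W' b → a = b)
    (hiff : ∀ g : ↥H, (∃ t, f^[d] t = t ∧ g.1 = W t) ↔ ∃ t', f^[d'] t' = t' ∧ (θ g).1 = W' t') :
    ∃ ψ : F → F, (∀ t, f^[d] t = t → f^[d'] (ψ t) = ψ t ∧ ∀ hm : W t ∈ H, (θ ⟨W t, hm⟩).1 = W' (ψ t)) ∧
      (∀ a b, f^[d] a = a → f^[d] b = b → ψ (a + b) = ψ a + ψ b) ∧
      (∀ a b, f^[d] a = a → f^[d] b = b → ψ a = ψ b → a = b) ∧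
      (∀ t', f^[d'] t' = t' → ∃ t, f^[d] t = t ∧ ψ t = t') := by
  classical
  have h1 : ∀ t (ht : f^[d] t = t), ∃ t', f^[d'] t' = t' ∧ (θ ⟨W t, hW t ht⟩).1 = W' t' :=
    fun t ht => (hiff ⟨W t, hW t ht⟩).1 ⟨t, ht, rfl⟩
  choose! ψ hψ1 hψ2 using h1
  refine ⟨ψ, ?_, ?_, ?_, ?_⟩
  · intro t ht
    exact ⟨hψ1 t ht, fun hm => hψ2 t ht⟩
  · intro a b ha hb
    have hab : f^[d] (a + b) = a + b := by rw [iter_add' h, ha, hb]
    have e1 : (⟨W (a + b), hW _ hab⟩ : ↥H) = ⟨W a, hW a ha⟩ * ⟨W b, hW b hb⟩ := Subtype.ext (hadd a b)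
    have e2 := hψ2 (a + b) hab
    rw [e1, map_mul, Subgroup.coe_mul, hψ2 a ha, hψ2 b hb, ← hadd'] at e2
    exact (hinj' _ _ e2).symm
  · intro a b ha hb e
    have e1 := hψ2 a ha
    rw [e, ← hψ2 b hb] at e1
    have e2 := θ.injective (Subtype.ext e1)
    exact hinj _ _ (congrArg Subtype.val e2)
  · intro t' ht'
    have hm := hW' t' ht'
    obtain ⟨t, ht, e⟩ := (hiff (θ.symm ⟨W' t', hm⟩)).2 ⟨t', ht', by simp⟩
    refine ⟨t, ht, ?_⟩
    have e1 : θ.symm ⟨W' t', hm⟩ = ⟨W t, hW t ht⟩ := Subtype.ext e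
    have e2 := hψ2 t ht
    rw [← e1] at e2
    simp only [MulEquiv.apply_symm_apply] at e2
    exact hinj' _ _ e2.symm

end Cfsg.Agent.Lib.Chev.TwAut
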