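import Cfsg.Agent.Lib.Chev.TwAutH
import Cfsg.Agent.Lib.Chev.TwD4P

/-!
# The outer automorphism group of ³D₄(q)
-/

set_option autoImplicit false
set_option linter.unusedSectionVars false
set_option linter.unusedVariables false
set_option linter.unnecessarySimpa false

namespace Cfsg.Agent.Lib.Chev.TwD4

open Cfsg.Agent.Lib.Chev Cfsg.Lie Equiv
open Cfsg.Agent.Lib.Chev.TwAut (AutHyp ClassPres)

variable {K : Type*} [Field K] [Fintype K] {f : K ≃+* K}

theorem not_dvd_pow_sub_one {p q n : ℕ} (hp : p.Prime) (hpq : p ∣ q) (hq : 1 ≤ q) (hn : n ≠ 0) : ¬ p ∣ q ^ n - 1 := by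
  intro h
  have h1 : p ∣ q ^ n := hpq.trans (dvd_pow_self q hn)
  have h2 : q ^ n - 1 + 1 = q ^ n := Nat.sub_add_cancel (Nat.one_le_pow _ _ hq)
  rw [← h2] at h1
  exact hp.one_lt.ne' (Nat.dvd_one.1 ((Nat.dvd_add_right h).1 h1))

theorem hAJ : ∀ i < chevD4.rank, ∀ j < chevD4.rank, J j = J i → A j = A i := by decide +kernel

theorem hdJ : ∀ i < chevD4.rank, ∀ j < chevD4.rank, dd j = dd i → J j = J i := by decide +kernel

theorem card_dd {q : ℕ} (hq : IsPrimePow q) (hK : Fintype.card K = q ^ 3) (hf : ∀ t, f t = t ^ q) :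
    ∀ i < chevD4.rank, Nat.card {t : K // f^[dd i] t = t} = q ^ dd i := by
  intro i hi
  have hi' : i < 4 := hi
  interval_cases i
  · exact card_fix_top hK hf
  · exact card_fix_one hq hK (by norm_num) hf
  · exact card_fix_top hK hf
  · exact card_fix_top hK hf

theorem classPres {q : ℕ} (hq : IsPrimePow q) (hK : Fintype.card K = q ^ 3) (hf : ∀ t, f t = t ^ q)
    (W : ℕ → K → GL chevD4.Idx K) : ClassPres (sc f) W := by
  intro ρ hρ hcard _ i hi
  apply hdJ i hi _ (hρ i hi)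
  have h1 := hcard i hi
  rw [card_dd hq hK hf _ (hρ i hi), card_dd hq hK hf i hi] at h1
  exact Nat.pow_right_injective hq.two_le h1

theorem autHyp {q : ℕ} (hq : IsPrimePow q) (hK : Fintype.card K = q ^ 3) (hf : ∀ t, f t = t ^ q) (hf3 : ∀ t, f^[3] t = t) :
    AutHyp (sc f) 0 where
  hJJ := hJJ
  hAJ := hAJ
  hmem := hmem f
  hχ := TwAut.hχ_of_ker (sc f) hJJ hAJ (fun c hc ht => ker_one hf3 c hc ht)
  hclsP := classPres hq hK hf _
  hclsN := classPres hq hK hf _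
  hi₀ := by decide
  hf₀ := hf3
  hconn := by
    intro Q h0 hc hl i hi
    have h1 : Q 1 := hl 1 0 (by decide) (by decide) (by
      intro l hl'
      have : l = 0 := by
        have h2 : dd 1 = 1 := rfl
        omega
      subst this
      rw [if_pos rfl]
      exact cartan_vals.2.1) h0
    have hi' : i < 4 := hi
    interval_cases i
    · exact h0
    · exact h1
    · exact hc 0 2 (by decide) (by decide) (by decide +kernel) h0
    · exact hc 0 3 (by decide) (by decide) (by decide +kernel) h0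
  hcomm := by
    intro σ t
    rw [hf, hf, map_pow]

theorem card_ker {q : ℕ} (hf3 : ∀ t, f^[3] t = t) :
    Nat.card {c : Fin chevD4.rank → Kˣ // (sc f).FTh c = c ∧ tor RootD4T.R chevD4 c = (1 : GL chevD4.Idx K)} = 1 := by
  rw [Nat.card_eq_one_iff_unique]
  refine ⟨⟨?_⟩, ⟨⟨1, ?_⟩⟩⟩
  · rintro ⟨a, ha1, ha2⟩ ⟨b, hb1, hb2⟩
    apply Subtype.ext
    exact (ker_one hf3 a ha1 ha2).trans (ker_one hf3 b hb1 hb2).symm
  · refine ⟨?_, tor_one _ _⟩
    exact map_one _

/-- The order of the outer automorphism group of ³D₄(q). -/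
theorem card_out_twisted {p m : ℕ} [Fact p.Prime] (hK : Fintype.card K = p ^ (3 * m)) (hm : 1 ≤ m) :
    Nat.card (Cfsg.Out ↥(twistedD4 K (p ^ m))) = 3 * m := by
  have hp : p.Prime := Fact.out
  have hq : IsPrimePow (p ^ m) := hp.isPrimePow.pow (by omega)
  have hK' : Fintype.card K = (p ^ m) ^ 3 := by
    rw [hK, ← pow_mul, mul_comm]
  obtain ⟨f, hf, hf3⟩ := exists_frob3 hq hK'
  have hG1 := G1_eq f hf hf3
  have hcardG : Nat.card (sc f).G1 = (p ^ m) ^ 12 * ((p ^ m) ^ 2 - 1) * ((p ^ m) ^ 6 - 1) * ((p ^ m) ^ 8 + (p ^ m) ^ 4 + 1) := by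
    rw [hG1]
    exact card_twisted hq hK'
  have hcardU : Nat.card ↥(chevD4.posUnipotent K ⊓ (sc f).G1) = (p ^ m) ^ 12 := by
    rw [hG1]
    exact card_U1 hq hK'
  have hr : ¬ p ∣ ((p ^ m) ^ 2 - 1) * ((p ^ m) ^ 6 - 1) * ((p ^ m) ^ 8 + (p ^ m) ^ 4 + 1) := by
    have hpq : p ∣ p ^ m := dvd_pow_self p (by omega)
    have hq1 : 1 ≤ p ^ m := Nat.one_le_pow _ _ hp.pos
    intro h
    rcases (hp.dvd_mul.1 h) with h | h
    · rcases (hp.dvd_mul.1 h) with h | h
      · exact not_dvd_pow_sub_one hp hpq hq1 (by norm_num) h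
      · exact not_dvd_pow_sub_one hp hpq hq1 (by norm_num) h
    · have h1 : p ∣ (p ^ m) ^ 8 + (p ^ m) ^ 4 :=
        dvd_add (hpq.trans (dvd_pow_self _ (by norm_num))) (hpq.trans (dvd_pow_self _ (by norm_num)))
      exact hp.one_lt.ne' (Nat.dvd_one.1 ((Nat.dvd_add_right h1).1 h))
  obtain ⟨P, hP⟩ := TwAut.exists_sylow (sc f) (p := p) (N := m * 12) (r := ((p ^ m) ^ 2 - 1) * ((p ^ m) ^ 6 - 1) * ((p ^ m) ^ 8 + (p ^ m) ^ 4 + 1))
    (q := (p ^ m) ^ 12) (by rw [← pow_mul]) hcardU (by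
      rw [hcardG]
      ring) hr
  have h1 := TwAut.card_out (sc f) (autHyp hq hK' hf hf3) P hP (fun c hc => hκ hf3 c hc)
  rw [← hG1, h1, card_ker (q := p ^ m) hf3, Cfsg.Agent.Lib.ChevAut.card_ringAut' hK, mul_one]

end Cfsg.Agent.Lib.Chev.TwD4
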