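import Cfsg.Agent.Lib.Chev.TwAutD

/-!
# Automorphisms of twisted groups with orthogonal classes: the structure of an automorphism
-/

set_option autoImplicit false
set_option linter.unusedSectionVars false
set_option linter.unusedVariables false
set_option linter.unnecessarySimpa false

namespace Cfsg.Agent.Lib.Chev.TwAut

open Cfsg.Lie Matrix Equiv Cfsg.Agent.Lib.Chev
open Cfsg.Agent.Lib.Chev.Full (cellS)

variable {T : Tabs} {X : Extra} {R : RootTab} {D : ChevalleyDatum} {F : Type*} [Field F]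
variable {hF : Full T X R D} {τ : Tw hF F} {f : F ≃+* F} {ρ' π' : ℕ → ℕ} {J : ℕ → List ℕ} {A dd : ℕ → ℕ}
variable (h : SCOK τ f ρ' π' J A dd)

/-- Class preservation for a family of words. -/
def ClassPres (_h : SCOK τ f ρ' π' J A dd) (W : ℕ → F → GL D.Idx F) : Prop :=
  ∀ ρ : ℕ → ℕ, (∀ i < D.rank, ρ i < D.rank) →
    (∀ i < D.rank, Nat.card {t : F // f^[dd (ρ i)] t = t} = Nat.card {t : F // f^[dd i] t = t}) →
    (∀ i < D.rank, ∀ j < D.rank, (∀ s t, f^[dd i] s = s → f^[dd j] t = t → Commute (W i s) (W j t)) ↔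
      (∀ s t, f^[dd (ρ i)] s = s → f^[dd (ρ j)] t = t → Commute (W (ρ i) s) (W (ρ j) t))) →
    ∀ i < D.rank, J (ρ i) = J i

/-- The hypotheses on the twisted group. -/
structure AutHyp (h : SCOK τ f ρ' π' J A dd) (i₀ : ℕ) : Prop where
  hJJ : ∀ i < D.rank, ∀ j < D.rank, j ∈ J i → J j = J i
  hAJ : ∀ i < D.rank, ∀ j < D.rank, J j = J i → A j = A i
  hmem : ∀ c, h.FTh c = c → tor R D c ∈ h.G1
  hχ : ∀ i < D.rank, ∀ u : Fˣ, f^[dd i] (u : F) = u → ∃ c, h.FTh c = c ∧ chiT D c (D.simple (A i)) = u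
  hclsP : ClassPres h (wP h)
  hclsN : ClassPres h (wN h)
  hi₀ : i₀ < D.rank
  hf₀ : ∀ t, f^[dd i₀] t = t
  hconn : ∀ Q : ℕ → Prop, Q i₀ → (∀ i j, i < D.rank → j < D.rank → J i = J j → Q i → Q j) →
    (∀ i j, i < D.rank → j < D.rank →
      (∀ l < dd i, D.cartan (π'^[l] (A i)) (D.simple (A j)) = if l = 0 then -1 else 0) → Q j → Q i) →
    ∀ i < D.rank, Q i
  hcomm : ∀ (σ : F ≃+* F) t, σ (f t) = f (σ t)

include h

theorem dd_of_J (i j : ℕ) (hi : i < D.rank) (hj : j < D.rank) (e : J j = J i) : dd j = dd i := by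
  have h1 : (J i).length = dd i := by
    rw [h.J_eq i hi]
    simp
  have h2 : (J j).length = dd j := by
    rw [h.J_eq j hj]
    simp
  rw [← h1, ← h2, e]

variable [Fintype F]

/-- Parameters for a family of words. -/
theorem fam_data {W : ℕ → F → GL D.Idx F} {θ : ↥h.G1 ≃* ↥h.G1}
    (hWm : ∀ i < D.rank, ∀ t, f^[dd i] t = t → W i t ∈ h.G1)
    (hWadd : ∀ i < D.rank, ∀ a b, W i (a + b) = W i a * W i b)
    (hWinj : ∀ i < D.rank, ∀ a b, W i a = W i b → a = b)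
    (hWJ : ∀ i < D.rank, ∀ j < D.rank, J j = J i → W j = W i)
    (hcls : ClassPres h W)
    (hmap : ∀ i < D.rank, ∃ j, j < D.rank ∧ ∀ g : ↥h.G1, (∃ t : F, f^[dd i] t = t ∧ g.1 = W i t) ↔
      ∃ t' : F, f^[dd j] t' = t' ∧ (θ g).1 = W j t') :
    ∃ ψ : ℕ → F → F, ∀ i < D.rank, (∀ t, f^[dd i] t = t → f^[dd i] (ψ i t) = ψ i t ∧ ∀ hm : W i t ∈ h.G1, (θ ⟨W i t, hm⟩).1 = W i (ψ i t)) ∧
      (∀ a b, f^[dd i] a = a → f^[dd i] b = b → ψ i (a + b) = ψ i a + ψ i b) ∧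
      (∀ a b, f^[dd i] a = a → f^[dd i] b = b → ψ i a = ψ i b → a = b) ∧
      (∀ t', f^[dd i] t' = t' → ∃ t, f^[dd i] t = t ∧ ψ i t = t') := by
  classical
  choose! ρ hρ hρiff using hmap
  have hd : ∀ i, i < D.rank → _ := fun i hi => data_of_iff h (H := h.G1) (θ := θ) (d := dd i) (d' := dd (ρ i)) (W := W i) (W' := W (ρ i))
    (hWm i hi) (hWm _ (hρ i hi)) (hWadd i hi) (hWadd _ (hρ i hi)) (hWinj i hi) (hWinj _ (hρ i hi)) (hρiff i hi)
  choose! ψ hψ1 hψ2 hψ3 hψ4 using hd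
  have hJ : ∀ i < D.rank, J (ρ i) = J i := by
    apply hcls ρ hρ
    · intro i hi
      symm
      refine Nat.card_congr (Equiv.ofBijective (fun t => ⟨ψ i t.1, (hψ1 i hi t.1 t.2).1⟩) ⟨?_, ?_⟩)
      · intro a b e
        exact Subtype.ext (hψ3 i hi a.1 b.1 a.2 b.2 (congrArg Subtype.val e))
      · intro t'
        obtain ⟨t, ht, e⟩ := hψ4 i hi t'.1 t'.2
        exact ⟨⟨t, ht⟩, Subtype.ext e⟩
    · intro i hi j hj
      constructor
      · intro hc s' t' hs' ht'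
        obtain ⟨s, hs, rfl⟩ := hψ4 i hi s' hs'
        obtain ⟨t, ht, rfl⟩ := hψ4 j hj t' ht'
        have h1 : Commute (⟨W i s, hWm i hi s hs⟩ : ↥h.G1) ⟨W j t, hWm j hj t ht⟩ := Subtype.ext (hc s t hs ht)
        have h2 := h1.map θ
        have h3 := congrArg Subtype.val h2
        simp only [Subgroup.coe_mul] at h3
        rw [(hψ1 i hi s hs).2, (hψ1 j hj t ht).2] at h3
        exact h3
      · intro hc s t hs ht
        have h3 := hc (ψ i s) (ψ j t) (hψ1 i hi s hs).1 (hψ1 j hj t ht).1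
        rw [← (hψ1 i hi s hs).2 (hWm i hi s hs), ← (hψ1 j hj t ht).2 (hWm j hj t ht)] at h3
        have h4 : θ (⟨W i s, hWm i hi s hs⟩ * ⟨W j t, hWm j hj t ht⟩) = θ (⟨W j t, hWm j hj t ht⟩ * ⟨W i s, hWm i hi s hs⟩) := by
          rw [map_mul, map_mul]
          exact Subtype.ext h3
        exact congrArg Subtype.val (θ.injective h4)
  refine ⟨ψ, fun i hi => ?_⟩
  have e1 := hJ i hi
  have e2 := hWJ i hi _ (hρ i hi) e1
  have e3 := dd_of_J h i (ρ i) hi (hρ i hi) e1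
  have h1 := hψ1 i hi
  rw [e2, e3] at h1
  have h4 := hψ4 i hi
  rw [e3] at h4
  exact ⟨h1, hψ2 i hi, hψ3 i hi, h4⟩

theorem exists_data {i₀ : ℕ} (hA : AutHyp h i₀) {θ : ↥h.G1 ≃* ↥h.G1} (hθ : Nrm h θ) :
    ∃ ψ ψ' : ℕ → F → F, ∀ i < D.rank,
      ((∀ t, f^[dd i] t = t → f^[dd i] (ψ i t) = ψ i t ∧ ∀ hm : wP h i t ∈ h.G1, (θ ⟨wP h i t, hm⟩).1 = wP h i (ψ i t)) ∧
      (∀ a b, f^[dd i] a = a → f^[dd i] b = b → ψ i (a + b) = ψ i a + ψ i b) ∧
      (∀ a b, f^[dd i] a = a → f^[dd i] b = b → ψ i a = ψ i b → a = b) ∧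
      (∀ t', f^[dd i] t' = t' → ∃ t, f^[dd i] t = t ∧ ψ i t = t')) ∧
      ((∀ t, f^[dd i] t = t → f^[dd i] (ψ' i t) = ψ' i t ∧ ∀ hm : wN h i t ∈ h.G1, (θ ⟨wN h i t, hm⟩).1 = wN h i (ψ' i t)) ∧
      (∀ a b, f^[dd i] a = a → f^[dd i] b = b → ψ' i (a + b) = ψ' i a + ψ' i b) ∧
      (∀ a b, f^[dd i] a = a → f^[dd i] b = b → ψ' i a = ψ' i b → a = b) ∧
      (∀ t', f^[dd i] t' = t' → ∃ t, f^[dd i] t = t ∧ ψ' i t = t')) := by
  obtain ⟨ψ, hψ⟩ := fam_data h (W := wP h) (θ := θ) (fun i hi t ht => wP_mem h hi ht) (fun i hi a b => wP_add h hi a b)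
    (fun i hi a b e => wP_inj h hi e) (fun i hi j hj e => by
      funext t
      unfold wP
      rw [hA.hAJ i hi j hj e, dd_of_J h i j hi hj e]) hA.hclsP (fun i hi => pos_map h hA.hJJ hθ hi)
  obtain ⟨ψ', hψ'⟩ := fam_data h (W := wN h) (θ := θ) (fun i hi t ht => wN_mem h hi ht) (fun i hi a b => wN_add h hi a b)
    (fun i hi a b e => wN_inj h hi e) (fun i hi j hj e => by
      funext t
      unfold wN
      rw [hA.hAJ i hi j hj e, dd_of_J h i j hi hj e]) hA.hclsN (fun i hi => neg_map h hA.hJJ hθ hi)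
  exact ⟨ψ, ψ', fun i hi => ⟨hψ i hi, hψ' i hi⟩⟩

end Cfsg.Agent.Lib.Chev.TwAut
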