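import Cfsg.Agent.Lib.Chev.TwAutH
import Cfsg.Agent.Lib.Chev.TwAutD4
import Cfsg.Agent.Lib.Chev.TwE6P

/-!
# The outer automorphism group of ²E₆(q)
-/

set_option autoImplicit false
set_option linter.unusedSectionVars false
set_option linter.unusedVariables false
set_option linter.unnecessarySimpa false

namespace Cfsg.Agent.Lib.Chev.TwE6

open Cfsg.Agent.Lib.Chev Cfsg.Lie Equiv
open Cfsg.Agent.Lib.Chev.TwAut (AutHyp ClassPres)

variable {K : Type*} [Field K] [Fintype K] {f : K ≃+* K}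

theorem hAJ : ∀ i < chevE6.rank, ∀ j < chevE6.rank, J j = J i → A j = A i := by decide +kernel

theorem hAJ' : ∀ i < chevE6.rank, ∀ j < chevE6.rank, A j = A i → J j = J i := by decide +kernel

theorem hddv : ∀ i < chevE6.rank, dd i = 1 ∨ dd i = 2 := by decide

/-- Commuting of classes. -/
abbrev Cp (f : K ≃+* K) (W : ℕ → K → GL chevE6.Idx K) (i j : ℕ) : Prop :=
  ∀ s t, f^[dd i] s = s → f^[dd j] t = t → Commute (W i s) (W j t)

theorem classPres_of {q : ℕ} (hq : IsPrimePow q) (hK : Fintype.card K = q ^ 2) (hf : ∀ t, f t = t ^ q)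
    {W : ℕ → K → GL chevE6.Idx K} (hW4 : W 4 = W 2) (hW5 : W 5 = W 0)
    (hnc : ¬ Cp f W 2 3) (hc01 : Cp f W 0 1) (hc03 : Cp f W 0 3) (hc21 : Cp f W 2 1) : ClassPres (sc f) W := by
  have hc51 : Cp f W 5 1 := by
    intro s t hs ht
    rw [hW5]
    exact hc01 s t hs ht
  have hc53 : Cp f W 5 3 := by
    intro s t hs ht
    rw [hW5]
    exact hc03 s t hs ht
  have hc41 : Cp f W 4 1 := by
    intro s t hs ht
    rw [hW4]
    exact hc21 s t hs ht
  have hnc43 : ¬ Cp f W 4 3 := by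
    intro hc
    apply hnc
    intro s t hs ht
    have := hc s t hs ht
    rwa [hW4] at this
  intro ρ hρ hcard hiff
  have hdd : ∀ i < chevE6.rank, dd (ρ i) = dd i := by
    intro i hi
    have h1 := hcard i hi
    rw [hfix_all f hq hK hf _ (hρ i hi), hfix_all f hq hK hf i hi] at h1
    exact Nat.pow_right_injective hq.two_le h1
  have S1 : ∀ x < 6, dd x = 2 → ∀ y < 6, dd y = 1 → ¬ Cp f W x y → A x = 2 ∧ y = 3 := by
    intro x hx hdx y hy hdy hnc'
    interval_cases x <;> first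
      | (exfalso; revert hdx; decide)
      | (interval_cases y <;> first
          | (exfalso; revert hdy; decide)
          | exact absurd (by assumption) hnc'
          | exact ⟨rfl, rfl⟩)
  have S2 : ∀ x < 6, dd x = 2 → Cp f W x 3 → A x = 0 := by
    intro x hx hdx hc
    interval_cases x <;> first
      | (exfalso; revert hdx; decide)
      | rfl
      | exact absurd hc (by assumption)
  have S3 : ∀ y < 6, dd y = 1 → ∀ x < 6, A x = 2 → Cp f W y x → A y = 1 := by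
    intro y hy hdy x hx hAx hc
    interval_cases y
    · exact absurd hdy (by decide)
    · rfl
    · exact absurd hdy (by decide)
    · exfalso
      have hx' : x = 2 ∨ x = 4 := by
        interval_cases x <;> first
          | (exfalso; revert hAx; decide)
          | simp
      rcases hx' with rfl | rfl
      · exact hnc (fun s t hs ht => (hc t s ht hs).symm)
      · exact hnc43 (fun s t hs ht => (hc t s ht hs).symm)
    · exact absurd hdy (by decide)
    · exact absurd hdy (by decide)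
  have h2 : (2 : ℕ) < chevE6.rank := by decide
  have h3 : (3 : ℕ) < chevE6.rank := by decide
  have h4 : (4 : ℕ) < chevE6.rank := by decide
  have h5 : (5 : ℕ) < chevE6.rank := by decide
  have h0 : (0 : ℕ) < chevE6.rank := by decide
  have h1 : (1 : ℕ) < chevE6.rank := by decide
  obtain ⟨e2, e3⟩ := S1 (ρ 2) (hρ 2 h2) (hdd 2 h2) (ρ 3) (hρ 3 h3) (hdd 3 h3) (fun hc => hnc ((hiff 2 h2 3 h3).2 hc))
  obtain ⟨e4, -⟩ := S1 (ρ 4) (hρ 4 h4) (hdd 4 h4) (ρ 3) (hρ 3 h3) (hdd 3 h3) (fun hc => hnc43 ((hiff 4 h4 3 h3).2 hc))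
  have e0 : A (ρ 0) = 0 := by
    have := (hiff 0 h0 3 h3).1 hc03
    rw [e3] at this
    exact S2 _ (hρ 0 h0) (hdd 0 h0) this
  have e5 : A (ρ 5) = 0 := by
    have := (hiff 5 h5 3 h3).1 hc53
    rw [e3] at this
    exact S2 _ (hρ 5 h5) (hdd 5 h5) this
  have e1 : A (ρ 1) = 1 := by
    have hc12 : Cp f W 1 2 := fun s t hs ht => (hc21 t s ht hs).symm
    have := (hiff 1 h1 2 h2).1 hc12
    exact S3 _ (hρ 1 h1) (hdd 1 h1) _ (hρ 2 h2) e2 this
  intro i hi
  have hi' : i < 6 := hi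
  interval_cases i
  · exact hAJ' 0 h0 _ (hρ 0 h0) e0
  · exact hAJ' 1 h1 _ (hρ 1 h1) e1
  · exact hAJ' 2 h2 _ (hρ 2 h2) e2
  · rw [e3]
  · exact hAJ' 4 h4 _ (hρ 4 h4) e4
  · exact hAJ' 5 h5 _ (hρ 5 h5) e5

/-- Non-commuting of the classes `{2,4}` and `{3}`. -/
theorem nc_aux {f : K ≃+* K} {r : ℕ} (hr : r < chevE6.nroots) (hr' : TabE6.X.wf 4 r < chevE6.nroots)
    (hne : TabE6.X.wf 2 (TabE6.X.wf 4 r) ≠ r) : ¬ Commute (TwAut.nCl (sc f) 2) (hF.c.xG r (1 : K)) := by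
  intro hc
  have e4 : TwAut.nCl (sc f) 2 = hF.nS 2 * hF.nS 4 := by
    show ([2, 4].map hF.nS).prod = _
    simp
  rw [e4] at hc
  have e5 := hF.nS_conj_xG (F := K) (i := 4) (by decide) hr 1
  have e6 := hF.nS_conj_xG (F := K) (i := 2) (by decide) hr' (((TabE6.X.eta 4 r : ℤ) : K) * 1)
  have e7 : hF.nS 2 * hF.nS 4 * hF.c.xG r (1 : K) * (hF.nS 2 * hF.nS 4)⁻¹ = hF.c.xG r 1 := by
    rw [hc.eq]
    group
  have e8 : hF.nS 2 * hF.nS 4 * hF.c.xG r (1 : K) * (hF.nS 2 * hF.nS 4)⁻¹ =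
      hF.nS 2 * (hF.nS 4 * hF.c.xG r (1 : K) * (hF.nS 4)⁻¹) * (hF.nS 2)⁻¹ := by
    group
  rw [e8, e5, e6] at e7
  have e9 := hF.xG_root_inj (F := K) hr (hF.wf_lt (by decide) hr') one_ne_zero e7.symm
  exact hne e9.symm

theorem wP3 (f : K ≃+* K) : TwAut.wP (sc f) 3 (1 : K) = hF.c.xG (chevE6.simple 3) (1 : K) := by
  rw [TwAut.wP_eq_prod]
  show ((List.range 1).map _).prod = _
  simp
  rfl

theorem wN3 (f : K ≃+* K) : TwAut.wN (sc f) 3 (1 : K) = hF.c.xG (chevE6.neg (chevE6.simple 3)) (1 : K) := by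
  rw [TwAut.wN_eq_prod]
  show ((List.range 1).map _).prod = _
  simp
  rfl

theorem ncP (f : K ≃+* K) : ¬ Cp f (TwAut.wP (sc f)) 2 3 := by
  intro hc
  have hK1 : ∀ k, f^[k] (1 : K) = 1 := TwAut.K_one (sc f)
  have e1 := hc 1 1 (hK1 _) (hK1 _)
  have e2 : Commute (TwAut.wN (sc f) 2 (-(1 : K)⁻¹)) (TwAut.wP (sc f) 3 1) :=
    TwAut.cw_commute hF (by decide +kernel) _ _
  have e3 : Commute (TwAut.nCl (sc f) 2) (TwAut.wP (sc f) 3 1) := by
    rw [← TwAut.nW_one (sc f) (by decide), ← TwAut.wP_wN_wP (sc f) (by decide)]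
    exact (e1.mul_left e2).mul_left e1
  rw [wP3] at e3
  exact nc_aux (by decide +kernel) (by decide +kernel) (by decide +kernel) e3

theorem ncN (f : K ≃+* K) : ¬ Cp f (TwAut.wN (sc f)) 2 3 := by
  intro hc
  have hK1 : ∀ k, f^[k] (1 : K) = 1 := TwAut.K_one (sc f)
  have e1 := hc (-(1 : K)⁻¹) 1 (TwAut.K_neg (sc f) (TwAut.K_inv (sc f) (hK1 _))) (hK1 _)
  have e2 : Commute (TwAut.wP (sc f) 2 (1 : K)) (TwAut.wN (sc f) 3 1) :=
    TwAut.cw_commute hF (by decide +kernel) _ _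
  have e3 : Commute (TwAut.nCl (sc f) 2) (TwAut.wN (sc f) 3 1) := by
    rw [← TwAut.nW_one (sc f) (by decide), ← TwAut.wP_wN_wP (sc f) (by decide)]
    exact (e2.mul_left e1).mul_left e2
  rw [wN3] at e3
  exact nc_aux (by decide +kernel) (by decide +kernel) (by decide +kernel) e3

theorem classPresP {q : ℕ} (hq : IsPrimePow q) (hK : Fintype.card K = q ^ 2) (hf : ∀ t, f t = t ^ q) :
    ClassPres (sc f) (TwAut.wP (sc f)) :=
  classPres_of hq hK hf rfl rfl (ncP f)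
    (fun s t _ _ => TwAut.cw_commute hF (by decide +kernel) _ _)
    (fun s t _ _ => TwAut.cw_commute hF (by decide +kernel) _ _)
    (fun s t _ _ => TwAut.cw_commute hF (by decide +kernel) _ _)

theorem classPresN {q : ℕ} (hq : IsPrimePow q) (hK : Fintype.card K = q ^ 2) (hf : ∀ t, f t = t ^ q) :
    ClassPres (sc f) (TwAut.wN (sc f)) :=
  classPres_of hq hK hf rfl rfl (ncN f)
    (fun s t _ _ => TwAut.cw_commute hF (by decide +kernel) _ _)
    (fun s t _ _ => TwAut.cw_commute hF (by decide +kernel) _ _)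
    (fun s t _ _ => TwAut.cw_commute hF (by decide +kernel) _ _)

/-- The torus parameter with two nontrivial entries. -/
noncomputable def cP (a b : ℕ) (x y : Kˣ) : Fin chevE6.rank → Kˣ := fun j =>
  if (j : ℕ) = a then x else if (j : ℕ) = b then y else 1

theorem hχE (hf2 : ∀ t, f^[2] t = t) : ∀ i < chevE6.rank, ∀ u : Kˣ, f^[dd i] (u : K) = u →
    ∃ c, (sc f).FTh c = c ∧ chiT chevE6 c (chevE6.simple (A i)) = u := by
  have key : ∀ (c : Fin chevE6.rank → Kˣ) j, chiT chevE6 c (chevE6.simple j) = cartanMap chevE6 c j := fun _ _ => rfl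
  have c0 : ∀ u : Kˣ, ∃ c, (sc f).FTh c = c ∧ chiT chevE6 c (chevE6.simple 0) = u := by
    intro u
    refine ⟨cP 2 4 u⁻¹ (unitsF f u)⁻¹, ?_, ?_⟩
    · rw [fixed_iff]
      refine ⟨?_, ?_, ?_, ?_, ?_, ?_⟩ <;> simp [cP, unitsF2 hf2]
    · obtain ⟨a0, a1, a2, a3, a4, a5⟩ := cartan_vals0
      rw [key, cartanMap_expand, a0, a1, a2, a3, a4, a5]
      simp [cP]
  have c2 : ∀ u : Kˣ, ∃ c, (sc f).FTh c = c ∧ chiT chevE6 c (chevE6.simple 2) = u := by
    intro u
    refine ⟨cP 0 5 u⁻¹ (unitsF f u)⁻¹, ?_, ?_⟩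
    · rw [fixed_iff]
      refine ⟨?_, ?_, ?_, ?_, ?_, ?_⟩ <;> simp [cP, unitsF2 hf2]
    · obtain ⟨a0, a1, a2, a3, a4, a5⟩ := cartan_vals2
      rw [key, cartanMap_expand, a0, a1, a2, a3, a4, a5]
      simp [cP]
  have hu1 : ∀ u : Kˣ, f (u : K) = u → unitsF f u = u := fun u hu => Units.ext hu
  intro i hi u hu
  have hi' : i < 6 := hi
  interval_cases i
  · exact c0 u
  · refine ⟨cP 3 3 u⁻¹ 1, ?_, ?_⟩
    · have hu' := hu1 u hu
      rw [fixed_iff]
      refine ⟨?_, ?_, ?_, ?_, ?_, ?_⟩ <;> simp [cP, hu']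
    · obtain ⟨a0, a1, a2, a3, a4, a5⟩ := cartan_vals1
      show cartanMap chevE6 _ 1 = u
      rw [cartanMap_expand, a0, a1, a2, a3, a4, a5]
      simp [cP]
  · exact c2 u
  · refine ⟨cP 1 1 u⁻¹ 1, ?_, ?_⟩
    · have hu' := hu1 u hu
      rw [fixed_iff]
      refine ⟨?_, ?_, ?_, ?_, ?_, ?_⟩ <;> simp [cP, hu']
    · obtain ⟨a0, a1, a2, a3, a4, a5⟩ := cartan_vals3
      show cartanMap chevE6 _ 3 = u
      rw [cartanMap_expand, a0, a1, a2, a3, a4, a5]
      simp [cP]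
  · exact c2 u
  · exact c0 u

theorem autHyp {q : ℕ} (hq : IsPrimePow q) (hK : Fintype.card K = q ^ 2) (hf : ∀ t, f t = t ^ q) (hf2 : ∀ t, f^[2] t = t) :
    AutHyp (sc f) 0 where
  hJJ := hJJ
  hAJ := hAJ
  hmem := hmem f
  hχ := hχE hf2
  hclsP := classPresP hq hK hf
  hclsN := classPresN hq hK hf
  hi₀ := by decide
  hf₀ := hf2
  hconn := by
    intro Q h0 hc hl i hi
    have q2 : Q 2 := hl 2 0 (by decide) (by decide) (by decide +kernel) h0
    have q3 : Q 3 := hl 3 2 (by decide) (by decide) (by decide +kernel) q2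
    have q1 : Q 1 := hl 1 3 (by decide) (by decide) (by decide +kernel) q3
    have hi' : i < 6 := hi
    interval_cases i
    · exact h0
    · exact q1
    · exact q2
    · exact q3
    · exact hc 2 4 (by decide) (by decide) (by decide +kernel) q2
    · exact hc 0 5 (by decide) (by decide) (by decide +kernel) h0
  hcomm := by
    intro σ t
    rw [hf, hf, map_pow]

/-- The order of the outer automorphism group of ²E₆(q). -/
theorem card_out_twisted {p m : ℕ} [Fact p.Prime] (hK : Fintype.card K = p ^ (2 * m)) (hm : 1 ≤ m) :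
    Nat.card (Cfsg.Out ↥(twistedE6 K (p ^ m))) = 2 * Nat.gcd 3 (p ^ m + 1) * m := by
  have hp : p.Prime := Fact.out
  have hq : IsPrimePow (p ^ m) := hp.isPrimePow.pow (by omega)
  have hK' : Fintype.card K = (p ^ m) ^ 2 := by
    rw [hK, ← pow_mul, mul_comm]
  obtain ⟨f, hf, hf2⟩ := exists_frob2 hq hK'
  have hG1 := G1_eq f hf hf2
  obtain ⟨r, hr⟩ : ∃ r, Nat.card (twistedE6 K (p ^ m)) = (p ^ m) ^ 36 * r := by
    rw [card_G1 f hq hK' hf, mul_assoc]
    exact ⟨_, rfl⟩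
  have hcardG : Nat.card (sc f).G1 = (p ^ m) ^ 36 * r := by
    rw [hG1]
    exact hr
  have hcardU : Nat.card ↥(chevE6.posUnipotent K ⊓ (sc f).G1) = (p ^ m) ^ 36 := by
    rw [hG1]
    exact card_U1 hq hK'
  have hpq : p ∣ p ^ m := dvd_pow_self p (by omega)
  have hq1 : 1 ≤ p ^ m := Nat.one_le_pow _ _ hp.pos
  have hnr : ¬ p ∣ r := by
    have h1 := card_twisted hq hK'
    rw [hr] at h1
    have h2 : Nat.gcd 3 (p ^ m + 1) * r = ((p ^ m) ^ 2 - 1) * ((p ^ m) ^ 5 + 1) * ((p ^ m) ^ 6 - 1) * ((p ^ m) ^ 8 - 1) * ((p ^ m) ^ 9 + 1) * ((p ^ m) ^ 12 - 1) := by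
      apply Nat.eq_of_mul_eq_mul_left (pow_pos (lt_of_lt_of_le Nat.one_pos hq1) 36)
      calc (p ^ m) ^ 36 * (Nat.gcd 3 (p ^ m + 1) * r) = Nat.gcd 3 (p ^ m + 1) * ((p ^ m) ^ 36 * r) := by ring
        _ = _ := h1
        _ = _ := by ring
    have hm1 : ∀ n, n ≠ 0 → ¬ p ∣ (p ^ m) ^ n - 1 := fun n hn => TwD4.not_dvd_pow_sub_one hp hpq hq1 hn
    have hm2 : ∀ n, n ≠ 0 → ¬ p ∣ (p ^ m) ^ n + 1 := by
      intro n hn h
      have h3 : p ∣ (p ^ m) ^ n := hpq.trans (dvd_pow_self _ hn)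
      exact hp.one_lt.ne' (Nat.dvd_one.1 ((Nat.dvd_add_right h3).1 h))
    intro hd
    have h3 : p ∣ ((p ^ m) ^ 2 - 1) * ((p ^ m) ^ 5 + 1) * ((p ^ m) ^ 6 - 1) * ((p ^ m) ^ 8 - 1) * ((p ^ m) ^ 9 + 1) * ((p ^ m) ^ 12 - 1) := by
      rw [← h2]
      exact hd.mul_left _
    rcases hp.dvd_mul.1 h3 with h3 | h3
    · rcases hp.dvd_mul.1 h3 with h3 | h3
      · rcases hp.dvd_mul.1 h3 with h3 | h3
        · rcases hp.dvd_mul.1 h3 with h3 | h3
          · rcases hp.dvd_mul.1 h3 with h3 | h3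
            · exact hm1 2 (by norm_num) h3
            · exact hm2 5 (by norm_num) h3
          · exact hm1 6 (by norm_num) h3
        · exact hm1 8 (by norm_num) h3
      · exact hm2 9 (by norm_num) h3
    · exact hm1 12 (by norm_num) h3
  obtain ⟨P, hP⟩ := TwAut.exists_sylow (sc f) (p := p) (N := m * 36) (r := r)
    (q := (p ^ m) ^ 36) (by rw [← pow_mul]) hcardU hcardG hnr
  have h1 := TwAut.card_out (sc f) (autHyp hq hK' hf hf2) P hP (fun c hc => hκ hf2 c hc)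
  rw [← hG1, h1, card_ker hq hK' hf hf2, Cfsg.Agent.Lib.ChevAut.card_ringAut' hK]
  ring

end Cfsg.Agent.Lib.Chev.TwE6
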