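import Cfsg.Agent.Lib.Chev.TwAutE

/-!
# Automorphisms of twisted groups with orthogonal classes: the form of an automorphism on a class
-/

set_option autoImplicit false
set_option linter.unusedSectionVars false
set_option linter.unusedVariables false
set_option linter.unnecessarySimpa false

namespace Cfsg.Agent.Lib.Chev.TwAut

open Cfsg.Lie Matrix Equiv Cfsg.Agent.Lib.Chev
open Cfsg.Agent.Lib.Chev.Full (cellS)

variable {T : Tabs} {X : Extra} {R : RootTab} {D : ChevalleyDatum} {F : Type*} [Field F]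
variable {hF : Full T X R D} {τ : Tw hF F} {f : F ≃+* F} {ρ' π' : ℕ → ℕ} {J : ℕ → List ℕ} {A dd : ℕ → ℕ}
variable (h : SCOK τ f ρ' π' J A dd)

/-- The data of an automorphism on a class. -/
structure CD (h : SCOK τ f ρ' π' J A dd) (θ : ↥h.G1 ≃* ↥h.G1) (i : ℕ) (ψ ψ' : F → F) : Prop where
  fP : ∀ t, f^[dd i] t = t → f^[dd i] (ψ t) = ψ t
  mP : ∀ t, f^[dd i] t = t → ∀ hm : wP h i t ∈ h.G1, (θ ⟨wP h i t, hm⟩).1 = wP h i (ψ t)
  aP : ∀ a b, f^[dd i] a = a → f^[dd i] b = b → ψ (a + b) = ψ a + ψ b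
  iP : ∀ a b, f^[dd i] a = a → f^[dd i] b = b → ψ a = ψ b → a = b
  fN : ∀ t, f^[dd i] t = t → f^[dd i] (ψ' t) = ψ' t
  mN : ∀ t, f^[dd i] t = t → ∀ hm : wN h i t ∈ h.G1, (θ ⟨wN h i t, hm⟩).1 = wN h i (ψ' t)
  aN : ∀ a b, f^[dd i] a = a → f^[dd i] b = b → ψ' (a + b) = ψ' a + ψ' b
  iN : ∀ a b, f^[dd i] a = a → f^[dd i] b = b → ψ' a = ψ' b → a = b

/-- The field part of a parameter map. -/
noncomputable def sg (ψ : F → F) (t : F) : F := ψ t * (ψ 1)⁻¹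

include h

section
variable {θ : ↥h.G1 ≃* ↥h.G1} {i : ℕ} {ψ ψ' : F → F}

theorem K_one (k : ℕ) : f^[k] (1 : F) = 1 := h.f_one k

theorem K_zero (k : ℕ) : f^[k] (0 : F) = 0 := iter_zero h k

theorem K_mul {k : ℕ} {a b : F} (ha : f^[k] a = a) (hb : f^[k] b = b) : f^[k] (a * b) = a * b := by
  rw [iter_mul' h, ha, hb]

theorem K_add {k : ℕ} {a b : F} (ha : f^[k] a = a) (hb : f^[k] b = b) : f^[k] (a + b) = a + b := by
  rw [iter_add' h, ha, hb]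

theorem K_inv {k : ℕ} {a : F} (ha : f^[k] a = a) : f^[k] (a⁻¹) = a⁻¹ := by
  rw [h.iter_f_inv' k a, ha]

theorem K_neg {k : ℕ} {a : F} (ha : f^[k] a = a) : f^[k] (-a) = -a := by
  rw [iter_neg' h, ha]

theorem psi_zero (hd : CD h θ i ψ ψ') : ψ 0 = 0 := by
  have h1 := hd.aP 0 0 (K_zero h _) (K_zero h _)
  rw [add_zero] at h1
  exact left_eq_add.1 h1

theorem psi'_zero (hd : CD h θ i ψ ψ') : ψ' 0 = 0 := by
  have h1 := hd.aN 0 0 (K_zero h _) (K_zero h _)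
  rw [add_zero] at h1
  exact left_eq_add.1 h1

theorem psi_ne (hd : CD h θ i ψ ψ') {t : F} (ht : f^[dd i] t = t) (ht0 : t ≠ 0) : ψ t ≠ 0 := by
  intro e
  exact ht0 (hd.iP t 0 ht (K_zero h _) (by rw [e, psi_zero h hd]))

theorem psi'_ne (hd : CD h θ i ψ ψ') {t : F} (ht : f^[dd i] t = t) (ht0 : t ≠ 0) : ψ' t ≠ 0 := by
  intro e
  exact ht0 (hd.iN t 0 ht (K_zero h _) (by rw [e, psi'_zero h hd]))

theorem psi'_neg (hd : CD h θ i ψ ψ') {t : F} (ht : f^[dd i] t = t) : ψ' (-t) = - ψ' t := by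
  have h1 := hd.aN (-t) t (K_neg h ht) ht
  rw [neg_add_cancel, psi'_zero h hd] at h1
  exact (neg_eq_of_add_eq_zero_left h1.symm).symm

variable [Fintype F]

theorem nrm_map_diag (hJJ : ∀ i < D.rank, ∀ j < D.rank, j ∈ J i → J j = J i) (hθ : Nrm h θ) {x : ↥h.G1}
    (hx : x.1 ∈ D.diagonalSubgroup F) : (θ x).1 ∈ D.diagonalSubgroup F := by
  rw [mem_diag_iff h hJJ] at hx ⊢
  refine ⟨fun u hu => ?_, fun u hu => ?_⟩
  · have e : (θ x)⁻¹ * u * θ x = θ (x⁻¹ * θ.symm u * x) := by simp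
    rw [e, hθ.u]
    apply hx.1
    rw [← hθ.u]
    simpa using hu
  · have e : (θ x)⁻¹ * u * θ x = θ (x⁻¹ * θ.symm u * x) := by simp
    rw [e, hθ.v]
    apply hx.2
    rw [← hθ.v]
    simpa using hu

omit [Fintype F] in
theorem exists_tor (x : ↥h.G1) (hx : x.1 ∈ D.diagonalSubgroup F) :
    ∃ c, x.1 = tor R D c ∧ τ.s (tor R D c) = tor R D c := by
  obtain ⟨c, hc⟩ := hF.mem_diagonal_iff.1 hx
  exact ⟨c, hc, by rw [← hc]; exact (h.twG).G1_fix _ x.2⟩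

/-- The action of `H₁` on the parameters. -/
theorem mul_data {i₀ : ℕ} (hA : AutHyp h i₀) (hθ : Nrm h θ) (hi : i < D.rank) (hd : CD h θ i ψ ψ') {u : F}
    (hu : f^[dd i] u = u) (hu0 : u ≠ 0) :
    ∃ (x : ↥h.G1) (c₁ : Fin D.rank → Fˣ), x.1 ∈ D.diagonalSubgroup F ∧ (θ x).1 = tor R D c₁ ∧
      τ.s (tor R D c₁) = tor R D c₁ ∧ ∀ t, f^[dd i] t = t →
        ψ (u * t) = ((chiT D c₁ (D.simple (A i)) : Fˣ) : F) * ψ t ∧
        ψ' (u⁻¹ * t) = (((chiT D c₁ (D.simple (A i)) : Fˣ) : F))⁻¹ * ψ' t := by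
  obtain ⟨c, hc, hcχ⟩ := hA.hχ i hi (Units.mk0 u hu0) hu
  have hmem := hA.hmem c hc
  obtain ⟨x, hx⟩ : ∃ x : ↥h.G1, x.1 = tor R D c := ⟨⟨tor R D c, hmem⟩, rfl⟩
  have hxd : x.1 ∈ D.diagonalSubgroup F := by
    rw [hx]
    exact hF.tor_mem_diagonal c
  have hcs : τ.s (tor R D c) = tor R D c := by
    rw [← hx]
    exact (h.twG).G1_fix _ x.2
  obtain ⟨c₁, hc₁, hs₁⟩ := exists_tor h (θ x) (nrm_map_diag h hA.hJJ hθ hxd)
  refine ⟨x, c₁, hxd, hc₁, hs₁, fun t ht => ⟨?_, ?_⟩⟩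
  · have e1 := tor_conj_wP h c hcs hi t
    rw [hcχ] at e1
    simp only [Units.val_mk0] at e1
    have hm1 := wP_mem h hi ht
    have hut : f^[dd i] (u * t) = u * t := K_mul h hu ht
    have hm2 := wP_mem h hi hut
    have e2 : (⟨wP h i (u * t), hm2⟩ : ↥h.G1) = x * ⟨wP h i t, hm1⟩ * x⁻¹ := by
      apply Subtype.ext
      simp only [Subgroup.coe_mul, Subgroup.coe_inv, hx]
      exact e1.symm
    have e3 := hd.mP _ hut hm2
    rw [e2, map_mul, map_mul, map_inv] at e3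
    simp only [Subgroup.coe_mul, Subgroup.coe_inv, hc₁, hd.mP t ht hm1] at e3
    rw [tor_conj_wP h c₁ hs₁ hi] at e3
    exact (wP_inj h hi e3).symm
  · have e1 := tor_conj_wN h c hcs hi t
    rw [hcχ] at e1
    simp only [Units.val_mk0] at e1
    have hm1 := wN_mem h hi ht
    have hut : f^[dd i] (u⁻¹ * t) = u⁻¹ * t := K_mul h (K_inv h hu) ht
    have hm2 := wN_mem h hi hut
    have e2 : (⟨wN h i (u⁻¹ * t), hm2⟩ : ↥h.G1) = x * ⟨wN h i t, hm1⟩ * x⁻¹ := by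
      apply Subtype.ext
      simp only [Subgroup.coe_mul, Subgroup.coe_inv, hx]
      exact e1.symm
    have e3 := hd.mN _ hut hm2
    rw [e2, map_mul, map_mul, map_inv] at e3
    simp only [Subgroup.coe_mul, Subgroup.coe_inv, hc₁, hd.mN t ht hm1] at e3
    rw [tor_conj_wN h c₁ hs₁ hi] at e3
    exact (wN_inj h hi e3).symm

theorem chi_eq_sg {i₀ : ℕ} (hi : i < D.rank) (hd : CD h θ i ψ ψ') {χ u : F}
    (e : ψ (u * 1) = χ * ψ 1) : χ = sg ψ u := by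
  have h0 := psi_ne h hd (K_one h _) one_ne_zero
  rw [mul_one] at e
  unfold sg
  rw [e]
  field_simp

theorem psi_mul {i₀ : ℕ} (hA : AutHyp h i₀) (hθ : Nrm h θ) (hi : i < D.rank) (hd : CD h θ i ψ ψ') {u t : F}
    (hu : f^[dd i] u = u) (ht : f^[dd i] t = t) : ψ (u * t) = sg ψ u * ψ t := by
  by_cases hu0 : u = 0
  · subst hu0
    simp [sg, psi_zero h hd]
  obtain ⟨x, c₁, -, -, -, hm⟩ := mul_data h hA hθ hi hd hu hu0
  have e1 := chi_eq_sg h (i₀ := i₀) hi hd (hm 1 (K_one h _)).1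
  rw [← e1]
  exact (hm t ht).1

theorem sg_mul {i₀ : ℕ} (hA : AutHyp h i₀) (hθ : Nrm h θ) (hi : i < D.rank) (hd : CD h θ i ψ ψ') {u t : F}
    (hu : f^[dd i] u = u) (ht : f^[dd i] t = t) : sg ψ (u * t) = sg ψ u * sg ψ t := by
  unfold sg
  rw [psi_mul h hA hθ hi hd hu ht]
  unfold sg
  ring

theorem sg_one (hd : CD h θ i ψ ψ') : sg ψ 1 = 1 := mul_inv_cancel₀ (psi_ne h hd (K_one h _) one_ne_zero)

theorem sg_ne (hd : CD h θ i ψ ψ') {t : F} (ht : f^[dd i] t = t) (ht0 : t ≠ 0) : sg ψ t ≠ 0 :=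
  mul_ne_zero (psi_ne h hd ht ht0) (inv_ne_zero (psi_ne h hd (K_one h _) one_ne_zero))

theorem sg_inv {i₀ : ℕ} (hA : AutHyp h i₀) (hθ : Nrm h θ) (hi : i < D.rank) (hd : CD h θ i ψ ψ') {t : F}
    (ht : f^[dd i] t = t) : sg ψ t⁻¹ = (sg ψ t)⁻¹ := by
  by_cases ht0 : t = 0
  · subst ht0
    simp [sg, psi_zero h hd]
  have e := sg_mul h hA hθ hi hd (K_inv h ht) ht
  rw [inv_mul_cancel₀ ht0, sg_one h hd] at e
  exact eq_inv_of_mul_eq_one_left e.symm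

theorem psi'_eq {i₀ : ℕ} (hA : AutHyp h i₀) (hθ : Nrm h θ) (hi : i < D.rank) (hd : CD h θ i ψ ψ') {t : F}
    (ht : f^[dd i] t = t) : ψ' t = sg ψ t * ψ' 1 := by
  by_cases ht0 : t = 0
  · subst ht0
    simp [sg, psi_zero h hd, psi'_zero h hd]
  obtain ⟨x, c₁, -, -, -, hm⟩ := mul_data h hA hθ hi hd (K_inv h ht) (inv_ne_zero ht0)
  have e1 := chi_eq_sg h (i₀ := i₀) hi hd (hm 1 (K_one h _)).1
  have e2 := (hm 1 (K_one h _)).2
  rw [e1, inv_inv, mul_one, sg_inv h hA hθ hi hd ht, inv_inv] at e2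
  exact e2

theorem sg_add (hd : CD h θ i ψ ψ') {a b : F} (ha : f^[dd i] a = a) (hb : f^[dd i] b = b) :
    sg ψ (a + b) = sg ψ a + sg ψ b := by
  unfold sg
  rw [hd.aP a b ha hb, add_mul]

theorem sg_inj (hd : CD h θ i ψ ψ') {a b : F} (ha : f^[dd i] a = a) (hb : f^[dd i] b = b) (e : sg ψ a = sg ψ b) : a = b := by
  have h0 := psi_ne h hd (K_one h _) one_ne_zero
  apply hd.iP a b ha hb
  unfold sg at e
  exact mul_right_cancel₀ (inv_ne_zero h0) e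

theorem sg_fix (hd : CD h θ i ψ ψ') {a : F} (ha : f^[dd i] a = a) : f^[dd i] (sg ψ a) = sg ψ a :=
  K_mul h (hd.fP a ha) (K_inv h (hd.fP 1 (K_one h _)))

theorem psi_eq (hd : CD h θ i ψ ψ') (t : F) : ψ t = ψ 1 * sg ψ t := by
  have h0 := psi_ne h hd (K_one h _) one_ne_zero
  unfold sg
  field_simp

/-- `θ` of the element of `N` of a class. -/
theorem map_nCl (hi : i < D.rank) (hd : CD h θ i ψ ψ') (hm : nCl h i ∈ h.G1) :
    (θ ⟨nCl h i, hm⟩).1 = wP h i (ψ 1) * wN h i (-(ψ' 1)) * wP h i (ψ 1) := by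
  have h1 := wP_wN_wP h hi (1 : F)
  rw [nW_one h hi] at h1
  have hK1 : f^[dd i] (1 : F) = 1 := K_one h _
  have hK2 : f^[dd i] (-(1 : F)⁻¹) = -(1 : F)⁻¹ := K_neg h (K_inv h hK1)
  have hm1 := wP_mem h hi hK1
  have hm2 := wN_mem h hi hK2
  have e : (⟨nCl h i, hm⟩ : ↥h.G1) = ⟨wP h i 1, hm1⟩ * ⟨wN h i (-(1 : F)⁻¹), hm2⟩ * ⟨wP h i 1, hm1⟩ :=
    Subtype.ext h1.symm
  rw [e, map_mul, map_mul]
  simp only [Subgroup.coe_mul]
  rw [hd.mP 1 hK1 hm1, hd.mN _ hK2 hm2, inv_one, psi'_neg h hd hK1]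

/-- The product `c c' = 1`. -/
theorem mul_psi'_one {i₀ : ℕ} (hA : AutHyp h i₀) (hθ : Nrm h θ) (hi : i < D.rank) (hd : CD h θ i ψ ψ') :
    ψ 1 * ψ' 1 = 1 := by
  have hK1 : f^[dd i] (1 : F) = 1 := K_one h _
  have hc0 := psi_ne h hd hK1 one_ne_zero
  have hc'0 := psi'_ne h hd hK1 one_ne_zero
  have hcK := hd.fP 1 hK1
  have hc'K := hd.fN 1 hK1
  have hnc'0 : -(ψ' 1) ≠ 0 := neg_ne_zero.2 hc'0
  have hE : wP h i (ψ 1) * wN h i (-(ψ' 1)) * wP h i (ψ 1) =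
      wP h i (ψ 1 + (-(ψ' 1))⁻¹) * HH h i (-(-(ψ' 1))⁻¹) * nCl h i * wP h i (ψ 1 + (-(ψ' 1))⁻¹) := by
    rw [wN_form h hi hnc'0]
    have e1 := wP_add h hi (ψ 1) (-(ψ' 1))⁻¹
    have e2 : wP h i (ψ 1 + (-(ψ' 1))⁻¹) = wP h i (-(ψ' 1))⁻¹ * wP h i (ψ 1) := by
      rw [add_comm, wP_add h hi]
    calc _ = (wP h i (ψ 1) * wP h i (-(ψ' 1))⁻¹) * HH h i (-(-(ψ' 1))⁻¹) * nCl h i * (wP h i (-(ψ' 1))⁻¹ * wP h i (ψ 1)) := by group
      _ = _ := by rw [← e1, ← e2]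
  have heK : f^[dd i] (ψ 1 + (-(ψ' 1))⁻¹) = ψ 1 + (-(ψ' 1))⁻¹ := K_add h hcK (K_inv h (K_neg h hc'K))
  have hH'd : HH h i (-(-(ψ' 1))⁻¹) ∈ D.diagonalSubgroup F :=
    HH_mem_diag h hi (neg_ne_zero.2 (inv_ne_zero hnc'0))
  have hg := (map_nCl h hi hd (nCl_mem h hi)).trans hE
  obtain ⟨e, hedef⟩ : ∃ e, e = ψ 1 + (-(ψ' 1))⁻¹ := ⟨_, rfl⟩
  rw [← hedef] at hg heK
  have key : e ≠ 0 → ∀ u, f^[dd i] u = u → u ≠ 0 → u = 1 := by
    intro he u hu hu0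
    obtain ⟨x, c₁, hxd, hc₁, hs₁, hm⟩ := mul_data h hA hθ hi hd hu hu0
    have hχ1 := (hm 1 hK1).1
    generalize hχdef : ((chiT D c₁ (D.simple (A i)) : Fˣ) : F) = χ at hχ1
    suffices hχ : χ = 1 by
      rw [hχ, one_mul, mul_one] at hχ1
      exact hd.iP u 1 hu hK1 hχ1
    obtain ⟨g₀, hg₀⟩ : ∃ g₀ : ↥h.G1, g₀.1 = nCl h i := ⟨⟨nCl h i, nCl_mem h hi⟩, rfl⟩
    have hgθ : (θ g₀).1 = wP h i e * HH h i (-(-(ψ' 1))⁻¹) * nCl h i * wP h i e := by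
      have e0 : g₀ = ⟨nCl h i, nCl_mem h hi⟩ := Subtype.ext hg₀
      rw [e0]
      exact hg
    have hd1 : (g₀ * x * g₀⁻¹).1 ∈ D.diagonalSubgroup F := by
      simp only [Subgroup.coe_mul, Subgroup.coe_inv, hg₀]
      exact (Subgroup.mem_normalizer_iff.1 (hF.monomial_le_normalizer (nCl_mem_N h hi)) x.1).1 hxd
    have hd2 := nrm_map_diag h hA.hJJ hθ hd1
    rw [map_mul, map_mul, map_inv] at hd2
    simp only [Subgroup.coe_mul, Subgroup.coe_inv, hgθ, hc₁] at hd2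
    have hyd : tor R D c₁ ∈ D.diagonalSubgroup F := hF.tor_mem_diagonal c₁
    have hNy : nCl h i * tor R D c₁ * (nCl h i)⁻¹ ∈ D.diagonalSubgroup F :=
      (Subgroup.mem_normalizer_iff.1 (hF.monomial_le_normalizer (nCl_mem_N h hi)) _).1 hyd
    have hB : nCl h i * wP h i ((1 - χ) * e) * (nCl h i)⁻¹ ∈ D.borelSubgroup F := by
      have h1 : tor R D c₁ * (wP h i e)⁻¹ * (tor R D c₁)⁻¹ = wP h i (χ * (-e)) := by
        rw [← wP_neg h hi, tor_conj_wP h c₁ hs₁ hi, hχdef]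
      have h2 : wP h i ((1 - χ) * e) = wP h i e * tor R D c₁ * (wP h i e)⁻¹ * (tor R D c₁)⁻¹ := by
        have e3 : (1 - χ) * e = e + χ * (-e) := by ring
        rw [e3, wP_add h hi, ← h1]
        group
      have h3 : nCl h i * wP h i ((1 - χ) * e) * (nCl h i)⁻¹ =
          (wP h i e * HH h i (-(-(ψ' 1))⁻¹))⁻¹ *
            ((wP h i e * HH h i (-(-(ψ' 1))⁻¹) * nCl h i * wP h i e) * tor R D c₁ *
              (wP h i e * HH h i (-(-(ψ' 1))⁻¹) * nCl h i * wP h i e)⁻¹) *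
            (wP h i e * HH h i (-(-(ψ' 1))⁻¹)) * (nCl h i * tor R D c₁ * (nCl h i)⁻¹)⁻¹ := by
        rw [h2]
        group
      rw [h3]
      have hBa := wP_mem_B h hi e
      have hBH := hF.c.diagonal_le_borel hH'd
      refine Subgroup.mul_mem _ (Subgroup.mul_mem _ (Subgroup.mul_mem _ (Subgroup.inv_mem _ (Subgroup.mul_mem _ hBa hBH))
        (hF.c.diagonal_le_borel hd2)) (Subgroup.mul_mem _ hBa hBH)) (Subgroup.inv_mem _ (hF.c.diagonal_le_borel hNy))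
    have hneg := (h.twG).nC_neg i hi i hi ((h.twG).self_mem i hi)
    have hn : (((h.twG).nC i : ↥(D.monomialSubgroup F)) : GL D.Idx F) ∈ h.G1 := (h.twG).nC_mem i hi
    have h5 := conj_neg_of h ((h.twG).nC i) hn hi hneg (t := (1 - χ) * e) (by rw [nC_coe h hi]; exact hB)
    have h6 : (1 - χ) * e = 0 := wP_inj h hi (h5.trans (wP_zero h i).symm)
    have h7 : 1 - χ = 0 := (mul_eq_zero.1 h6).resolve_right he
    exact (sub_eq_zero.1 h7).symm
  have hcc : e = 0 := by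
    by_contra he
    have h1 := key he _ hcK hc0
    have h2 := key he _ hc'K hc'0
    apply he
    rw [hedef, h1, h2]
    simp
  rw [hedef, inv_neg] at hcc
  have h3 : ψ 1 = (ψ' 1)⁻¹ := add_neg_eq_zero.1 hcc
  rw [h3]
  exact inv_mul_cancel₀ hc'0

/-- `θ(nW t) = nW(ψ t)`. -/
theorem map_nW {i₀ : ℕ} (hA : AutHyp h i₀) (hθ : Nrm h θ) (hi : i < D.rank) (hd : CD h θ i ψ ψ') {t : F}
    (ht : f^[dd i] t = t) (ht0 : t ≠ 0) (hm : nW h i t ∈ h.G1) : (θ ⟨nW h i t, hm⟩).1 = nW h i (ψ t) := by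
  have h1 := wP_wN_wP h hi t
  have hK2 : f^[dd i] (-t⁻¹) = -t⁻¹ := K_neg h (K_inv h ht)
  have hm1 := wP_mem h hi ht
  have hm2 := wN_mem h hi hK2
  have e : (⟨nW h i t, hm⟩ : ↥h.G1) = ⟨wP h i t, hm1⟩ * ⟨wN h i (-t⁻¹), hm2⟩ * ⟨wP h i t, hm1⟩ :=
    Subtype.ext h1.symm
  rw [e, map_mul, map_mul]
  simp only [Subgroup.coe_mul]
  rw [hd.mP t ht hm1, hd.mN _ hK2 hm2, psi'_neg h hd (K_inv h ht), psi'_eq h hA hθ hi hd (K_inv h ht),
    sg_inv h hA hθ hi hd ht, ← wP_wN_wP h hi (ψ t)]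
  have h0 := psi_ne h hd (K_one h _) one_ne_zero
  have h0' := psi_ne h hd ht ht0
  have h3 : ψ' 1 = (ψ 1)⁻¹ := eq_inv_of_mul_eq_one_right (mul_psi'_one h hA hθ hi hd)
  have e5 : (sg ψ t)⁻¹ * ψ' 1 = (ψ t)⁻¹ := by
    unfold sg
    rw [h3]
    field_simp
  rw [e5]

/-- `θ(HH t)`. -/
theorem map_HH {i₀ : ℕ} (hA : AutHyp h i₀) (hθ : Nrm h θ) (hi : i < D.rank) (hd : CD h θ i ψ ψ') {t : F}
    (ht : f^[dd i] t = t) (ht0 : t ≠ 0) (hm : HH h i t ∈ h.G1) :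
    (θ ⟨HH h i t, hm⟩).1 = HH h i (ψ t) * (HH h i (ψ 1))⁻¹ := by
  have hmc := nCl_mem h hi
  have hmn : nW h i t ∈ h.G1 := by
    rw [nW_eq h hi]
    exact Subgroup.mul_mem _ hm hmc
  have hmn1 : nW h i 1 ∈ h.G1 := by
    rw [nW_one h hi]
    exact hmc
  have e1 : (⟨nW h i t, hmn⟩ : ↥h.G1) = ⟨HH h i t, hm⟩ * ⟨nCl h i, hmc⟩ := Subtype.ext (nW_eq h hi t)
  have e2 : (⟨nW h i 1, hmn1⟩ : ↥h.G1) = ⟨nCl h i, hmc⟩ := Subtype.ext (nW_one h hi)
  have e3 := map_nW h hA hθ hi hd ht ht0 hmn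
  have e4 := map_nW h hA hθ hi hd (K_one h _) one_ne_zero hmn1
  rw [e2] at e4
  rw [e1, map_mul] at e3
  simp only [Subgroup.coe_mul] at e3
  rw [e4, nW_eq h hi, nW_eq h hi] at e3
  have e5 : (θ ⟨HH h i t, hm⟩).1 * HH h i (ψ 1) = HH h i (ψ t) := mul_right_cancel (by
    rw [mul_assoc]
    exact e3)
  rw [← e5]
  group

/-- Conjugation by a product of `h`-elements of a class. -/
theorem HH_list_conj (hi : i < D.rank) {u : F} (hu0 : u ≠ 0) {r : ℕ} (hr : r < D.nroots) (L : List ℕ) (a : F) :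
    (L.map fun k => hF.c.hG (ρ'^[k] (D.simple (A i))) (f^[k] u)).prod * hF.c.xG r a *
      ((L.map fun k => hF.c.hG (ρ'^[k] (D.simple (A i))) (f^[k] u)).prod)⁻¹ =
    hF.c.xG r ((L.map fun k => (f^[k] u) ^ (D.cartan (π'^[k] (A i)) r)).prod * a) := by
  have hcom : ∀ (a : F) (w : F) (hw : w ≠ 0) (m : ℕ) (hm : m < D.rank),
      hF.c.hG (D.simple m) w * hF.c.xG r a = hF.c.xG r (w ^ (D.cartan m r) * a) * hF.c.hG (D.simple m) w := by
    intro a w hw m hm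
    apply Units.ext
    simp only [Units.val_mul, Checks.coe_hG, Checks.coe_xG]
    exact hF.c.hSimple_mul_x hm hr w hw a
  induction L generalizing a with
  | nil =>
    simp
  | cons k L ih =>
    simp only [List.map_cons, List.prod_cons]
    rw [rk_eq h hi]
    have e : ∀ (g P x : GL D.Idx F), g * P * x * (g * P)⁻¹ = g * (P * x * P⁻¹) * g⁻¹ := by
      intro g P x
      group
    rw [e, ih, hcom _ _ (iter_ne h hu0 k) _ (rk_lt h hi k), mul_inv_cancel_right, mul_assoc]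

/-- Conjugation on the words of a linked class. -/
theorem HH_conj_wP {j : ℕ} (hi : i < D.rank) (hj : j < D.rank)
    (hl : ∀ l < dd i, D.cartan (π'^[l] (A i)) (D.simple (A j)) = if l = 0 then -1 else 0) {u : F}
    (hu : f^[dd i] u = u) (hu0 : u ≠ 0) :
    f^[dd j] u⁻¹ = u⁻¹ ∧ ∀ s, HH h i u * wP h j s * (HH h i u)⁻¹ = wP h j (u⁻¹ * s) := by
  obtain ⟨c, hc⟩ := hF.mem_diagonal_iff.1 (HH_mem_diag h hi hu0)
  have hcs : τ.s (tor R D c) = tor R D c := by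
    rw [← hc]
    exact (h.twG).G1_fix _ (HH_mem h hi hu0 hu)
  have hp := hF.simple_lt (h.A_lt j hj)
  have e1 := HH_list_conj h hi hu0 hp (List.range (dd i)) 1
  have e2 := hF.tor_conj_xG c hp 1
  have hprod : ∀ n, 0 < n → n ≤ dd i → ((List.range n).map fun k => (f^[k] u) ^ (D.cartan (π'^[k] (A i)) (D.simple (A j)))).prod = u⁻¹ := by
    intro n hn
    induction n, hn using Nat.le_induction with
    | base =>
      intro hn
      simp only [zero_add, List.range_one, List.map_cons, List.map_nil, List.prod_cons, List.prod_nil, mul_one]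
      rw [hl 0 (by omega), if_pos rfl]
      simp
    | succ n hn ih =>
      intro hn'
      rw [List.range_succ, List.map_append, List.prod_append, ih (by omega)]
      simp only [List.map_cons, List.map_nil, List.prod_cons, List.prod_nil, mul_one]
      rw [hl n (by omega), if_neg (by omega)]
      simp
  rw [hprod _ (h.dd_pos i hi) le_rfl] at e1
  have e3 : HH h i u = tor R D c := hc
  have e4 : ((chiT D c (D.simple (A j)) : Fˣ) : F) = u⁻¹ := by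
    have e5 : tor R D c * hF.c.xG (D.simple (A j)) 1 * (tor R D c)⁻¹ = hF.c.xG (D.simple (A j)) (u⁻¹ * 1) := by
      rw [← e3]
      exact e1
    rw [e2] at e5
    have e6 := hF.xG_param_inj hp e5
    rwa [mul_one, mul_one] at e6
  have e7 := chi_fixed h c hcs hj
  rw [e4] at e7
  refine ⟨e7, fun s => ?_⟩
  rw [e3, tor_conj_wP h c hcs hj, e4]

theorem link_eq {φ φ' : F → F} {i₀ j : ℕ} (hA : AutHyp h i₀) (hθ : Nrm h θ) (hi : i < D.rank) (hj : j < D.rank)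
    (hd : CD h θ i ψ ψ') (hd' : CD h θ j φ φ')
    (hl : ∀ l < dd i, D.cartan (π'^[l] (A i)) (D.simple (A j)) = if l = 0 then -1 else 0) {u : F}
    (hu : f^[dd i] u = u) (hu0 : u ≠ 0) : sg φ u = sg ψ u := by
  obtain ⟨hinv, hconj⟩ := HH_conj_wP h hi hj hl hu hu0
  have huj : f^[dd j] u = u := by
    have := K_inv h hinv
    rwa [inv_inv] at this
  have hK1 : f^[dd j] (1 : F) = 1 := K_one h _
  have hmH := HH_mem h hi hu0 hu
  have hm1 := wP_mem h hj hK1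
  have hK2 : f^[dd j] (u⁻¹ * 1) = u⁻¹ * 1 := K_mul h hinv hK1
  have hm2 := wP_mem h hj hK2
  have e1 : (⟨wP h j (u⁻¹ * 1), hm2⟩ : ↥h.G1) = ⟨HH h i u, hmH⟩ * ⟨wP h j 1, hm1⟩ * (⟨HH h i u, hmH⟩)⁻¹ :=
    Subtype.ext (hconj 1).symm
  have e2 := hd'.mP _ hK2 hm2
  rw [e1, map_mul, map_mul, map_inv] at e2
  simp only [Subgroup.coe_mul, Subgroup.coe_inv] at e2
  rw [map_HH h hA hθ hi hd hu hu0 hmH, hd'.mP 1 hK1 hm1] at e2
  have hK3 := hd.fP 1 (K_one h _)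
  have h0 := psi_ne h hd (K_one h _) one_ne_zero
  have h0' := psi_ne h hd hu hu0
  have h0'' := psi_ne h hd' hK1 one_ne_zero
  obtain ⟨-, e3⟩ := HH_conj_wP h hi hj hl hK3 h0
  obtain ⟨-, e4⟩ := HH_conj_wP h hi hj hl (hd.fP u hu) h0'
  have e5 : (HH h i (ψ 1))⁻¹ * wP h j (φ 1) * HH h i (ψ 1) = wP h j (ψ 1 * φ 1) := by
    have e6 := e3 (ψ 1 * φ 1)
    rw [inv_mul_cancel_left₀ h0] at e6
    rw [← e6]
    group
  have e7 : HH h i (ψ u) * (HH h i (ψ 1))⁻¹ * wP h j (φ 1) * (HH h i (ψ u) * (HH h i (ψ 1))⁻¹)⁻¹ =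
      wP h j ((ψ u)⁻¹ * (ψ 1 * φ 1)) := by
    rw [← e4, ← e5]
    group
  rw [e7] at e2
  have e8 := wP_inj h hj e2
  have e9 : sg φ u⁻¹ = (sg ψ u)⁻¹ := by
    rw [mul_one] at e8
    unfold sg
    rw [← e8]
    field_simp
  rw [sg_inv h hA hθ hj hd' huj] at e9
  exact inv_injective e9

/-- Two data on the same class agree. -/
theorem same_class {φ φ' : F → F} {j : ℕ} {i₀ : ℕ} (hA : AutHyp h i₀) (hi : i < D.rank) (hj : j < D.rank) (e : J i = J j)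
    (hd : CD h θ i ψ ψ') (hd' : CD h θ j φ φ') {t : F} (ht : f^[dd i] t = t) : ψ t = φ t ∧ ψ' t = φ' t := by
  have hA' := hA.hAJ j hj i hi e
  have hdd := dd_of_J h j i hj hi e
  have ht' : f^[dd j] t = t := by rwa [← hdd]
  have hW : wP h j = wP h i := by
    funext s
    unfold wP
    rw [hA', hdd]
  have hW' : wN h j = wN h i := by
    funext s
    unfold wN
    rw [hA', hdd]
  constructor
  · have hm := wP_mem h hi ht
    have e1 := hd.mP t ht hm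
    have e2 := hd'.mP t ht' (by rw [hW]; exact hm)
    have e3 : (⟨wP h j t, by rw [hW]; exact hm⟩ : ↥h.G1) = ⟨wP h i t, hm⟩ := Subtype.ext (congrFun hW t)
    rw [e3, e1, hW] at e2
    exact wP_inj h hi e2
  · have hm := wN_mem h hi ht
    have e1 := hd.mN t ht hm
    have e2 := hd'.mN t ht' (by rw [hW']; exact hm)
    have e3 : (⟨wN h j t, by rw [hW']; exact hm⟩ : ↥h.G1) = ⟨wN h i t, hm⟩ := Subtype.ext (congrFun hW' t)
    rw [e3, e1, hW'] at e2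
    exact wN_inj h hi e2

/-- The form of an automorphism preserving `U` and `V`. -/
theorem exists_form {i₀ : ℕ} (hA : AutHyp h i₀) (hθ : Nrm h θ) :
    ∃ (σ : F ≃+* F) (c : ℕ → F), (∀ i < D.rank, c i ≠ 0 ∧ f^[dd i] (c i) = c i) ∧
      (∀ i < D.rank, ∀ j < D.rank, J i = J j → c i = c j) ∧
      ∀ i < D.rank, ∀ t, f^[dd i] t = t →
        (∀ hm : wP h i t ∈ h.G1, (θ ⟨wP h i t, hm⟩).1 = wP h i (c i * σ t)) ∧
        (∀ hm : wN h i t ∈ h.G1, (θ ⟨wN h i t, hm⟩).1 = wN h i ((c i)⁻¹ * σ t)) := by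
  obtain ⟨ψ, ψ', hdata⟩ := exists_data h hA hθ
  have hd : ∀ i < D.rank, CD h θ i (ψ i) (ψ' i) := by
    intro i hi
    obtain ⟨⟨p1, p2, p3, -⟩, ⟨n1, n2, n3, -⟩⟩ := hdata i hi
    exact ⟨fun t ht => (p1 t ht).1, fun t ht => (p1 t ht).2, p2, p3, fun t ht => (n1 t ht).1, fun t ht => (n1 t ht).2, n2, n3⟩
  have hi₀ := hA.hi₀
  have hf₀ := hA.hf₀
  let g : F →+* F :=
    { toFun := sg (ψ i₀)
      map_one' := sg_one h (hd i₀ hi₀)
      map_mul' := fun a b => sg_mul h hA hθ hi₀ (hd i₀ hi₀) (hf₀ a) (hf₀ b)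
      map_zero' := by
        unfold sg
        rw [psi_zero h (hd i₀ hi₀), zero_mul]
      map_add' := fun a b => sg_add h (hd i₀ hi₀) (hf₀ a) (hf₀ b) }
  have hg : Function.Bijective g := by
    have h1 : Function.Injective g := fun a b e => sg_inj h (hd i₀ hi₀) (hf₀ a) (hf₀ b) e
    exact ⟨h1, Finite.surjective_of_injective h1⟩
  let σ : F ≃+* F := RingEquiv.ofBijective g hg
  have hσ : ∀ t, σ t = sg (ψ i₀) t := fun t => rfl
  have hQ : ∀ i < D.rank, ∀ t, f^[dd i] t = t → sg (ψ i) t = σ t := by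
    refine hA.hconn (fun i => ∀ t, f^[dd i] t = t → sg (ψ i) t = σ t) (fun t _ => (hσ t).symm) ?_ ?_
    · intro i j hi hj e hQi t ht
      have hdd := dd_of_J h j i hj hi e
      have ht' : f^[dd i] t = t := by rwa [hdd]
      rw [← hQi t ht']
      unfold sg
      rw [(same_class h hA hi hj e (hd i hi) (hd j hj) ht').1, (same_class h hA hi hj e (hd i hi) (hd j hj) (K_one h _)).1]
    · intro i j hi hj hl hQj t ht
      by_cases ht0 : t = 0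
      · subst ht0
        rw [map_zero]
        unfold sg
        rw [psi_zero h (hd i hi), zero_mul]
      have hK : f^[dd j] t = t := by
        have := K_inv h (HH_conj_wP h hi hj hl ht ht0).1
        rwa [inv_inv] at this
      rw [← link_eq h hA hθ hi hj (hd i hi) (hd j hj) hl ht ht0, hQj t hK]
  refine ⟨σ, fun i => ψ i 1, fun i hi => ⟨psi_ne h (hd i hi) (K_one h _) one_ne_zero, (hd i hi).fP 1 (K_one h _)⟩,
    fun i hi j hj e => (same_class h hA hi hj e (hd i hi) (hd j hj) (K_one h _)).1, fun i hi t ht => ⟨fun hm => ?_, fun hm => ?_⟩⟩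
  · rw [(hd i hi).mP t ht hm, ← hQ i hi t ht, ← psi_eq h (hd i hi)]
  · rw [(hd i hi).mN t ht hm, psi'_eq h hA hθ hi (hd i hi) ht, hQ i hi t ht, mul_comm]
    congr 2
    exact eq_inv_of_mul_eq_one_right (mul_psi'_one h hA hθ hi (hd i hi))

end

end Cfsg.Agent.Lib.Chev.TwAut
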