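import Cfsg.Agent.Lib.Chev.TwAutF
import Cfsg.Agent.Lib.Chev.TwH1
import Cfsg.Agent.Lib.ChevAut.Count

/-!
# Automorphisms of twisted groups with orthogonal classes: constructions and the count
-/

set_option autoImplicit false
set_option linter.unusedSectionVars false
set_option linter.unusedVariables false
set_option linter.unnecessarySimpa false

namespace Cfsg.Agent.Lib.Chev.TwAut

open Cfsg.Lie Matrix Equiv Cfsg.Agent.Lib.Chev
open Cfsg.Agent.Lib.Chev.Full (cellS)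
open Cfsg.Agent.Lib.ChevFix (glM glM_val glM_injective)

variable {T : Tabs} {X : Extra} {R : RootTab} {D : ChevalleyDatum} {F : Type*} [Field F]
variable {hF : Full T X R D} {τ : Tw hF F} {f : F ≃+* F} {ρ' π' : ℕ → ℕ} {J : ℕ → List ℕ} {A dd : ℕ → ℕ}
variable (h : SCOK τ f ρ' π' J A dd)

/-- A homomorphism of the general linear group preserving every root subgroup. -/
structure RootHom (hF : Full T X R D) (Φ : GL D.Idx F →* GL D.Idx F) : Prop where
  inj : Function.Injective Φ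
  root : ∀ r < D.nroots, ∀ t, ∃ t', Φ (hF.c.xG r t) = hF.c.xG r t'

namespace RootHom

variable {Φ : GL D.Idx F →* GL D.Idx F} (hΦ : RootHom hF Φ)

include hΦ

theorem map_U {x : GL D.Idx F} (hx : x ∈ D.posUnipotent F) : Φ x ∈ D.posUnipotent F := by
  have hle : D.posUnipotent F ≤ (D.posUnipotent F).comap Φ := by
    conv_lhs => unfold ChevalleyDatum.posUnipotent
    rw [Subgroup.closure_le]
    rintro g ⟨r, t, hr, hg⟩
    obtain ⟨hr1, hr2⟩ := hF.isPos_iff.1 hr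
    rw [hF.c.eq_xG hg]
    obtain ⟨t', ht'⟩ := hΦ.root r hr1 t
    show Φ (hF.c.xG r t) ∈ D.posUnipotent F
    rw [ht']
    exact hF.xG_mem_U hr1 hr2 t'
  exact hle hx

theorem map_V {x : GL D.Idx F} (hx : x ∈ D.negUnipotent F) : Φ x ∈ D.negUnipotent F := by
  have hle : D.negUnipotent F ≤ (D.negUnipotent F).comap Φ := by
    conv_lhs => unfold ChevalleyDatum.negUnipotent
    rw [Subgroup.closure_le]
    rintro g ⟨r, t, hr, hg⟩
    have hr2 := hF.isNeg_iff.1 hr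
    have hr1 : r < D.nroots := hr.1
    rw [hF.c.eq_xG hg]
    obtain ⟨t', ht'⟩ := hΦ.root r hr1 t
    show Φ (hF.c.xG r t) ∈ D.negUnipotent F
    rw [ht']
    exact hF.xG_mem_V hr2 t'
  exact hle hx

/-- A self-injection of a finite subgroup is a bijection. -/
theorem iff_of_map [Finite F] {K : Subgroup (GL D.Idx F)} (hK : ∀ x ∈ K, Φ x ∈ K) (x : GL D.Idx F) :
    Φ x ∈ K ↔ x ∈ K := by
  classical
  haveI := Fintype.ofFinite F
  refine ⟨fun hx => ?_, hK x⟩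
  let m : ↥K → ↥K := fun y => ⟨Φ y.1, hK y.1 y.2⟩
  have hm : Function.Injective m := fun a b e => Subtype.ext (hΦ.inj (congrArg Subtype.val e))
  obtain ⟨y, hy⟩ := Finite.surjective_of_injective hm ⟨Φ x, hx⟩
  have e : Φ y.1 = Φ x := congrArg Subtype.val hy
  rw [← hΦ.inj e]
  exact y.2

end RootHom

/-- The automorphism induced by an injective self-map of the group. -/
noncomputable def mkAut [Fintype F] (h : SCOK τ f ρ' π' J A dd) (Φ : GL D.Idx F →* GL D.Idx F) (hinj : Function.Injective Φ)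
    (hm : ∀ g ∈ h.G1, Φ g ∈ h.G1) : ↥h.G1 ≃* ↥h.G1 :=
  MulEquiv.ofBijective
    (⟨⟨fun g => ⟨Φ g.1, hm g.1 g.2⟩, Subtype.ext (map_one Φ)⟩, fun a b => Subtype.ext (map_mul Φ a.1 b.1)⟩ : ↥h.G1 →* ↥h.G1)
    (by
      have h1 : Function.Injective (fun g : ↥h.G1 => (⟨Φ g.1, hm g.1 g.2⟩ : ↥h.G1)) :=
        fun a b e => Subtype.ext (hinj (congrArg Subtype.val e))
      exact ⟨h1, Finite.surjective_of_injective h1⟩)

theorem mkAut_coe [Fintype F] (Φ : GL D.Idx F →* GL D.Idx F) (hinj : Function.Injective Φ)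
    (hm : ∀ g ∈ h.G1, Φ g ∈ h.G1) (g : ↥h.G1) : (mkAut h Φ hinj hm g).1 = Φ g.1 := rfl

theorem nrm_mkAut [Fintype F] {Φ : GL D.Idx F →* GL D.Idx F} (hΦ : RootHom hF Φ)
    (hm : ∀ g ∈ h.G1, Φ g ∈ h.G1) : Nrm h (mkAut h Φ hΦ.inj hm) :=
  ⟨fun x => hΦ.iff_of_map (fun _ hx => hΦ.map_U hx) x.1, fun x => hΦ.iff_of_map (fun _ hx => hΦ.map_V hx) x.1⟩

/-- Extension of a torus parameter. -/
noncomputable def extU (v : Fin D.rank → Fˣ) : ℕ → Fˣ := fun i => if hi : i < D.rank then v ⟨i, hi⟩ else 1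

theorem extU_lt (v : Fin D.rank → Fˣ) {i : ℕ} (hi : i < D.rank) : extU v i = v ⟨i, hi⟩ := dif_pos hi

/-- The diagonal element of a torus parameter. -/
noncomputable def dv (v : Fin D.rank → Fˣ) : GL D.Idx F := diagG D (chr R D.rank (extU v))

include h

theorem G1_le_of {Φ : GL D.Idx F →* GL D.Idx F}
    (hP : ∀ i < D.rank, ∀ t, f^[dd i] t = t → Φ (wP h i t) ∈ h.G1)
    (hN : ∀ i < D.rank, ∀ t, f^[dd i] t = t → Φ (wN h i t) ∈ h.G1) : ∀ g ∈ h.G1, Φ g ∈ h.G1 := by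
  have hle : h.G1 ≤ h.G1.comap Φ := by
    conv_lhs => unfold SCOK.G1
    rw [Subgroup.closure_le]
    rintro g ⟨i, hi, t, ht, rfl | rfl⟩
    · exact hP i hi t ht
    · exact hN i hi t ht
  exact fun g hg => hle hg

theorem extU_fix {v : Fin D.rank → Fˣ} (hv : h.FTh v = v) {j : ℕ} (hj : j < D.rank) :
    ((extU v (π' j) : Fˣ) : F) = f ((extU v j : Fˣ) : F) := by
  have h1 := h.FTh_apply v ⟨j, hj⟩
  rw [hv] at h1
  have h2 : τ.π ⟨j, hj⟩ = ⟨π' j, h.π_lt j hj⟩ := Fin.ext (h.τπ j hj)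
  rw [h2] at h1
  rw [extU_lt v (h.π_lt j hj), extU_lt v hj, h1]
  rfl

theorem extU_iter {v : Fin D.rank → Fˣ} (hv : h.FTh v = v) {i : ℕ} (hi : i < D.rank) (k : ℕ) :
    ((extU v (π'^[k] (A i)) : Fˣ) : F) = f^[k] ((extU v (A i) : Fˣ) : F) := by
  induction k with
  | zero => rfl
  | succ k ih =>
    rw [Function.iterate_succ_apply', Function.iterate_succ_apply', extU_fix h hv (rk_lt h hi k), ih]

theorem extU_K {v : Fin D.rank → Fˣ} (hv : h.FTh v = v) {i : ℕ} (hi : i < D.rank) :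
    f^[dd i] ((extU v (A i) : Fˣ) : F) = ((extU v (A i) : Fˣ) : F) := by
  rw [← extU_iter h hv hi, h.cyc i hi]

omit h in
theorem conj_prod_map (d : GL D.Idx F) (L : List ℕ) (g : ℕ → GL D.Idx F) :
    d * (L.map g).prod * d⁻¹ = (L.map fun k => d * g k * d⁻¹).prod := by
  induction L with
  | nil => simp
  | cons a L ih =>
    simp only [List.map_cons, List.prod_cons]
    rw [← ih]
    group

theorem dv_conj_P {v : Fin D.rank → Fˣ} (hv : h.FTh v = v) {i : ℕ} (hi : i < D.rank) (t : F) :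
    dv (R := R) v * wP h i t * (dv (R := R) v)⁻¹ = wP h i (((extU v (A i) : Fˣ) : F) * t) := by
  rw [wP_eq_prod, wP_eq_prod, conj_prod_map]
  congr 1
  apply List.map_congr_left
  intro k _
  unfold dv
  rw [Cfsg.Agent.Lib.ChevAut.diagG_conj_xG hF _ (by
    rw [rk_eq h hi]
    exact hF.simple_lt (rk_lt h hi k)), rk_eq h hi, Cfsg.Agent.Lib.ChevAut.chr_simple hF _ (rk_lt h hi k),
    extU_iter h hv hi, iter_mul' h]

theorem dv_conj_N {v : Fin D.rank → Fˣ} (hv : h.FTh v = v) {i : ℕ} (hi : i < D.rank) (t : F) :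
    dv (R := R) v * wN h i t * (dv (R := R) v)⁻¹ = wN h i ((((extU v (A i) : Fˣ) : F))⁻¹ * t) := by
  rw [wN_eq_prod, wN_eq_prod, conj_prod_map]
  congr 1
  apply List.map_congr_left
  intro k _
  unfold dv
  rw [Cfsg.Agent.Lib.ChevAut.diagG_conj_xG hF _ (by
    rw [rkn_eq h hi, rk_eq h hi]
    exact hF.neg_lt (hF.simple_lt (rk_lt h hi k))), rkn_eq h hi, rk_eq h hi,
    Cfsg.Agent.Lib.ChevAut.chr_neg hF _ (hF.simple_lt (rk_lt h hi k)), Cfsg.Agent.Lib.ChevAut.chr_simple hF _ (rk_lt h hi k),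
    Units.val_inv_eq_inv_val, extU_iter h hv hi, iter_mul' h, h.iter_f_inv' k]

theorem iter_comm {σ : F ≃+* F} (hc : ∀ t, σ (f t) = f (σ t)) (k : ℕ) (t : F) : σ (f^[k] t) = f^[k] (σ t) := by
  induction k with
  | zero => rfl
  | succ k ih => rw [Function.iterate_succ_apply', Function.iterate_succ_apply', hc, ih]

theorem glM_wP {σ : F ≃+* F} (hc : ∀ t, σ (f t) = f (σ t)) (i : ℕ) (t : F) :
    glM D (σ : F →+* F) (wP h i t) = wP h i (σ t) := by
  rw [wP_eq_prod, wP_eq_prod, map_list_prod, List.map_map]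
  congr 1
  apply List.map_congr_left
  intro k _
  simp only [Function.comp]
  rw [ChevFix.Fix.glM_xG hF]
  congr 1
  exact iter_comm h hc k t

theorem glM_wN {σ : F ≃+* F} (hc : ∀ t, σ (f t) = f (σ t)) (i : ℕ) (t : F) :
    glM D (σ : F →+* F) (wN h i t) = wN h i (σ t) := by
  rw [wN_eq_prod, wN_eq_prod, map_list_prod, List.map_map]
  congr 1
  apply List.map_congr_left
  intro k _
  simp only [Function.comp]
  rw [ChevFix.Fix.glM_xG hF]
  congr 1
  exact iter_comm h hc k t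

omit h

/-- The homomorphism of a torus parameter and a field automorphism. -/
noncomputable def Phi (R : RootTab) (v : Fin D.rank → Fˣ) (σ : F ≃+* F) : GL D.Idx F →* GL D.Idx F :=
  (MulAut.conj (dv (R := R) v)).toMonoidHom.comp (glM D (σ : F →+* F))

theorem Phi_apply (v : Fin D.rank → Fˣ) (σ : F ≃+* F) (g : GL D.Idx F) :
    Phi R v σ g = dv (R := R) v * glM D (σ : F →+* F) g * (dv (R := R) v)⁻¹ := rfl

theorem rootHom_Phi (hF : Full T X R D) (v : Fin D.rank → Fˣ) (σ : F ≃+* F) : RootHom hF (Phi R v σ) := by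
  constructor
  · intro a b e
    rw [Phi_apply, Phi_apply] at e
    have h1 : glM D (σ : F →+* F) a = glM D (σ : F →+* F) b := by
      simpa using e
    exact glM_injective D (σ : F →+* F) h1
  · intro r hr t
    refine ⟨((chr R D.rank (extU v) r : Fˣ) : F) * σ t, ?_⟩
    rw [Phi_apply, ChevFix.Fix.glM_xG hF]
    exact Cfsg.Agent.Lib.ChevAut.diagG_conj_xG hF _ hr _

include h

theorem Phi_wP {v : Fin D.rank → Fˣ} (hv : h.FTh v = v) {σ : F ≃+* F} (hc : ∀ t, σ (f t) = f (σ t)) {i : ℕ} (hi : i < D.rank) (t : F) :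
    Phi R v σ (wP h i t) = wP h i (((extU v (A i) : Fˣ) : F) * σ t) := by
  rw [Phi_apply, glM_wP h hc, dv_conj_P h hv hi]

theorem Phi_wN {v : Fin D.rank → Fˣ} (hv : h.FTh v = v) {σ : F ≃+* F} (hc : ∀ t, σ (f t) = f (σ t)) {i : ℕ} (hi : i < D.rank) (t : F) :
    Phi R v σ (wN h i t) = wN h i ((((extU v (A i) : Fˣ) : F))⁻¹ * σ t) := by
  rw [Phi_apply, glM_wN h hc, dv_conj_N h hv hi]

theorem K_sigma {σ : F ≃+* F} (hc : ∀ t, σ (f t) = f (σ t)) {k : ℕ} {t : F} (ht : f^[k] t = t) : f^[k] (σ t) = σ t := by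
  rw [← iter_comm h hc, ht]

theorem Phi_mem {v : Fin D.rank → Fˣ} (hv : h.FTh v = v) {σ : F ≃+* F} (hc : ∀ t, σ (f t) = f (σ t)) :
    ∀ g ∈ h.G1, Phi R v σ g ∈ h.G1 := by
  apply G1_le_of h
  · intro i hi t ht
    rw [Phi_wP h hv hc hi]
    exact wP_mem h hi (K_mul h (extU_K h hv hi) (K_sigma h hc ht))
  · intro i hi t ht
    rw [Phi_wN h hv hc hi]
    exact wN_mem h hi (K_mul h (K_inv h (extU_K h hv hi)) (K_sigma h hc ht))

variable [Fintype F]

/-- Two automorphisms agreeing on the generators agree. -/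
theorem aut_ext {θ θ' : ↥h.G1 ≃* ↥h.G1}
    (hP : ∀ i < D.rank, ∀ t, f^[dd i] t = t → ∀ hm : wP h i t ∈ h.G1, (θ ⟨wP h i t, hm⟩).1 = (θ' ⟨wP h i t, hm⟩).1)
    (hN : ∀ i < D.rank, ∀ t, f^[dd i] t = t → ∀ hm : wN h i t ∈ h.G1, (θ ⟨wN h i t, hm⟩).1 = (θ' ⟨wN h i t, hm⟩).1) :
    θ = θ' := by
  refine MulEquiv.ext (fun g => ?_)
  obtain ⟨g, hg⟩ := g
  have hg' : g ∈ Subgroup.closure (scGens (hF := hF) f ρ' A dd) := hg
  induction hg' using Subgroup.closure_induction with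
  | mem x hx =>
    obtain ⟨i, hi, t, ht, rfl | rfl⟩ := hx
    · exact Subtype.ext (hP i hi t ht hg)
    · exact Subtype.ext (hN i hi t ht hg)
  | one =>
    have e : (⟨1, hg⟩ : ↥h.G1) = 1 := rfl
    rw [e, map_one, map_one]
  | mul x y hx hy ihx ihy =>
    have e : (⟨x * y, hg⟩ : ↥h.G1) = ⟨x, hx⟩ * ⟨y, hy⟩ := rfl
    rw [e, map_mul, map_mul, ihx hx, ihy hy]
  | inv x hx ih =>
    have e : (⟨x⁻¹, hg⟩ : ↥h.G1) = (⟨x, hx⟩ : ↥h.G1)⁻¹ := rfl
    rw [e, map_inv, map_inv, ih hx]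

/-- A class-constant family of parameters comes from a fixed torus parameter. -/
theorem exists_v (hJJ : ∀ i < D.rank, ∀ j < D.rank, j ∈ J i → J j = J i)
    (hAJ : ∀ i < D.rank, ∀ j < D.rank, J j = J i → A j = A i) {c : ℕ → F}
    (hc : ∀ i < D.rank, c i ≠ 0 ∧ f^[dd i] (c i) = c i)
    (hcc : ∀ i < D.rank, ∀ j < D.rank, J i = J j → c i = c j) :
    ∃ v : Fin D.rank → Fˣ, h.FTh v = v ∧ ∀ i < D.rank, ((extU v (A i) : Fˣ) : F) = c i := by
  have h1 : ∀ j : Fin D.rank, ∃ k, k < dd j ∧ π'^[k] (A j) = j := by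
    intro j
    have h2 := h.self j j.2
    rw [h.J_eq j j.2] at h2
    obtain ⟨k, hk, e⟩ := List.mem_map.1 h2
    exact ⟨k, List.mem_range.1 hk, e⟩
  choose kk hkk hkk' using h1
  let v : Fin D.rank → Fˣ := fun j => Units.mk0 (f^[kk j] (c j)) (iter_ne h (hc j j.2).1 _)
  have hv : ∀ j : Fin D.rank, ((v j : Fˣ) : F) = f^[kk j] (c j) := fun j => rfl
  have claim : ∀ i (hi : i < D.rank) (k : ℕ) (hk : k < dd i), ((v ⟨π'^[k] (A i), rk_lt h hi k⟩ : Fˣ) : F) = f^[k] (c i) := by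
    intro i hi k hk
    have hj := rk_lt h hi k
    have hm := mem_Jk h hi hk
    have e1 : J (π'^[k] (A i)) = J i := hJJ i hi _ hj hm
    have e2 : A (π'^[k] (A i)) = A i := hAJ i hi _ hj e1
    have e3 : dd (π'^[k] (A i)) = dd i := dd_of_J h i _ hi hj e1
    have e4 : c (π'^[k] (A i)) = c i := hcc _ hj _ hi e1
    rw [hv]
    have h5 := hkk ⟨π'^[k] (A i), hj⟩
    have h6 := hkk' ⟨π'^[k] (A i), hj⟩
    simp only [e2, e3] at h5 h6
    have e5 : kk ⟨π'^[k] (A i), hj⟩ = k := by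
      by_contra hne
      exact Jk_ne h hi h5 hk hne h6
    rw [e5]
    simp only [e4]
  refine ⟨v, ?_, ?_⟩
  · apply (h.FT_eq_iff v).2
    intro j
    apply Units.ext
    rw [unitsF_val, hv j]
    have hj := j.2
    have hπ : τ.π j = ⟨π'^[kk j + 1] (A j), rk_lt h hj _⟩ := by
      apply Fin.ext
      show ((τ.π j : Fin D.rank) : ℕ) = π'^[kk j + 1] (A j)
      rw [h.τπ j j.2, Function.iterate_succ_apply', hkk' j]
    rw [hπ]
    by_cases hlt : kk j + 1 < dd j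
    · rw [claim j hj _ hlt, Function.iterate_succ_apply']
    · have e : kk j + 1 = dd j := by
        have := hkk j
        omega
      have e6 : f^[kk j + 1] (c j) = c j := by
        rw [e]
        exact (hc j hj).2
      rw [Function.iterate_succ_apply'] at e6
      have e3 : (⟨π'^[kk j + 1] (A j), rk_lt h hj (kk j + 1)⟩ : Fin D.rank) = ⟨π'^[0] (A j), rk_lt h hj 0⟩ :=
        Fin.ext (by
          show π'^[kk j + 1] (A j) = A j
          rw [e]
          exact h.cyc j hj)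
      rw [e3, claim j hj 0 (h.dd_pos j hj), e6]
      rfl
  · intro i hi
    rw [extU_lt v (h.A_lt i hi)]
    exact claim i hi 0 (h.dd_pos i hi)

/-- The subgroup of automorphisms preserving `U` and `V`. -/
def NrSub (h : SCOK τ f ρ' π' J A dd) : Subgroup (MulAut ↥h.G1) where
  carrier := {θ | Nrm h θ}
  mul_mem' := by
    intro a b ha hb
    refine ⟨fun x => ?_, fun x => ?_⟩
    · show (a (b x)).1 ∈ _ ↔ _
      rw [ha.u, hb.u]
    · show (a (b x)).1 ∈ _ ↔ _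
      rw [ha.v, hb.v]
  one_mem' := ⟨fun x => Iff.rfl, fun x => Iff.rfl⟩
  inv_mem' := by
    intro a ha
    refine ⟨fun x => ?_, fun x => ?_⟩
    · rw [← ha.u]
      show (a (a.symm x)).1 ∈ _ ↔ _
      simp
    · rw [← ha.v]
      show (a (a.symm x)).1 ∈ _ ↔ _
      simp

/-- The count of the normalising automorphisms. -/
theorem card_NrSub {i₀ : ℕ} (hA : AutHyp h i₀) :
    Nat.card ↥(NrSub h) = Nat.card {v : Fin D.rank → Fˣ // h.FTh v = v} * Nat.card (F ≃+* F) := by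
  classical
  rw [← Nat.card_prod]
  symm
  have hc := hA.hcomm
  refine Nat.card_congr (Equiv.ofBijective
    (fun p : {v : Fin D.rank → Fˣ // h.FTh v = v} × (F ≃+* F) =>
      (⟨mkAut h (Phi R p.1.1 p.2) (rootHom_Phi hF p.1.1 p.2).inj (Phi_mem h p.1.2 (hc p.2)),
        nrm_mkAut h (rootHom_Phi hF p.1.1 p.2) _⟩ : ↥(NrSub h))) ⟨?_, ?_⟩)
  · rintro ⟨⟨v, hv⟩, σ⟩ ⟨⟨v', hv'⟩, σ'⟩ e
    have e1 : mkAut h (Phi R v σ) (rootHom_Phi hF v σ).inj (Phi_mem h hv (hc σ)) =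
        mkAut h (Phi R v' σ') (rootHom_Phi hF v' σ').inj (Phi_mem h hv' (hc σ')) := congrArg Subtype.val e
    have key : ∀ i (hi : i < D.rank) t, f^[dd i] t = t →
        ((extU v (A i) : Fˣ) : F) * σ t = ((extU v' (A i) : Fˣ) : F) * σ' t := by
      intro i hi t ht
      have hm := wP_mem h hi ht
      have e2 := congrArg Subtype.val (DFunLike.congr_fun e1 ⟨wP h i t, hm⟩)
      rw [mkAut_coe, mkAut_coe] at e2
      simp only [Phi_wP h hv (hc σ) hi, Phi_wP h hv' (hc σ') hi] at e2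
      exact wP_inj h hi e2
    have hA1 : ∀ i (hi : i < D.rank), ((extU v (A i) : Fˣ) : F) = ((extU v' (A i) : Fˣ) : F) := by
      intro i hi
      have := key i hi 1 (K_one h _)
      simpa using this
    have hvv : v = v' := by
      funext j
      have h2 := h.self j j.2
      rw [h.J_eq j j.2] at h2
      obtain ⟨k, hk, e3⟩ := List.mem_map.1 h2
      apply Units.ext
      have e4 := extU_iter h hv j.2 k
      have e5 := extU_iter h hv' j.2 k
      rw [e3, extU_lt _ j.2] at e4 e5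
      rw [e4, e5, hA1 j j.2]
    have hσσ : σ = σ' := by
      refine RingEquiv.ext (fun t => ?_)
      have := key i₀ hA.hi₀ t (hA.hf₀ t)
      rw [hA1 i₀ hA.hi₀] at this
      exact mul_left_cancel₀ (Units.ne_zero _) this
    subst hvv
    subst hσσ
    rfl
  · rintro ⟨θ, hθ⟩
    obtain ⟨σ, c, hc1, hc2, hc3⟩ := exists_form h hA hθ
    obtain ⟨v, hv, hvc⟩ := exists_v h hA.hJJ hA.hAJ hc1 hc2
    refine ⟨⟨⟨v, hv⟩, σ⟩, ?_⟩
    apply Subtype.ext
    apply aut_ext h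
    · intro i hi t ht hm
      rw [(hc3 i hi t ht).1 hm]
      show Phi R v σ _ = _
      rw [Phi_wP h hv (hc σ) hi, hvc i hi]
    · intro i hi t ht hm
      rw [(hc3 i hi t ht).2 hm]
      show Phi R v σ _ = _
      rw [Phi_wN h hv (hc σ) hi, hvc i hi]

/-- Conjugation by an element of `H₁` preserves `U` and `V`. -/
theorem nrm_conj (hJJ : ∀ i < D.rank, ∀ j < D.rank, j ∈ J i → J j = J i) {x : ↥h.G1} (hx : x.1 ∈ D.diagonalSubgroup F) :
    Nrm h (MulAut.conj x) := by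
  have hx' : (x⁻¹).1 ∈ D.diagonalSubgroup F := Subgroup.inv_mem _ hx
  have h1 := (mem_diag_iff h hJJ x).1 hx
  have h2 := (mem_diag_iff h hJJ x⁻¹).1 hx'
  refine ⟨fun y => ⟨fun hy => ?_, fun hy => ?_⟩, fun y => ⟨fun hy => ?_, fun hy => ?_⟩⟩
  · have e := h1.1 _ hy
    rw [MulAut.conj_apply] at e
    have e2 : x⁻¹ * (x * y * x⁻¹) * x = y := by group
    rwa [e2] at e
  · have e := h2.1 _ hy
    rw [MulAut.conj_apply]
    rwa [inv_inv] at e
  · have e := h1.2 _ hy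
    rw [MulAut.conj_apply] at e
    have e2 : x⁻¹ * (x * y * x⁻¹) * x = y := by group
    rwa [e2] at e
  · have e := h2.2 _ hy
    rw [MulAut.conj_apply]
    rwa [inv_inv] at e

/-- The inner automorphisms in `NrSub` correspond to `H₁`. -/
theorem card_inf (hJJ : ∀ i < D.rank, ∀ j < D.rank, j ∈ J i → J j = J i) :
    Nat.card ↥(NrSub h ⊓ Cfsg.Inn ↥h.G1) = Nat.card ↥(D.diagonalSubgroup F ⊓ h.G1) := by
  classical
  symm
  refine Nat.card_congr (Equiv.ofBijective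
    (fun x : ↥(D.diagonalSubgroup F ⊓ h.G1) => (⟨MulAut.conj (⟨x.1, x.2.2⟩ : ↥h.G1),
      nrm_conj h hJJ x.2.1, ⟨_, rfl⟩⟩ : ↥(NrSub h ⊓ Cfsg.Inn ↥h.G1))) ⟨?_, ?_⟩)
  · intro a b e
    have e1 : MulAut.conj (⟨a.1, a.2.2⟩ : ↥h.G1) = MulAut.conj (⟨b.1, b.2.2⟩ : ↥h.G1) := congrArg Subtype.val e
    have hz : (b.1)⁻¹ * a.1 ∈ D.diagonalSubgroup F := Subgroup.mul_mem _ (Subgroup.inv_mem _ b.2.1) a.2.1
    obtain ⟨c, hc⟩ := hF.mem_diagonal_iff.1 hz
    have hone : tor R D c = (1 : GL D.Idx F) := by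
      apply h.cent_U
      intro u _ huG
      have e2 := congrArg Subtype.val (DFunLike.congr_fun e1 ⟨u, huG⟩)
      simp only [MulAut.conj_apply, Subgroup.coe_mul, Subgroup.coe_inv] at e2
      rw [← hc]
      have e3 : (b.1)⁻¹ * a.1 * u * ((b.1)⁻¹ * a.1)⁻¹ = (b.1)⁻¹ * (a.1 * u * (a.1)⁻¹) * b.1 := by group
      rw [e3, e2]
      group
    rw [hone] at hc
    apply Subtype.ext
    have := inv_mul_eq_one.1 hc
    exact this.symm
  · rintro ⟨θ, hθ, z, rfl⟩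
    have hz : z.1 ∈ D.diagonalSubgroup F := by
      rw [mem_diag_iff h hJJ]
      refine ⟨fun u hu => ?_, fun u hu => ?_⟩
      · rw [← hθ.u]
        show (z * (z⁻¹ * u * z) * z⁻¹).1 ∈ _
        simpa [mul_assoc] using hu
      · rw [← hθ.v]
        show (z * (z⁻¹ * u * z) * z⁻¹).1 ∈ _
        simpa [mul_assoc] using hu
    exact ⟨⟨z.1, hz, z.2⟩, rfl⟩

/-- The order of the outer automorphism group. -/
theorem card_out {i₀ : ℕ} (hA : AutHyp h i₀) {p : ℕ} [Fact p.Prime]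
    (P : Sylow p ↥h.G1) (hPmem : ∀ u : ↥h.G1, u ∈ (P : Subgroup ↥h.G1) ↔ u.1 ∈ D.posUnipotent F)
    (hκ : ∀ c, tor R D (h.FTh c) = (tor R D c : GL D.Idx F) → ∃ c', h.FTh c' = c' ∧ tor R D c' = (tor R D c : GL D.Idx F)) :
    Nat.card (Cfsg.Out ↥h.G1) = Nat.card (F ≃+* F) *
      Nat.card {c : Fin D.rank → Fˣ // h.FTh c = c ∧ tor R D c = (1 : GL D.Idx F)} := by
  classical
  haveI : Finite ↥h.G1 := inferInstance
  haveI : Finite (MulAut ↥h.G1) := inferInstance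
  have hsup : NrSub h ⊔ Cfsg.Inn ↥h.G1 = ⊤ := by
    rw [eq_top_iff]
    intro θ _
    obtain ⟨z, hz⟩ := exists_nrm h hA.hJJ P hPmem θ
    have h1 : θ = (MulAut.conj z⁻¹) * (θ.trans (MulAut.conj z)) := by
      refine MulEquiv.ext (fun y => ?_)
      simp only [MulAut.mul_apply, MulEquiv.trans_apply, MulAut.conj_apply]
      group
    rw [h1]
    exact Subgroup.mul_mem _ (Subgroup.mem_sup_right ⟨z⁻¹, rfl⟩) (Subgroup.mem_sup_left hz)
  have h1 := Cfsg.Agent.Lib.ChevAut.card_quot_of_sup (Cfsg.Inn ↥h.G1) (NrSub h) hsup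
  rw [card_inf h hA.hJJ, card_NrSub h hA, h.card_fixed_eq hκ hA.hmem] at h1
  have hpos : 0 < Nat.card ↥(D.diagonalSubgroup F ⊓ h.G1) := Nat.card_pos
  apply Nat.eq_of_mul_eq_mul_right hpos
  rw [h1]
  ring

end Cfsg.Agent.Lib.Chev.TwAut
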