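import Cfsg.Agent.Lib.Chev.TwAutG

/-!
# Automorphisms of twisted groups with orthogonal classes: tools for the instances
-/

set_option autoImplicit false
set_option linter.unusedSectionVars false
set_option linter.unusedVariables false
set_option linter.unnecessarySimpa false

namespace Cfsg.Agent.Lib.Chev.TwAut

open Cfsg.Lie Matrix Equiv Cfsg.Agent.Lib.Chev

variable {T : Tabs} {X : Extra} {R : RootTab} {D : ChevalleyDatum} {F : Type*} [Field F]
variable {hF : Full T X R D} {τ : Tw hF F} {f : F ≃+* F} {ρ' π' : ℕ → ℕ} {J : ℕ → List ℕ} {A dd : ℕ → ℕ}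
variable (h : SCOK τ f ρ' π' J A dd)

include h

omit h in
/-- Words with commuting roots commute. -/
theorem cw_commute {ρ' : ℕ → ℕ} {f : F ≃+* F} {r s d e : ℕ} (hF : Full T X R D)
    (hall : ∀ k < d, ∀ l < e, ρ'^[k] r < D.nroots ∧ ρ'^[l] s < D.nroots ∧ ρ'^[l] s ≠ ρ'^[k] r ∧
      ρ'^[l] s ≠ D.neg (ρ'^[k] r) ∧ D.commTerms (ρ'^[k] r) (ρ'^[l] s) = []) (a b : F) :
    Commute (hF.c.wordG (cw ρ' f r d a)) (hF.c.wordG (cw ρ' f s e b)) := by
  have e1 : ∀ (r d : ℕ) (a : F), hF.c.wordG (cw ρ' f r d a) = ((List.range d).map fun k => hF.c.xG (ρ'^[k] r) (f^[k] a)).prod := by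
    intro r d a
    unfold Checks.wordG cw
    rw [List.map_map]
    rfl
  rw [e1, e1]
  apply Commute.list_prod_right
  intro y hy
  obtain ⟨l, hl, rfl⟩ := List.mem_map.1 hy
  apply Commute.list_prod_left
  intro x hx
  obtain ⟨k, hk, rfl⟩ := List.mem_map.1 hx
  obtain ⟨h1, h2, h3, h4, h5⟩ := hall k (List.mem_range.1 hk) l (List.mem_range.1 hl)
  exact Full.xG_commute_of_nil (hF := hF) h1 h2 h3 h4 h5 _ _

variable [Fintype F]

/-- The Sylow subgroup of the twisted group. -/
theorem exists_sylow {p q N r : ℕ} [Fact p.Prime] (hq : q = p ^ N)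
    (hU : Nat.card ↥(D.posUnipotent F ⊓ h.G1) = q) (hG : Nat.card h.G1 = q * r) (hr : ¬ p ∣ r) :
    ∃ P : Sylow p ↥h.G1, ∀ u : ↥h.G1, u ∈ (P : Subgroup ↥h.G1) ↔ u.1 ∈ D.posUnipotent F := by
  classical
  let Q : Subgroup ↥h.G1 := (D.posUnipotent F).subgroupOf h.G1
  have h3 : Nat.card ↥(D.posUnipotent F ⊓ h.G1) = Nat.card Q := by
    refine Nat.card_congr ?_
    exact {
      toFun := fun x => ⟨⟨x.1, x.2.2⟩, Subgroup.mem_subgroupOf.2 x.2.1⟩
      invFun := fun x => ⟨x.1.1, Subgroup.mem_subgroupOf.1 x.2, x.1.2⟩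
      left_inv := fun x => rfl
      right_inv := fun x => rfl }
  have hQc : Nat.card Q = q := by rw [← h3, hU]
  have hp : p.Prime := Fact.out
  have hQ : IsPGroup p Q := IsPGroup.of_card (n := N) (by rw [hQc, hq])
  have hq0 : 0 < q := by
    rw [hq]
    exact pow_pos hp.pos _
  have hidx : Q.index = r := by
    have h4 := Q.card_mul_index
    rw [hQc, hG] at h4
    exact Nat.eq_of_mul_eq_mul_left hq0 h4
  refine ⟨hQ.toSylow (by rwa [hidx]), fun u => ?_⟩
  rw [IsPGroup.toSylow_coe]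
  exact Subgroup.mem_subgroupOf

/-- Surjectivity of the Cartan map on fixed parameters. -/
theorem chi_surj (hker : ∀ c, h.FTh c = c → tor R D c = (1 : GL D.Idx F) → c = 1) (w : Fin D.rank → Fˣ) (hw : h.FTh w = w) :
    ∃ c, h.FTh c = c ∧ ∀ j : Fin D.rank, chiT D c (D.simple j) = w j := by
  classical
  have hfix : ∀ c : Fin D.rank → Fˣ, h.FTh c = c → h.FTh (fun j : Fin D.rank => chiT D c (D.simple j)) = fun j : Fin D.rank => chiT D c (D.simple j) := by
    intro c hc
    refine (h.FT_eq_iff (fun j : Fin D.rank => chiT D c (D.simple j))).2 ?_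
    intro j
    apply Units.ext
    have hs : τ.s (tor R D c) = tor R D c := by
      rw [h.s_tor c]
      exact congrArg _ hc
    have e := chi_step h c hs j.2
    rw [h.ρπ j j.2] at e
    rw [unitsF_val, ← e, h.τπ j j.2]
  let m : {c : Fin D.rank → Fˣ // h.FTh c = c} → {c : Fin D.rank → Fˣ // h.FTh c = c} :=
    fun c => ⟨fun j => chiT D c.1 (D.simple j), hfix c.1 c.2⟩
  have hm : Function.Injective m := by
    rintro ⟨a, ha⟩ ⟨b, hb⟩ e
    have e1 : ∀ j : ℕ, j < D.rank → cartanMap D a j = cartanMap D b j := by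
      intro j hj
      have := congrFun (congrArg Subtype.val e) ⟨j, hj⟩
      exact this
    have hd : h.FTh (a * b⁻¹) = a * b⁻¹ := by
      rw [map_mul, map_inv, ha, hb]
    have ht : tor R D (a * b⁻¹) = (1 : GL D.Idx F) := by
      rw [hF.tor_eq_one_iff]
      intro j hj
      have e2 := congrFun (cartanMap_mul D (a * b⁻¹) b) j
      simp only [inv_mul_cancel_right, Pi.mul_apply] at e2
      rw [e1 j hj] at e2
      exact right_eq_mul.1 e2
    have e3 := hker _ hd ht
    apply Subtype.ext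
    exact mul_inv_eq_one.1 e3
  obtain ⟨⟨c, hc⟩, e⟩ := Finite.surjective_of_injective hm ⟨w, hw⟩
  refine ⟨c, hc, fun j => ?_⟩
  exact congrFun (congrArg Subtype.val e) j

/-- The torus realises every value at a representative when the centre is trivial. -/
theorem hχ_of_ker (hJJ : ∀ i < D.rank, ∀ j < D.rank, j ∈ J i → J j = J i)
    (hAJ : ∀ i < D.rank, ∀ j < D.rank, J j = J i → A j = A i)
    (hker : ∀ c, h.FTh c = c → tor R D c = (1 : GL D.Idx F) → c = 1) :
    ∀ i < D.rank, ∀ u : Fˣ, f^[dd i] (u : F) = u → ∃ c, h.FTh c = c ∧ chiT D c (D.simple (A i)) = u := by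
  classical
  intro i hi u hu
  obtain ⟨v, hv, hvc⟩ := exists_v h hJJ hAJ (c := fun j => if J j = J i then (u : F) else 1) (by
    intro j hj
    by_cases e : J j = J i
    · simp only [if_pos e]
      refine ⟨Units.ne_zero u, ?_⟩
      rw [dd_of_J h i j hi hj e]
      exact hu
    · simp only [if_neg e]
      exact ⟨one_ne_zero, h.f_one _⟩) (by
    intro j hj k hk e
    simp only [e])
  obtain ⟨c, hc, hchi⟩ := chi_surj h hker v hv
  refine ⟨c, hc, ?_⟩
  have h1 := hchi ⟨A i, h.A_lt i hi⟩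
  have h2 := hvc i hi
  rw [extU_lt v (h.A_lt i hi), if_pos rfl] at h2
  rw [show chiT D c (D.simple (A i)) = v ⟨A i, h.A_lt i hi⟩ from h1]
  exact Units.ext h2

end Cfsg.Agent.Lib.Chev.TwAut
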