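import Cfsg.Agent.Lib.Chev.TwF4AutB
import Cfsg.Agent.Lib.Chev.TwAutG

/-!
# Automorphisms of `²F₄`: field automorphisms and rigidity
-/

set_option autoImplicit false
set_option linter.unusedSectionVars false
set_option linter.unusedVariables false
set_option linter.unnecessarySimpa false

namespace Cfsg.Agent.Lib.Chev.TwF4

open Cfsg.Agent.Lib.Chev Cfsg.Lie Equiv
open Cfsg.Agent.Lib.Chev.Full (cellS)
open Cfsg.Agent.Lib.Chev.TwGen
open Cfsg.Agent.Lib.Chev.TwWF4 (gen)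
open Cfsg.Agent.Lib.ChevFix (glM glM_val glM_injective)

variable {K : Type*} [Field K] {e : ℕ}

theorem glM_mem (σ : K ≃+* K) : ∀ g ∈ twistedF4 K e, glM chevF4 (σ : K →+* K) g ∈ twistedF4 K e := by
  have hle : twistedF4 K e ≤ (twistedF4 K e).comap (glM chevF4 (σ : K →+* K)) := by
    apply hF.c.gen_le
    intro w hw
    show glM chevF4 (σ : K →+* K) (hF.c.wordG w) ∈ twistedF4 K e
    rw [ChevFix.Fix.glM_wordG hF]
    apply hF.wordG_mem_genSubgroup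
    rcases hw with ⟨t, rfl | rfl⟩ | ⟨t, u, rfl | rfl⟩
    · exact Or.inl ⟨σ t, Or.inl (by simp [f4PairWord])⟩
    · exact Or.inl ⟨σ t, Or.inr (by simp [f4PairWord])⟩
    · exact Or.inr ⟨σ t, σ u, Or.inl (by simp [b2ClassWord])⟩
    · exact Or.inr ⟨σ t, σ u, Or.inr (by simp [b2ClassWord])⟩
  exact hle

theorem rootHom_glM (σ : K ≃+* K) : TwAut.RootHom hF (glM chevF4 (σ : K →+* K)) :=
  ⟨glM_injective chevF4 (σ : K →+* K), fun r _ t => ⟨σ t, ChevFix.Fix.glM_xG hF (σ : K →+* K) r t⟩⟩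

variable [Fintype K] (d : Dat K e)

namespace Dat

/-- The field automorphisms of the twisted group. -/
noncomputable def gal (σ : K ≃+* K) : ↥(d.twG).G1 ≃* ↥(d.twG).G1 :=
  MulEquiv.ofBijective
    (⟨⟨fun g => ⟨glM chevF4 (σ : K →+* K) g.1, glM_mem σ g.1 g.2⟩, Subtype.ext (map_one (glM chevF4 (σ : K →+* K)))⟩,
      fun a b => Subtype.ext (map_mul (glM chevF4 (σ : K →+* K)) a.1 b.1)⟩ : ↥(d.twG).G1 →* ↥(d.twG).G1)
    (by
      have h1 : Function.Injective (fun g : ↥(d.twG).G1 => (⟨glM chevF4 (σ : K →+* K) g.1, glM_mem σ g.1 g.2⟩ : ↥(d.twG).G1)) :=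
        fun a b e => Subtype.ext (glM_injective chevF4 (σ : K →+* K) (congrArg Subtype.val e))
      exact ⟨h1, Finite.surjective_of_injective h1⟩)

theorem gal_coe (σ : K ≃+* K) (g : ↥(d.twG).G1) : (d.gal σ g).1 = glM chevF4 (σ : K →+* K) g.1 := rfl

theorem nrm_gal (σ : K ≃+* K) : Nrm d.twG (d.gal σ) :=
  ⟨fun x => (rootHom_glM σ).iff_of_map (fun _ hx => (rootHom_glM σ).map_U hx) x.1,
    fun x => (rootHom_glM σ).iff_of_map (fun _ hx => (rootHom_glM σ).map_V hx) x.1⟩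

theorem gal_gp (σ : K ≃+* K) (t : K) : d.gal σ (d.gp t) = d.gp (σ t) := by
  apply Subtype.ext
  rw [gal_coe]
  show glM chevF4 (σ : K →+* K) (hF.c.xG 33 (d.f t) * hF.c.xG 24 t) = hF.c.xG 33 (d.f (σ t)) * hF.c.xG 24 (σ t)
  rw [map_mul, ChevFix.Fix.glM_xG hF, ChevFix.Fix.glM_xG hF]
  show hF.c.xG 33 (σ (d.f t)) * hF.c.xG 24 (σ t) = _
  rw [d.sig_f]

theorem gal_gb (σ : K ≃+* K) (t u : K) : d.gal σ (d.gb t u) = d.gb (σ t) (σ u) := by
  apply Subtype.ext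
  rw [gal_coe]
  show glM chevF4 (σ : K →+* K) (hF.c.xG 27 (d.f t) * (hF.c.xG 25 t * (hF.c.xG 28 (d.f t * t + u) * hF.c.xG 30 (d.g u)))) =
    hF.c.xG 27 (d.f (σ t)) * (hF.c.xG 25 (σ t) * (hF.c.xG 28 (d.f (σ t) * σ t + σ u) * hF.c.xG 30 (d.g (σ u))))
  simp only [map_mul, ChevFix.Fix.glM_xG hF]
  have e1 : (σ : K →+* K) (d.f t) = d.f (σ t) := d.sig_f σ t
  have e2 : (σ : K →+* K) t = σ t := rfl
  have e3 : (σ : K →+* K) (d.f t * t + u) = d.f (σ t) * σ t + σ u := by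
    rw [map_add, map_mul, e1, e2]
    rfl
  have e4 : (σ : K →+* K) (d.g u) = d.g (σ u) := by
    rw [d.g_apply, d.g_apply, map_pow]
    rw [← d.sig_f σ u]
    rfl
  rw [e1, e2, e3, e4]

theorem r25 : wAct TabF4.X [0, 3] 25 < chevF4.nroots ∧ wAct TabF4.X [0, 3] (wAct TabF4.X [0, 3] 25) = 25 ∧
    chevF4.cartan i0 (wAct TabF4.X [0, 3] 25) = chevF4.cartan i0 25 + chevF4.cartan i0 24 ∧
    chevF4.cartan i1 (wAct TabF4.X [0, 3] 25) = chevF4.cartan i1 25 + chevF4.cartan i1 24 ∧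
    chevF4.cartan i2 (wAct TabF4.X [0, 3] 25) = chevF4.cartan i2 25 + chevF4.cartan i2 24 ∧
    chevF4.cartan i3 (wAct TabF4.X [0, 3] 25) = chevF4.cartan i3 25 + chevF4.cartan i3 24 := by
  decide +kernel

theorem chi24 (p : Kˣ × Kˣ) : chiT chevF4 (d.cOf p) 24 = aC p := by
  apply Units.ext
  rw [(d.chi_cOf p).1]
  simp [aC]

theorem chi25 (p : Kˣ × Kˣ) : chiT chevF4 (d.cOf p) 25 = d.bC p := by
  apply Units.ext
  rw [(d.chi_cOf p).2.2.1]
  simp [bC, fU_val]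

/-- The reflection of the first class acts on the characters. -/
theorem conj_chars {p p' : Kˣ × Kˣ} (h : TwGen.sE d.twG (i := 0) (by decide) * d.gt p * (TwGen.sE d.twG (i := 0) (by decide))⁻¹ = d.gt p') :
    d.bC p' = aC p * d.bC p := by
  obtain ⟨u, hact⟩ := hF.rhoN_spec ((d.twG).nC 0)
  have h' : tor RootF4T.R chevF4 (d.cOf p') = ((d.twG).nC 0).1 * tor RootF4T.R chevF4 (d.cOf p) * ((d.twG).nC 0).1⁻¹ :=
    (congrArg Subtype.val h).symm
  obtain ⟨h1, h2, c0, c1, c2, c3⟩ := r25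
  let r : Fin chevF4.nroots := ⟨_, h1⟩
  have e1 : ((hF.rhoN K ((d.twG).nC 0) r : Fin chevF4.nroots) : ℕ) = 25 := by
    rw [d.rho_nC 0 (by decide)]
    exact h2
  have e2 := chi_conj hF hact h' r
  rw [e1] at e2
  rw [← d.chi25, e2, ← d.chi24, ← d.chi25]
  show chiT chevF4 (d.cOf p) (wAct TabF4.X [0, 3] 25) = _
  simp only [chiT_eq, c0, c1, c2, c3, zpow_add]
  simp only [mul_comm, mul_left_comm, mul_assoc]

/-- Elements of `V` in a parabolic. -/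
theorem V_mem_P {i : ℕ} (hi : i < chevF4.rank) {Q : ℕ → Prop} (hQ : ∀ r, Q r → r < chevF4.nroots)
    (hQ' : ∀ r, Q r → LQ chevF4 ((d.twG).cls i) (wAct TabF4.X (gen i) r)) (v : ↥(d.twG).G1)
    (hv : v.1 ∈ Full.rootClosure chevF4 K Q) : v ∈ d.Pa hi := by
  have hy := conj_rootClosure hF (s := ((d.twG).nC i)⁻¹) hQ (Q' := LQ chevF4 ((d.twG).cls i)) (fun r hr hL => by
    rw [map_inv, d.rho_nC_inv hi, d.rho_nC i hi]
    exact hQ' r hL) hv
  have hnG := (d.twG).nC_mem i hi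
  set y := (((d.twG).nC i)⁻¹ : ↥(chevF4.monomialSubgroup K)).1 * v.1 * (((d.twG).nC i)⁻¹ : ↥(chevF4.monomialSubgroup K)).1⁻¹ with hy'
  have hyG : y ∈ (d.twG).G1 := Subgroup.mul_mem _ (Subgroup.mul_mem _ (Subgroup.inv_mem _ hnG) v.2) (Subgroup.inv_mem _ (Subgroup.inv_mem _ hnG))
  have hyB : y ∈ chevF4.borelSubgroup K := hF.c.posUnipotent_le_borel (hF.UL_le_U _ hy)
  have hcell : ((d.twG).nC i).1 ∈ cellS chevF4 K ((d.twG).nC i).1 :=
    ⟨1, Subgroup.one_mem _, 1, Subgroup.one_mem _, by simp⟩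
  have hSP : TwGen.sE d.twG hi ∈ d.Pa hi := (mem_parabolic_iff_cell d.twG d.hA hi _).2 (Or.inr hcell)
  have hyP : (⟨y, hyG⟩ : ↥(d.twG).G1) ∈ d.Pa hi := (mem_parabolic_iff_cell d.twG d.hA hi _).2 (Or.inl hyB)
  have e1 : v = TwGen.sE d.twG hi * ⟨y, hyG⟩ * (TwGen.sE d.twG hi)⁻¹ := by
    apply Subtype.ext
    show v.1 = ((d.twG).nC i).1 * y * ((d.twG).nC i).1⁻¹
    rw [hy']
    simp only [Subgroup.coe_inv]
    group
  rw [e1]
  exact Subgroup.mul_mem _ (Subgroup.mul_mem _ hSP hyP) (Subgroup.inv_mem _ hSP)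

/-- An automorphism fixing the pairs and acting as a field automorphism on the classes is trivial. -/
theorem rigid {ϑ : ↥(d.twG).G1 ≃* ↥(d.twG).G1} (hϑ : Nrm d.twG ϑ) (hp : ∀ t, ϑ (d.gp t) = d.gp t) (σ : K ≃+* K)
    (hb : ∀ t u, ϑ (d.gb t u) = d.gb (σ t) (σ u)) (g : ↥(d.twG).G1) : ϑ g = g := by
  have hi0 : (0 : ℕ) < chevF4.rank := by decide
  have hi1 : (1 : ℕ) < chevF4.rank := by decide
  have hfix0 : ∀ x (hx : x ∈ UL chevF4 K ((d.twG).cls 0)) (hs : d.τ.s x = x), (ϑ ⟨x, (d.twG).UL_fix 0 hi0 x hx hs⟩).1 = x := by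
    intro x hx hs
    obtain ⟨t, ht⟩ := d.gp_of_UL hx hs
    have e1 : (⟨x, (d.twG).UL_fix 0 hi0 x hx hs⟩ : ↥(d.twG).G1) = d.gp t := Subtype.ext ht
    rw [e1, hp, ht]
  obtain ⟨b, hbB, eb⟩ := nrm_nC_form d.twG d.hA hϑ hi0 (d.nrm_par hϑ (Or.inl rfl) hi0) hfix0
  have hrefl : ∀ x : ↥(d.twG).G1, x.1 ∈ chevF4.diagonalSubgroup K → ϑ (TwGen.sE d.twG hi0 * x * (TwGen.sE d.twG hi0)⁻¹) =
      TwGen.sE d.twG hi0 * ϑ x * (TwGen.sE d.twG hi0)⁻¹ := fun x hx => nrm_conj_diag d.twG d.hA hϑ hi0 hbB eb hx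
  have hconjH : ∀ p, ∃ p', TwGen.sE d.twG hi0 * d.gt p * (TwGen.sE d.twG hi0)⁻¹ = d.gt p' := by
    intro p
    apply d.exists_gt
    exact (Subgroup.mem_set_normalizer_iff.1 (hF.monomial_le_normalizer ((d.twG).nC 0).2) _).1 (d.gt_mem_diag p)
  have hvals : ∀ p p', ϑ (d.gt p) = d.gt p' → aC p' = aC p ∧ ((d.bC p' : Kˣ) : K) = σ (d.bC p : Kˣ) := by
    intro p p' h
    constructor
    · have e1 := d.gt_gp p 1
      have e2 := congrArg ϑ e1
      rw [map_mul, map_mul, map_inv, h, hp, hp, d.gt_gp] at e2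
      have e3 := d.gp_inj e2
      rw [mul_one, mul_one] at e3
      exact Units.ext e3
    · have e1 := d.gt_gb p 1 0
      have e2 := congrArg ϑ e1
      rw [map_mul, map_mul, map_inv, h, hb, hb, d.gt_gb] at e2
      have e3 := (d.gb_inj e2).1
      rw [map_one, mul_one, mul_one] at e3
      exact e3
  have hσ1 : ∀ a : K, a ≠ 0 → σ a = a := by
    intro a ha
    obtain ⟨p, hp1, -⟩ := d.exists_p (Units.mk0 a ha) 1
    have hpa : ((aC p : Kˣ) : K) = a := by rw [hp1]; rfl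
    obtain ⟨p₁, h1⟩ := d.exists_gt (nrm_map_diag d.twG d.hA hϑ (d.gt_mem_diag p))
    obtain ⟨q, hq⟩ := hconjH p
    obtain ⟨q₁, hq₁⟩ := hconjH p₁
    have h2 : ϑ (d.gt q) = d.gt q₁ := by
      rw [← hq, hrefl _ (d.gt_mem_diag p), h1, hq₁]
    have v1 := hvals p p₁ h1
    have v2 := hvals q q₁ h2
    have c1 := d.conj_chars hq
    have c2 := d.conj_chars hq₁
    have e3 := v2.2
    rw [c1, c2, v1.1] at e3
    simp only [Units.val_mul, map_mul, v1.2] at e3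
    have hne : σ ((d.bC p : Kˣ) : K) ≠ 0 := by
      rw [Ne, map_eq_zero]
      exact (d.bC p).ne_zero
    have e4 := mul_right_cancel₀ hne e3
    rw [hpa] at e4
    exact e4.symm
  have hσ : ∀ a : K, σ a = a := by
    intro a
    by_cases ha : a = 0
    · rw [ha, map_zero]
    · exact hσ1 a ha
  have hb' : ∀ t u, ϑ (d.gb t u) = d.gb t u := by
    intro t u
    rw [hb, hσ, hσ]
  have hfix1 : ∀ x (hx : x ∈ UL chevF4 K ((d.twG).cls 1)) (hs : d.τ.s x = x), (ϑ ⟨x, (d.twG).UL_fix 1 hi1 x hx hs⟩).1 = x := by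
    intro x hx hs
    obtain ⟨t, u, ht⟩ := d.gb_of_UL hx hs
    have e1 : (⟨x, (d.twG).UL_fix 1 hi1 x hx hs⟩ : ↥(d.twG).G1) = d.gb t u := Subtype.ext ht
    rw [e1, hb', ht]
  let H : Subgroup (GL chevF4.Idx K) := (MonoidHom.eqLocus ϑ.toMonoidHom (MonoidHom.id _)).map (Subgroup.subtype (d.twG).G1)
  have hle : twistedF4 K e ≤ H := by
    apply hF.c.gen_le
    rintro w (⟨t, rfl | rfl⟩ | ⟨t, u, rfl | rfl⟩)
    · have e1 := d.pW_word 33 24 t
      refine ⟨d.gp t, hp t, e1.symm⟩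
    · have e1 := d.pW_word 14 23 t
      have hG : d.pW 14 23 t ∈ (d.twG).G1 := by
        have := hF.wordG_mem_genSubgroup (F := K) (S := f4Words K e) (w := f4PairWord e 14 23 t) (Or.inl ⟨t, Or.inr rfl⟩)
        rwa [d.pW_word] at this
      refine ⟨⟨_, hG⟩, ?_, e1.symm⟩
      refine nrm_fix_V d.twG d.hA hϑ hi0 (d.nrm_par hϑ (Or.inl rfl) hi0) hfix0 _
        (Subgroup.mul_mem _ (hneg _ (by omega) _) (hneg _ (by omega) _)) ?_
      refine d.V_mem_P hi0 (Q := fun r => r ∈ [14, 23]) (fun r hr => ?_) (fun r hr => (LQ0 _).2 (neg_L0 r hr)) _ ?_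
      · simp only [List.mem_cons, List.not_mem_nil, or_false] at hr
        rcases hr with rfl | rfl <;> decide
      · exact Subgroup.mul_mem _ (hF.xG_mem_rootClosure (by simp) _) (hF.xG_mem_rootClosure (by simp) _)
    · have e1 := d.bW_word (a := 27) (b := 25) (c := 28) (E := 30) t u
      refine ⟨d.gb t u, hb' t u, e1.symm⟩
    · have e1 := d.bW_word (a := 20) (b := 22) (c := 19) (E := 17) t u
      have hG : bW d.f d.g 20 22 19 17 t u ∈ (d.twG).G1 := by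
        have := hF.wordG_mem_genSubgroup (F := K) (S := f4Words K e) (w := b2ClassWord e 20 22 19 17 t u) (Or.inr ⟨t, u, Or.inr rfl⟩)
        rwa [d.bW_word] at this
      refine ⟨⟨_, hG⟩, ?_, e1.symm⟩
      refine nrm_fix_V d.twG d.hA hϑ hi1 (d.nrm_par hϑ (Or.inr rfl) hi1) hfix1 _
        (Subgroup.mul_mem _ (hneg _ (by omega) _) (Subgroup.mul_mem _ (hneg _ (by omega) _)
          (Subgroup.mul_mem _ (hneg _ (by omega) _) (hneg _ (by omega) _)))) ?_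
      refine d.V_mem_P hi1 (Q := fun r => r ∈ [17, 19, 20, 22]) (fun r hr => ?_) (fun r hr => (LQ1 _).2 (neg_L1 r hr)) _ ?_
      · simp only [List.mem_cons, List.not_mem_nil, or_false] at hr
        rcases hr with rfl | rfl | rfl | rfl <;> decide
      · exact Subgroup.mul_mem _ (hF.xG_mem_rootClosure (by simp) _) (Subgroup.mul_mem _ (hF.xG_mem_rootClosure (by simp) _)
          (Subgroup.mul_mem _ (hF.xG_mem_rootClosure (by simp) _) (hF.xG_mem_rootClosure (by simp) _)))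
  obtain ⟨g', hg', e1⟩ := hle g.2
  have e2 : g' = g := Subtype.ext e1
  rw [← e2]
  exact hg'

/-- The normal form of a normalised automorphism. -/
theorem nrm_form (hy : ∃ y : Kˣ, d.f y * y ≠ 1) {θ : ↥(d.twG).G1 ≃* ↥(d.twG).G1} (hθ : Nrm d.twG θ) :
    ∃ (p : Kˣ × Kˣ) (σ : K ≃+* K), θ = (d.gal σ).trans (MulAut.conj (d.gt p)) := by
  obtain ⟨c₀, σ₀, h0⟩ := d.nrm_form0 hθ
  obtain ⟨c₁, σ₁, h1⟩ := d.nrm_form1 hy hθ
  obtain ⟨p, hp0, hp1⟩ := d.exists_p c₀ c₁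
  refine ⟨p, σ₀, ?_⟩
  set Θ := (d.gal σ₀).trans (MulAut.conj (d.gt p)) with hΘ
  have hΘn : Nrm d.twG Θ := nrm_trans d.twG (d.nrm_gal σ₀) (nrm_conj d.twG d.hA (d.gt_mem_diag p))
  have hΘa : ∀ g, Θ g = d.gt p * d.gal σ₀ g * (d.gt p)⁻¹ := fun g => rfl
  have h2 := nrm_trans d.twG hθ (nrm_symm d.twG hΘn)
  have hpp : ∀ t, (θ.trans Θ.symm) (d.gp t) = d.gp t := by
    intro t
    rw [MulEquiv.trans_apply, h0, MulEquiv.symm_apply_eq, hΘa, d.gal_gp, d.gt_gp, hp0]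
  have hbb : ∀ t u, (θ.trans Θ.symm) (d.gb t u) = d.gb ((σ₁.trans σ₀.symm) t) ((σ₁.trans σ₀.symm) u) := by
    intro t u
    rw [MulEquiv.trans_apply, h1, MulEquiv.symm_apply_eq, hΘa, d.gal_gb, d.gt_gb, hp1]
    simp
  have h3 := d.rigid h2 hpp _ hbb
  refine MulEquiv.ext (fun g => ?_)
  have h4 := h3 g
  rw [MulEquiv.trans_apply, MulEquiv.symm_apply_eq] at h4
  exact h4

end Dat

end Cfsg.Agent.Lib.Chev.TwF4
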