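import Cfsg.Agent.Lib.Chev.TwF4AutC

/-!
# Automorphisms of `²F₄`: the outer automorphism group
-/

set_option autoImplicit false
set_option linter.unusedSectionVars false
set_option linter.unusedVariables false
set_option linter.unnecessarySimpa false

namespace Cfsg.Agent.Lib.Chev.TwF4

open Cfsg.Agent.Lib.Chev Cfsg.Lie Equiv
open Cfsg.Agent.Lib.Chev.TwGen

variable {K : Type*} [Field K] [Fintype K] {e : ℕ} (d : Dat K e)

namespace Dat

theorem card_out_aux (hy : ∃ y : Kˣ, d.f y * y ≠ 1) (P : Sylow 2 ↥(d.twG).G1)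
    (hPmem : ∀ u : ↥(d.twG).G1, u ∈ (P : Subgroup ↥(d.twG).G1) ↔ u.1 ∈ chevF4.posUnipotent K) :
    Nat.card (Cfsg.Out ↥(d.twG).G1) = Nat.card (K ≃+* K) := by
  classical
  let F : (K ≃+* K) → Cfsg.Out ↥(d.twG).G1 := fun σ => QuotientGroup.mk (d.gal σ)
  have hsurj : Function.Surjective F := by
    intro x
    induction x using QuotientGroup.induction_on with
    | H θ =>
      obtain ⟨z, hz⟩ := exists_nrm d.twG d.hA P hPmem θ
      obtain ⟨p, σ, h⟩ := d.nrm_form hy hz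
      refine ⟨σ, ?_⟩
      show (QuotientGroup.mk (d.gal σ) : Cfsg.Out ↥(d.twG).G1) = QuotientGroup.mk θ
      rw [QuotientGroup.eq]
      refine ⟨(d.gal σ).symm (z⁻¹ * d.gt p), MulEquiv.ext (fun x => ?_)⟩
      show MulAut.conj ((d.gal σ).symm (z⁻¹ * d.gt p)) x = (d.gal σ).symm (θ x)
      rw [MulEquiv.eq_symm_apply, MulAut.conj_apply]
      simp only [map_mul, map_inv, MulEquiv.apply_symm_apply]
      have h1 := DFunLike.congr_fun h x
      have h2 : z * θ x * z⁻¹ = d.gt p * d.gal σ x * (d.gt p)⁻¹ := h1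
      have h3 : θ x = z⁻¹ * (d.gt p * d.gal σ x * (d.gt p)⁻¹) * z := by
        rw [← h2]
        group
      rw [h3]
      group
  have hinj : Function.Injective F := by
    intro σ σ' h
    have h1 : (QuotientGroup.mk (d.gal σ) : Cfsg.Out ↥(d.twG).G1) = QuotientGroup.mk (d.gal σ') := h
    rw [QuotientGroup.eq] at h1
    obtain ⟨z, hz⟩ := h1
    have hz' : MulAut.conj z = (d.gal σ').trans (d.gal σ).symm := hz
    have hn : Nrm d.twG (MulAut.conj z) := by
      rw [hz']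
      exact nrm_trans d.twG (d.nrm_gal σ') (nrm_symm d.twG (d.nrm_gal σ))
    obtain ⟨p, rfl⟩ := d.exists_gt (diag_of_nrm_conj d.twG d.hA hn)
    have key : ∀ t, σ ((aC p : Kˣ) * t) = σ' t := by
      intro t
      have h2 := DFunLike.congr_fun hz' (d.gp t)
      rw [MulAut.conj_apply, d.gt_gp, MulEquiv.trans_apply, MulEquiv.eq_symm_apply, d.gal_gp, d.gal_gp] at h2
      exact d.gp_inj h2
    have ha : ((aC p : Kˣ) : K) = 1 := by
      have h2 := key 1
      rw [mul_one, map_one] at h2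
      exact (map_eq_one_iff σ σ.injective).1 h2
    apply RingEquiv.ext
    intro t
    have h2 := key t
    rwa [ha, one_mul] at h2
  exact (Nat.card_congr (Equiv.ofBijective F ⟨hinj, hsurj⟩)).symm

end Dat

/-- The outer automorphism group of the large Ree groups. -/
theorem card_out_twistedF4 {m : ℕ} (hm : 1 ≤ m) (hK : Fintype.card K = 2 ^ (2 * m + 1)) :
    Nat.card (Cfsg.Out ↥(twistedF4 K (2 ^ m))) = 2 * m + 1 := by
  obtain ⟨d⟩ := exists_dat hK
  have hU := d.card_U1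
  have hG := d.card_G1
  rw [hK] at hU hG
  set Q := 2 ^ (2 * m + 1) with hQ
  have hQe : Even Q := (Nat.even_pow.2 ⟨even_two, by omega⟩)
  have hQ1 : 1 ≤ Q := Nat.one_le_two_pow
  have hodd : Odd ((Q - 1) ^ 2 * ((Q ^ 3 + 1) * (Q ^ 3 + Q ^ 2 + Q + 1) * (Q ^ 6 + 1))) := by
    have o1 : Odd (Q - 1) := Nat.Even.sub_odd hQ1 hQe odd_one
    have e3 : Even (Q ^ 3) := hQe.pow_of_ne_zero (by norm_num)
    have e2 : Even (Q ^ 2) := hQe.pow_of_ne_zero (by norm_num)
    have e6 : Even (Q ^ 6) := hQe.pow_of_ne_zero (by norm_num)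
    have o2 : Odd (Q ^ 3 + 1) := e3.add_odd odd_one
    have o3 : Odd (Q ^ 3 + Q ^ 2 + Q + 1) := ((e3.add e2).add hQe).add_odd odd_one
    have o4 : Odd (Q ^ 6 + 1) := e6.add_odd odd_one
    exact (o1.pow).mul ((o2.mul o3).mul o4)
  haveI : Fact (Nat.Prime 2) := ⟨Nat.prime_two⟩
  obtain ⟨P, hP⟩ := exists_sylow d.twG (p := 2) (q := Q ^ 12) (N := (2 * m + 1) * 12)
    (r := (Q - 1) ^ 2 * ((Q ^ 3 + 1) * (Q ^ 3 + Q ^ 2 + Q + 1) * (Q ^ 6 + 1)))
    (by rw [hQ, pow_mul]) hU (by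
      show Nat.card ↥(twistedF4 K (2 ^ m)) = _
      rw [hG]
      ring) (by
      intro h2
      exact (Nat.not_even_iff_odd.2 hodd) (even_iff_two_dvd.2 h2))
  have h1 := d.card_out_aux (exists_y hm hK d) P hP
  have h2 : Nat.card (K ≃+* K) = 2 * m + 1 := Cfsg.Agent.Lib.ChevAut.card_ringAut' (p := 2) hK
  rw [← h2]
  exact h1

end Cfsg.Agent.Lib.Chev.TwF4
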