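import Cfsg.Agent.Lib.Chev.TwF4AutD
import Cfsg.Agent.Lib.Chev.SchTwo

/-!
# The Schur multiplier of `²F₄`: the eight classes of positive roots
-/

set_option autoImplicit false
set_option linter.unusedSectionVars false
set_option linter.unusedVariables false
set_option linter.unnecessarySimpa false

namespace Cfsg.Agent.Lib.Chev.TwF4

open Cfsg.Agent.Lib.Chev Cfsg.Lie Equiv
open Cfsg.Agent.Lib.Chev.TwGen
open Cfsg.Agent.Lib.Chev.TwWF4 (gen)
open scoped commutatorElement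

/-- The class of a positive root in the octagon. -/
def clid (r : ℕ) : ℕ :=
  if r = 24 ∨ r = 33 then 1 else if r = 26 ∨ r = 34 ∨ r = 36 ∨ r = 42 then 2 else if r = 38 ∨ r = 43 then 3
  else if r = 29 ∨ r = 41 ∨ r = 44 ∨ r = 47 then 4 else if r = 39 ∨ r = 45 then 5
  else if r = 31 ∨ r = 35 ∨ r = 40 ∨ r = 46 then 6 else if r = 32 ∨ r = 37 then 7
  else if r = 25 ∨ r = 27 ∨ r = 28 ∨ r = 30 then 8 else 0

theorem clid_lt {r : ℕ} (h : 0 < clid r) : 24 ≤ r ∧ r < 48 := by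
  unfold clid at h
  split_ifs at h <;> omega

theorem clid_le (r : ℕ) : clid r ≤ 8 := by
  unfold clid
  split_ifs <;> omega

/-- The commutator terms of a pair of roots lie between their classes. -/
def ctOk (r s : ℕ) : Prop := ∀ c ∈ chevF4.commTerms r s,
    (clid r < clid s → clid r < clid c.1 ∧ clid c.1 < clid s) ∧ (clid s < clid r → clid s < clid c.1 ∧ clid c.1 < clid r) ∧
      (clid r = clid s → clid c.1 = clid r)

instance (r s : ℕ) : Decidable (ctOk r s) := by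
  unfold ctOk
  infer_instance

theorem ct_tab0 : ∀ r < 48, ∀ s < 48, (0 < clid r ∧ 0 < clid s ∧ s ≠ r) → ctOk r s := by decide +kernel

theorem ct_tab (r : ℕ) (hr : r < 48) (s : ℕ) (hs : s < 48) (h1 : 0 < clid r) (h2 : 0 < clid s) (h3 : s ≠ r) : ∀ c ∈ chevF4.commTerms r s,
    (clid r < clid s → clid r < clid c.1 ∧ clid c.1 < clid s) ∧ (clid s < clid r → clid s < clid c.1 ∧ clid c.1 < clid r) ∧
      (clid r = clid s → clid c.1 = clid r) := ct_tab0 r hr s hs ⟨h1, h2, h3⟩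

theorem N_eq : RootF4T.R.N = 24 := by decide +kernel
theorem nr_eq : chevF4.nroots = 48 := by decide +kernel

theorem neg_lt {r : ℕ} (h : 24 ≤ r ∧ r < 48) : chevF4.neg r < 24 := by
  obtain ⟨h1, h2⟩ := h
  have : ∀ r < 48, 24 ≤ r → chevF4.neg r < 24 := by decide +kernel
  exact this r h2 h1

/-- The roots in an interval of classes. -/
def Qq (i j r : ℕ) : Prop := 0 < clid r ∧ i ≤ clid r ∧ clid r ≤ j

/-- The subgroup of an interval of classes. -/
noncomputable abbrev Rt (K : Type*) [Field K] (i j : ℕ) : Subgroup (GL chevF4.Idx K) := Full.rootClosure chevF4 K (Qq i j)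

variable {K : Type*} [Field K]

theorem x_norm {i j r : ℕ} (hr : 0 < clid r) (hi : i ≤ clid r + 1) (hj : clid r ≤ j + 1) (t : K) :
    hF.c.xG r t ∈ Subgroup.normalizer (Rt K i j : Set (GL chevF4.Idx K)) := by
  have hr' := clid_lt hr
  refine hF.xG_mem_normalizer (by rw [nr_eq]; exact hr'.2) (Qq i j) (fun s hs => ?_) (fun s hs hsr c hc => ?_) t
  · have hs' := clid_lt hs.1
    refine ⟨by rw [nr_eq]; exact hs'.2, ?_⟩
    have := neg_lt hr'
    omega
  · have hs' := clid_lt hs.1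
    obtain ⟨h1, h2, h3⟩ := ct_tab r hr'.2 s hs'.2 hr hs.1 hsr c hc
    obtain ⟨h4, h5, h6⟩ := hs
    refine ⟨?_, ?_, ?_⟩
    · rcases lt_trichotomy (clid r) (clid s) with h | h | h
      · have := h1 h
        omega
      · have := h3 h
        omega
      · have := h2 h
        omega
    · rcases lt_trichotomy (clid r) (clid s) with h | h | h
      · have := h1 h
        omega
      · have := h3 h
        omega
      · have := h2 h
        omega
    · rcases lt_trichotomy (clid r) (clid s) with h | h | h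
      · have := h1 h
        omega
      · have := h3 h
        omega
      · have := h2 h
        omega

theorem Rt_le_norm {i j i' j' : ℕ} (h : ∀ c, 0 < c → i' ≤ c → c ≤ j' → i ≤ c + 1 ∧ c ≤ j + 1) :
    Rt K i' j' ≤ Subgroup.normalizer (Rt K i j : Set (GL chevF4.Idx K)) := by
  unfold Rt Full.rootClosure
  rw [Subgroup.closure_le]
  rintro g ⟨r, t, hr, hg⟩
  rw [SetLike.mem_coe, hF.c.eq_xG hg]
  obtain ⟨h1, h2⟩ := h _ hr.1 hr.2.1 hr.2.2
  exact x_norm hr.1 h1 h2 t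

theorem Rt_mono {i j i' j' : ℕ} (h1 : i ≤ i') (h2 : j' ≤ j) : Rt K i' j' ≤ Rt K i j := by
  unfold Rt Full.rootClosure
  apply Subgroup.closure_mono
  rintro g ⟨r, t, hr, hg⟩
  exact ⟨r, t, ⟨hr.1, by have := hr.2.1; omega, by have := hr.2.2; omega⟩, hg⟩

theorem Rt_empty {i j : ℕ} (h : j < i) : Rt K i j = ⊥ := by
  unfold Rt Full.rootClosure
  rw [Subgroup.closure_eq_bot_iff]
  rintro g ⟨r, t, hr, hg⟩
  have h1 := hr.2.1
  have h2 := hr.2.2
  omega

theorem Rt_le_U {i j : ℕ} : Rt K i j ≤ chevF4.posUnipotent K := by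
  unfold Rt Full.rootClosure
  rw [Subgroup.closure_le]
  rintro g ⟨r, t, hr, hg⟩
  rw [SetLike.mem_coe, hF.c.eq_xG hg]
  have := clid_lt hr.1
  exact hF.xG_mem_U (by rw [nr_eq]; exact this.2) (by rw [N_eq]; exact this.1) t

/-- Commutators of elements of closures. -/
theorem comm_closure {X : Type*} [Group X] {A B : Set X} {N : Subgroup X}
    (hA : ∀ a ∈ Subgroup.closure A, a ∈ Subgroup.normalizer (N : Set X)) (hB : ∀ b ∈ Subgroup.closure B, b ∈ Subgroup.normalizer (N : Set X))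
    (hg : ∀ a ∈ A, ∀ b ∈ B, ⁅a, b⁆ ∈ N) : ∀ x ∈ Subgroup.closure A, ∀ y ∈ Subgroup.closure B, ⁅x, y⁆ ∈ N := by
  have hc : ∀ (u : X), u ∈ Subgroup.normalizer (N : Set X) → ∀ n, n ∈ N → u * n * u⁻¹ ∈ N :=
    fun u hu n hn => (Subgroup.mem_normalizer_iff.1 hu n).1 hn
  have h1 : ∀ x ∈ Subgroup.closure A, ∀ b ∈ B, ⁅x, b⁆ ∈ N := by
    intro x hx b hb
    induction hx using Subgroup.closure_induction with
    | mem a ha => exact hg a ha b hb
    | one => simp [N.one_mem]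
    | mul x x' hx hx' ih ih' =>
      have e : ⁅x * x', b⁆ = (x * ⁅x', b⁆ * x⁻¹) * ⁅x, b⁆ := by
        simp only [commutatorElement_def]
        group
      rw [e]
      exact N.mul_mem (hc _ (hA _ hx) _ ih') ih
    | inv x hx ih =>
      have e : ⁅x⁻¹, b⁆ = x⁻¹ * ⁅x, b⁆⁻¹ * x⁻¹⁻¹ := by
        simp only [commutatorElement_def]
        group
      rw [e]
      exact hc _ (Subgroup.inv_mem _ (hA _ hx)) _ (N.inv_mem ih)
  intro x hx y hy
  induction hy using Subgroup.closure_induction with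
  | mem b hb => exact h1 x hx b hb
  | one => simp [N.one_mem]
  | mul y y' hy hy' ih ih' =>
    have e : ⁅x, y * y'⁆ = ⁅x, y⁆ * (y * ⁅x, y'⁆ * y⁻¹) := by
      simp only [commutatorElement_def]
      group
    rw [e]
    exact N.mul_mem ih (hc _ (hB _ hy) _ ih')
  | inv y hy ih =>
    have e : ⁅x, y⁻¹⁆ = y⁻¹ * ⁅x, y⁆⁻¹ * y⁻¹⁻¹ := by
      simp only [commutatorElement_def]
      group
    rw [e]
    exact hc _ (Subgroup.inv_mem _ (hB _ hy)) _ (N.inv_mem ih)

/-- The commutators of two classes lie in the interval between them. -/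
theorem Rt_comm {k j : ℕ} (hk : 0 < k) (hkj : k < j) {x y : GL chevF4.Idx K} (hx : x ∈ Rt K k k) (hy : y ∈ Rt K j j) :
    ⁅x, y⁆ ∈ Rt K (k + 1) (j - 1) := by
  have hN1 := Rt_le_norm (K := K) (i := k + 1) (j := j - 1) (i' := k) (j' := k) (fun c _ h1 h2 => by omega)
  have hN2 := Rt_le_norm (K := K) (i := k + 1) (j := j - 1) (i' := j) (j' := j) (fun c _ h1 h2 => by omega)
  refine comm_closure (fun a ha => hN1 ha) (fun b hb => hN2 hb) ?_ x hx y hy
  rintro a ⟨r, t, hr, ha⟩ b ⟨s, u, hs, hb⟩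
  rw [hF.c.eq_xG ha, hF.c.eq_xG hb]
  have hrk : clid r = k := le_antisymm hr.2.2 hr.2.1
  have hsj : clid s = j := le_antisymm hs.2.2 hs.2.1
  have hr' := clid_lt hr.1
  have hs' := clid_lt hs.1
  have hsr : s ≠ r := by
    rintro rfl
    omega
  have hneg : s ≠ chevF4.neg r := by
    have := neg_lt hr'
    omega
  have e1 := hF.xG_conj (by rw [nr_eq]; exact hr'.2) (by rw [nr_eq]; exact hs'.2) hsr hneg t u
  have hW : hF.c.wordG (chevF4.commWord K r s (-t) u) ∈ Rt K (k + 1) (j - 1) := by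
    apply hF.c.wordG_mem
    intro p hp
    simp only [ChevalleyDatum.commWord, List.mem_map] at hp
    obtain ⟨c, hc, rfl⟩ := hp
    obtain ⟨h1, -, -⟩ := ct_tab r hr'.2 s hs'.2 hr.1 hs.1 hsr c hc
    have h2 := h1 (by omega)
    have h5 : Qq (k + 1) (j - 1) c.1 := by
      refine ⟨?_, ?_, ?_⟩ <;> omega
    exact hF.xG_mem_rootClosure h5 _
  rw [commutatorElement_def, e1]
  have e2 : hF.c.xG s u * hF.c.wordG (chevF4.commWord K r s (-t) u) * (hF.c.xG s u)⁻¹ ∈ Rt K (k + 1) (j - 1) :=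
    (Subgroup.mem_normalizer_iff.1 (hN2 (hF.xG_mem_rootClosure hs u)) _).1 hW
  exact e2

/-- Factorisation in a product of closures. -/
theorem factor_left {Q Q₁ Q₂ : ℕ → Prop} (hQ : ∀ r, Q r → Q₁ r ∨ Q₂ r)
    (hn : Full.rootClosure chevF4 K Q₁ ≤ Subgroup.normalizer (Full.rootClosure chevF4 K Q₂ : Set (GL chevF4.Idx K)))
    {x : GL chevF4.Idx K} (hx : x ∈ Full.rootClosure chevF4 K Q) :
    ∃ a ∈ Full.rootClosure chevF4 K Q₁, ∃ b ∈ Full.rootClosure chevF4 K Q₂, x = a * b := by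
  unfold Full.rootClosure at hx
  have hstep : ∀ r t (x : GL chevF4.Idx K), Q r → (∃ a ∈ Full.rootClosure chevF4 K Q₁, ∃ b ∈ Full.rootClosure chevF4 K Q₂, x = a * b) →
      (∃ a ∈ Full.rootClosure chevF4 K Q₁, ∃ b ∈ Full.rootClosure chevF4 K Q₂, hF.c.xG r t * x = a * b) := by
    rintro r t x hr ⟨a, ha, b, hb, rfl⟩
    rcases hQ r hr with h | h
    · exact ⟨_, Subgroup.mul_mem _ (hF.xG_mem_rootClosure h t) ha, b, hb, by group⟩
    · have h1 : a⁻¹ * hF.c.xG r t * a⁻¹⁻¹ ∈ Full.rootClosure chevF4 K Q₂ :=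
        (Subgroup.mem_normalizer_iff.1 (hn (Subgroup.inv_mem _ ha)) _).1 (hF.xG_mem_rootClosure h t)
      exact ⟨a, ha, _, Subgroup.mul_mem _ h1 hb, by group⟩
  induction hx using Subgroup.closure_induction_left with
  | one => exact ⟨1, Subgroup.one_mem _, 1, Subgroup.one_mem _, by simp⟩
  | mul_left g hg y hy ih =>
    obtain ⟨r, t, hr, e⟩ := hg
    rw [hF.c.eq_xG e]
    exact hstep r t y hr ih
  | inv_mul_cancel g hg y hy ih =>
    obtain ⟨r, t, hr, e⟩ := hg
    rw [hF.c.eq_xG e, hF.c.xG_inv]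
    exact hstep r (-t) y hr ih

theorem factor_right {Q Q₁ Q₂ : ℕ → Prop} (hQ : ∀ r, Q r → Q₁ r ∨ Q₂ r)
    (hn : Full.rootClosure chevF4 K Q₂ ≤ Subgroup.normalizer (Full.rootClosure chevF4 K Q₁ : Set (GL chevF4.Idx K)))
    {x : GL chevF4.Idx K} (hx : x ∈ Full.rootClosure chevF4 K Q) :
    ∃ a ∈ Full.rootClosure chevF4 K Q₁, ∃ b ∈ Full.rootClosure chevF4 K Q₂, x = a * b := by
  obtain ⟨a, ha, b, hb, e⟩ := factor_left (fun r hr => (hQ r hr).symm) hn (Subgroup.inv_mem _ hx)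
  refine ⟨b⁻¹, Subgroup.inv_mem _ hb, a⁻¹, Subgroup.inv_mem _ ha, ?_⟩
  rw [← mul_inv_rev, ← e, inv_inv]

end Cfsg.Agent.Lib.Chev.TwF4
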