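import Cfsg.Agent.Lib.Chev.TwF4SchA

/-!
# The Schur multiplier of `²F₄`: the tower of classes inside the twisted group
-/

set_option autoImplicit false
set_option linter.unusedSectionVars false
set_option linter.unusedVariables false
set_option linter.unnecessarySimpa false

namespace Cfsg.Agent.Lib.Chev.TwF4

open Cfsg.Agent.Lib.Chev Cfsg.Lie Equiv
open Cfsg.Agent.Lib.Chev.TwGen
open Cfsg.Agent.Lib.Chev.TwWF4 (gen)
open Cfsg.Agent.Lib.Chev.SchTwo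
open scoped commutatorElement

/-- The words separating the classes. -/
def LL : ℕ → List ℕ
  | 1 => [0, 3]
  | 2 => [1, 2, 1, 2, 0, 3]
  | 3 => [0, 3, 1, 2, 1, 2, 0, 3]
  | 4 => [1, 2, 1, 2, 0, 3, 1, 2, 1, 2, 0, 3]
  | 5 => [0, 3, 1, 2, 1, 2, 0, 3, 1, 2, 1, 2, 0, 3]
  | 6 => [1, 2, 1, 2, 0, 3, 1, 2, 1, 2, 0, 3, 1, 2, 1, 2, 0, 3]
  | 7 => [0, 3, 1, 2, 1, 2, 0, 3, 1, 2, 1, 2, 0, 3, 1, 2, 1, 2, 0, 3]
  | _ => []

theorem LL_lt : ∀ m < 8, ∀ i ∈ LL m, i < chevF4.rank := by decide +kernel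

/-- The separation property. -/
def LLok (m r : ℕ) : Prop := (clid r ≤ m → wAct TabF4.X (LL m) r < 24) ∧ (m < clid r → 24 ≤ wAct TabF4.X (LL m) r)

noncomputable instance (m r : ℕ) : Decidable (LLok m r) := by
  unfold LLok
  infer_instance

theorem LL_tab0 : ∀ m < 8, ∀ r < 48, (1 ≤ m ∧ 0 < clid r) → LLok m r := by decide +kernel

variable {K : Type*} [Field K]

/-- The monomial element of a word. -/
noncomputable def mm (K : Type*) [Field K] (L : List ℕ) : ↥(chevF4.monomialSubgroup K) := (L.map (hF.nNt K)).prod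

theorem rho_mm {L : List ℕ} (hL : ∀ i ∈ L, i < chevF4.rank) (r : Fin chevF4.nroots) :
    ((hF.rhoN K (mm K L) r : Fin chevF4.nroots) : ℕ) = wAct TabF4.X L r := by
  unfold mm
  rw [hF.rhoN_prod_nNt, hF.prod_wPt_apply hL]

theorem conj_le {Q : ℕ → Prop} (hQ : ∀ r, Q r → r < chevF4.nroots) (s : ↥(chevF4.monomialSubgroup K)) {H : Subgroup (GL chevF4.Idx K)}
    (h : ∀ r (hr : r < chevF4.nroots), Q r → ∀ t : K, hF.c.xG ((hF.rhoN K s ⟨r, hr⟩ : Fin chevF4.nroots) : ℕ) t ∈ H)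
    {y : GL chevF4.Idx K} (hy : y ∈ Full.rootClosure chevF4 K Q) : s.1 * y * s.1⁻¹ ∈ H := by
  unfold Full.rootClosure at hy
  induction hy using Subgroup.closure_induction with
  | mem x hx =>
    obtain ⟨r, t, hr, hg⟩ := hx
    rw [hF.c.eq_xG hg]
    obtain ⟨u, hu⟩ := hF.rhoN_spec_apply s ⟨r, hQ r hr⟩
    have h1 := hu t
    simp only at h1
    rw [h1]
    exact h r (hQ r hr) hr _
  | one => simp [Subgroup.one_mem]
  | mul a b _ _ ha hb =>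
    have e : s.1 * (a * b) * s.1⁻¹ = (s.1 * a * s.1⁻¹) * (s.1 * b * s.1⁻¹) := by group
    rw [e]
    exact Subgroup.mul_mem _ ha hb
  | inv a _ ha =>
    have e : s.1 * a⁻¹ * s.1⁻¹ = (s.1 * a * s.1⁻¹)⁻¹ := by group
    rw [e]
    exact Subgroup.inv_mem _ ha

theorem Qq_lt {i j r : ℕ} (h : Qq i j r) : r < chevF4.nroots := by
  have := clid_lt h.1
  rw [nr_eq]
  exact this.2

/-- Two intervals of classes intersect trivially. -/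
theorem Rt_inter {i m j : ℕ} (hm : 1 ≤ m) {x : GL chevF4.Idx K} (h1 : x ∈ Rt K i m) (h2 : x ∈ Rt K (m + 1) j) : x = 1 := by
  by_cases hm8 : m < 8
  · have hL := LL_lt m hm8
    have hT : ∀ r, 0 < clid r → LLok m r := fun r hr => LL_tab0 m hm8 r (clid_lt hr).2 ⟨hm, hr⟩
    have h3 : (mm K (LL m)).1 * x * (mm K (LL m)).1⁻¹ ∈ chevF4.negUnipotent K := by
      refine conj_le (Q := Qq i m) (fun r hr => Qq_lt hr) _ (fun r hr hq t => ?_) h1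
      refine hF.xG_mem_V ?_ t
      rw [rho_mm hL, N_eq]
      exact (hT r hq.1).1 hq.2.2
    have h4 : (mm K (LL m)).1 * x * (mm K (LL m)).1⁻¹ ∈ chevF4.posUnipotent K := by
      refine conj_le (Q := Qq (m + 1) j) (fun r hr => Qq_lt hr) _ (fun r hr hq t => ?_) h2
      refine hF.xG_mem_U (Fin.is_lt _) ?_ t
      rw [rho_mm hL, N_eq]
      exact (hT r hq.1).2 hq.2.1
    have h5 : (mm K (LL m)).1 * x * (mm K (LL m)).1⁻¹ ∈ chevF4.borelSubgroup K ⊓ chevF4.negUnipotent K :=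
      ⟨hF.c.posUnipotent_le_borel h4, h3⟩
    rw [hF.B_inf_V] at h5
    have h6 := Subgroup.mem_bot.1 h5
    have e : x = (mm K (LL m)).1⁻¹ * ((mm K (LL m)).1 * x * (mm K (LL m)).1⁻¹) * (mm K (LL m)).1 := by group
    rw [e, h6]
    simp
  · have : Rt K (m + 1) j = ⊥ := by
      unfold Rt Full.rootClosure
      rw [Subgroup.closure_eq_bot_iff]
      rintro g ⟨r, t, hr, hg⟩
      have h3 := hr.2.1
      have h4 := clid_le r
      omega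
    rw [this] at h2
    exact Subgroup.mem_bot.1 h2

variable {e : ℕ} [Fintype K] (d : Dat K e)

theorem Rt_le_group (d : Dat K e) {i j : ℕ} : Rt K i j ≤ chevF4.group K :=
  d.τ.rootClosure_le_group (fun r hr => Qq_lt hr)

/-- The classes are stable under the Frobenius. -/
theorem clid_S : ∀ r < 48, clid (TwTabF4.S.r r) = clid r := by decide +kernel

namespace Dat

theorem s_Rt {i j : ℕ} {x : GL chevF4.Idx K} (hx : x ∈ Rt K i j) : d.τ.s x ∈ Rt K i j := by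
  have hle := Rt_le_group d (i := i) (j := j)
  have hx' := hx
  unfold Rt Full.rootClosure at hx
  induction hx using Subgroup.closure_induction with
  | mem x hx =>
    obtain ⟨r, t, hr, hg⟩ := hx
    rw [hF.c.eq_xG hg, d.s_x (Qq_lt hr)]
    have h1 := clid_S r (by have := clid_lt hr.1; exact this.2)
    exact hF.xG_mem_rootClosure (Q := Qq i j) ⟨by rw [h1]; exact hr.1, by rw [h1]; exact hr.2.1, by rw [h1]; exact hr.2.2⟩ _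
  | one => rw [d.τ.s_one]; exact Subgroup.one_mem _
  | mul a b ha hb iha ihb =>
    rw [d.τ.s_mul (hle ha) (hle hb)]
    exact Subgroup.mul_mem _ (iha ha) (ihb hb)
  | inv a ha ih =>
    rw [d.τ.s_inv (hle ha)]
    exact Subgroup.inv_mem _ (ih ha)

/-- The factors of a fixed element are fixed. -/
theorem fix_of_factor {i m j : ℕ} (hm : 1 ≤ m) {a b : GL chevF4.Idx K} (ha : a ∈ Rt K i m) (hb : b ∈ Rt K (m + 1) j)
    (hf : d.τ.s (a * b) = a * b) : d.τ.s a = a ∧ d.τ.s b = b := by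
  have hg := Rt_le_group d (i := i) (j := m)
  have hg' := Rt_le_group d (i := m + 1) (j := j)
  rw [d.τ.s_mul (hg ha) (hg' hb)] at hf
  have h1 : a⁻¹ * d.τ.s a = b * (d.τ.s b)⁻¹ := by
    rw [inv_mul_eq_iff_eq_mul, ← mul_assoc, ← hf]
    group
  have h2 : a⁻¹ * d.τ.s a ∈ Rt K i m := Subgroup.mul_mem _ (Subgroup.inv_mem _ ha) (d.s_Rt ha)
  have h3 : a⁻¹ * d.τ.s a ∈ Rt K (m + 1) j := by
    rw [h1]
    exact Subgroup.mul_mem _ hb (Subgroup.inv_mem _ (d.s_Rt hb))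
  have h4 := Rt_inter hm h2 h3
  have h5 : d.τ.s a = a := (inv_mul_eq_one.1 h4).symm
  refine ⟨h5, ?_⟩
  rw [h1] at h4
  exact (mul_inv_eq_one.1 h4).symm

theorem Rt_mem_G1 {i j : ℕ} {x : GL chevF4.Idx K} (hx : x ∈ Rt K i j) (hf : d.τ.s x = x) : x ∈ (d.twG).G1 :=
  (d.twG).U_fix_le (Rt_le_U hx) hf

/-- The intersection with the twisted group. -/
noncomputable abbrev Sg (i j : ℕ) : Subgroup ↥(d.twG).G1 := (Rt K i j).subgroupOf (d.twG).G1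

theorem mem_Sg {i j : ℕ} {x : ↥(d.twG).G1} : x ∈ d.Sg i j ↔ x.1 ∈ Rt K i j := Subgroup.mem_subgroupOf

theorem fix_G1 (x : ↥(d.twG).G1) : d.τ.s x.1 = x.1 := (d.twG).G1_fix _ x.2

/-- Factorisation in the twisted group. -/
theorem Sg_factor {i m j : ℕ} (hm : 1 ≤ m) {x : ↥(d.twG).G1} {a b : GL chevF4.Idx K} (ha : a ∈ Rt K i m) (hb : b ∈ Rt K (m + 1) j)
    (e : x.1 = a * b) : ∃ a' ∈ d.Sg i m, ∃ b' ∈ d.Sg (m + 1) j, x = a' * b' := by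
  have hf : d.τ.s (a * b) = a * b := by
    rw [← e]
    exact d.fix_G1 x
  obtain ⟨h1, h2⟩ := d.fix_of_factor hm ha hb hf
  exact ⟨⟨a, d.Rt_mem_G1 ha h1⟩, d.mem_Sg.2 ha, ⟨b, d.Rt_mem_G1 hb h2⟩, d.mem_Sg.2 hb, Subtype.ext e⟩

theorem hemp {i j : ℕ} (h : j < i) : d.Sg i j = ⊥ := by
  rw [Sg, Rt_empty h]
  exact Subgroup.bot_subgroupOf _

theorem hR (k j : ℕ) (h1 : 1 ≤ k) (h2 : k + 1 ≤ j) (x : ↥(d.twG).G1) (hx : x ∈ d.Sg (k + 1) j) :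
    ∃ a ∈ d.Sg (k + 1) (j - 1), ∃ c ∈ d.Sg j j, x = a * c := by
  obtain ⟨m, rfl⟩ : ∃ m, j = m + 1 := ⟨j - 1, by omega⟩
  simp only [Nat.add_sub_cancel]
  obtain ⟨a, ha, b, hb, e⟩ := factor_right (K := K) (Q := Qq (k + 1) (m + 1)) (Q₁ := Qq (k + 1) m) (Q₂ := Qq (m + 1) (m + 1))
    (fun r hr => by
      by_cases h : clid r ≤ m
      · exact Or.inl ⟨hr.1, hr.2.1, h⟩
      · exact Or.inr ⟨hr.1, by omega, hr.2.2⟩)
    (Rt_le_norm (fun c _ h3 h4 => by omega)) (d.mem_Sg.1 hx)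
  exact d.Sg_factor (by omega) ha hb e

theorem hL (k j : ℕ) (h1 : 1 ≤ k) (h2 : k ≤ j) (x : ↥(d.twG).G1) (hx : x ∈ d.Sg k j) :
    ∃ a ∈ d.Sg k k, ∃ b ∈ d.Sg (k + 1) j, x = a * b := by
  obtain ⟨a, ha, b, hb, e⟩ := factor_left (K := K) (Q := Qq k j) (Q₁ := Qq k k) (Q₂ := Qq (k + 1) j)
    (fun r hr => by
      by_cases h : clid r ≤ k
      · exact Or.inl ⟨hr.1, hr.2.1, h⟩
      · exact Or.inr ⟨hr.1, by omega, hr.2.2⟩)
    (Rt_le_norm (fun c _ h3 h4 => by omega)) (d.mem_Sg.1 hx)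
  exact d.Sg_factor h1 ha hb e

theorem hI (k j : ℕ) (h1 : 1 ≤ k) (a : ↥(d.twG).G1) (h2 : a ∈ d.Sg k k) (h3 : a ∈ d.Sg (k + 1) j) : a = 1 :=
  Subtype.ext (Rt_inter h1 (d.mem_Sg.1 h2) (d.mem_Sg.1 h3))

theorem hC (k j : ℕ) (h1 : 0 < k) (h2 : k < j) (a : ↥(d.twG).G1) (ha : a ∈ d.Sg k k) (c : ↥(d.twG).G1) (hc : c ∈ d.Sg j j) :
    ⁅a, c⁆ ∈ d.Sg (k + 1) (j - 1) :=
  d.mem_Sg.2 (Rt_comm h1 h2 (d.mem_Sg.1 ha) (d.mem_Sg.1 hc))

theorem Sg_mono {i j i' j' : ℕ} (h1 : i ≤ i') (h2 : j' ≤ j) : d.Sg i' j' ≤ d.Sg i j :=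
  fun _ hx => d.mem_Sg.2 (Rt_mono h1 h2 (d.mem_Sg.1 hx))

theorem hnrm {i j i' j' : ℕ} (h : ∀ c, 0 < c → i' ≤ c → c ≤ j' → i ≤ c + 1 ∧ c ≤ j + 1) (a : ↥(d.twG).G1) (ha : a ∈ d.Sg i' j')
    (b : ↥(d.twG).G1) (hb : b ∈ d.Sg i j) : a * b * a⁻¹ ∈ d.Sg i j :=
  d.mem_Sg.2 ((Subgroup.mem_normalizer_iff.1 (Rt_le_norm h (d.mem_Sg.1 ha)) _).1 (d.mem_Sg.1 hb))

end Dat

/-! ### The torus -/

theorem tor_conj_Rt (c : Fin chevF4.rank → Kˣ) {i j : ℕ} {y : GL chevF4.Idx K} (hy : y ∈ Rt K i j) :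
    tor RootF4T.R chevF4 c * y * (tor RootF4T.R chevF4 c)⁻¹ ∈ Rt K i j := by
  unfold Rt Full.rootClosure at hy
  induction hy using Subgroup.closure_induction with
  | mem x hx =>
    obtain ⟨r, t, hr, hg⟩ := hx
    rw [hF.c.eq_xG hg, hF.tor_conj_xG c (Qq_lt hr)]
    exact hF.xG_mem_rootClosure hr _
  | one => simp [Subgroup.one_mem]
  | mul a b _ _ ha hb =>
    have e : tor RootF4T.R chevF4 c * (a * b) * (tor RootF4T.R chevF4 c)⁻¹ = (tor RootF4T.R chevF4 c * a * (tor RootF4T.R chevF4 c)⁻¹) * (tor RootF4T.R chevF4 c * b * (tor RootF4T.R chevF4 c)⁻¹) := by group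
    rw [e]
    exact Subgroup.mul_mem _ ha hb
  | inv a _ ha =>
    have e : tor RootF4T.R chevF4 c * a⁻¹ * (tor RootF4T.R chevF4 c)⁻¹ = (tor RootF4T.R chevF4 c * a * (tor RootF4T.R chevF4 c)⁻¹)⁻¹ := by group
    rw [e]
    exact Subgroup.inv_mem _ ha

namespace Dat

/-- The torus as a homomorphism. -/
noncomputable def ιT : (Kˣ × Kˣ) →* ↥(d.twG).G1 := MonoidHom.mk' d.gt (fun p q => Subtype.ext (by
  show tor RootF4T.R chevF4 (d.cOf (p * q)) = tor RootF4T.R chevF4 (d.cOf p) * tor RootF4T.R chevF4 (d.cOf q)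
  rw [d.cOf_mul, tor_mul]))

theorem ιT_apply (p : Kˣ × Kˣ) : d.ιT p = d.gt p := rfl

theorem hst {i j : ℕ} (h : Kˣ × Kˣ) (a : ↥(d.twG).G1) (ha : a ∈ d.Sg i j) : d.ιT h * a * (d.ιT h)⁻¹ ∈ d.Sg i j :=
  d.mem_Sg.2 (tor_conj_Rt _ (d.mem_Sg.1 ha))

end Dat

/-! ### The eight classes -/

/-- The blocks of a word conjugating a class to a basic one. -/
def blk : ℕ → List (List ℕ)
  | 2 => [[0, 3]]
  | 3 => [[0, 3], [1, 2, 1, 2]]
  | 4 => [[0, 3], [1, 2, 1, 2], [0, 3]]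
  | 5 => [[1, 2, 1, 2], [0, 3], [1, 2, 1, 2]]
  | 6 => [[1, 2, 1, 2], [0, 3]]
  | 7 => [[1, 2, 1, 2]]
  | _ => []

/-- The word of a class. -/
def wk (k : ℕ) : List ℕ := (blk k).flatten

theorem blk_cases : ∀ k < 9, ∀ b ∈ blk k, b = [0, 3] ∨ b = [1, 2, 1, 2] := by decide +kernel

theorem wk_lt : ∀ k < 9, ∀ i ∈ wk k, i < chevF4.rank := by decide +kernel

/-- The image of a basic class. -/
def wkOk (k : ℕ) (B : List ℕ) : Prop :=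
  (∀ r ∈ B, clid (wAct TabF4.X (wk k) r) = k) ∧ ∀ s < 48, clid s = k → ∃ r ∈ B, wAct TabF4.X (wk k) r = s

noncomputable instance (k : ℕ) (B : List ℕ) : Decidable (wkOk k B) := by
  unfold wkOk
  infer_instance

theorem wk_odd : ∀ k ∈ [1, 3, 5, 7], wkOk k [24, 33] := by decide +kernel

theorem wk_even : ∀ k ∈ [2, 4, 6, 8], wkOk k [25, 27, 28, 30] := by decide +kernel

/-- The root representing a class. -/
def rr : ℕ → ℕ
  | 1 => 24 | 2 => 26 | 3 => 43 | 4 => 41 | 5 => 45 | 6 => 31 | 7 => 32 | 8 => 25 | _ => 0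

theorem rr_odd : ∀ k ∈ [1, 3, 5, 7], wAct TabF4.X (wk k) 24 = rr k := by decide +kernel

theorem rr_even : ∀ k ∈ [2, 4, 6, 8], wAct TabF4.X (wk k) 25 = rr k := by decide +kernel

/-- Cartan entries. -/
def a0 : ℕ → ℤ
  | 1 => 0 | 2 => 0 | 3 => 2 | 4 => 2 | 5 => 0 | 6 => -2 | 7 => -2 | 8 => 0 | _ => 0
/-- Cartan entries. -/
def a1 : ℕ → ℤ
  | 1 => 0 | 2 => -2 | 3 => -2 | 4 => 0 | 5 => 2 | 6 => 2 | 7 => 0 | 8 => -2 | _ => 0
/-- Cartan entries. -/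
def a2 : ℕ → ℤ
  | 1 => -1 | 2 => 1 | 3 => 1 | 4 => 0 | 5 => -1 | 6 => -1 | 7 => 1 | 8 => 2 | _ => 0
/-- Cartan entries. -/
def a3 : ℕ → ℤ
  | 1 => 2 | 2 => 1 | 3 => 0 | 4 => -1 | 5 => 0 | 6 => 1 | 7 => 0 | 8 => -1 | _ => 0

theorem cartan_rr : ∀ k ∈ [1, 2, 3, 4, 5, 6, 7, 8], chevF4.cartan i0 (rr k) = a0 k ∧ chevF4.cartan i1 (rr k) = a1 k ∧
    chevF4.cartan i2 (rr k) = a2 k ∧ chevF4.cartan i3 (rr k) = a3 k := by decide +kernel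

/-- The exponents of a character. -/
def xx (E : ℤ) (k : ℕ) : ℤ := E * a0 k + a3 k
/-- The exponents of a character. -/
def yy (E : ℤ) (k : ℕ) : ℤ := E * a1 k + a2 k

theorem bez (E : ℤ) {k j : ℕ} (hk : 1 ≤ k) (hkj : k < j) (hj : j ≤ 8) :
    ∃ A B : ℤ, (yy E j * xx E k - xx E j * yy E k) * A = 1 + (2 * E ^ 2 - 1) * B := by
  have hk8 : k ≤ 7 := by omega
  interval_cases k <;> interval_cases j
  · exact ⟨(3)*E^0 + (4)*E^1, (-8)*E^0, by simp only [xx, yy, a0, a1, a2, a3]; ring⟩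
  · exact ⟨(2)*E^2 + (2)*E^3, (1)*E^0 + (-2)*E^2, by simp only [xx, yy, a0, a1, a2, a3]; ring⟩
  · exact ⟨(1)*E^0 + (2)*E^1, (2)*E^0, by simp only [xx, yy, a0, a1, a2, a3]; ring⟩
  · exact ⟨(2)*E^4 + (4)*E^5, (1)*E^0 + (2)*E^2 + (8)*E^4, by simp only [xx, yy, a0, a1, a2, a3]; ring⟩
  · exact ⟨(1)*E^0 + (2)*E^1, (2)*E^0, by simp only [xx, yy, a0, a1, a2, a3]; ring⟩
  · exact ⟨(2)*E^2 + (2)*E^3, (1)*E^0 + (-2)*E^2, by simp only [xx, yy, a0, a1, a2, a3]; ring⟩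
  · exact ⟨(3)*E^0 + (4)*E^1, (-8)*E^0, by simp only [xx, yy, a0, a1, a2, a3]; ring⟩
  · exact ⟨(3)*E^0 + (4)*E^1, (-2)*E^0 + (8)*E^1, by simp only [xx, yy, a0, a1, a2, a3]; ring⟩
  · exact ⟨(3)*E^0 + (4)*E^1, (-2)*E^0 + (8)*E^1, by simp only [xx, yy, a0, a1, a2, a3]; ring⟩
  · exact ⟨(1)*E^0 + (2)*E^1, (2)*E^0, by simp only [xx, yy, a0, a1, a2, a3]; ring⟩
  · exact ⟨(4)*E^2 + (6)*E^3, (1)*E^0 + (10)*E^2 + (-12)*E^3, by simp only [xx, yy, a0, a1, a2, a3]; ring⟩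
  · exact ⟨(1)*E^0 + (2)*E^1, (-4)*E^1, by simp only [xx, yy, a0, a1, a2, a3]; ring⟩
  · exact ⟨(3)*E^0 + (4)*E^1, (-8)*E^0, by simp only [xx, yy, a0, a1, a2, a3]; ring⟩
  · exact ⟨(3)*E^0 + (4)*E^1, (-2)*E^0 + (8)*E^1, by simp only [xx, yy, a0, a1, a2, a3]; ring⟩
  · exact ⟨(2)*E^2 + (2)*E^3, (1)*E^0 + (2)*E^2 + (4)*E^3, by simp only [xx, yy, a0, a1, a2, a3]; ring⟩
  · exact ⟨(1)*E^0 + (2)*E^1, (2)*E^0, by simp only [xx, yy, a0, a1, a2, a3]; ring⟩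
  · exact ⟨(2)*E^4 + (4)*E^5, (1)*E^0 + (2)*E^2 + (4)*E^4 + (-8)*E^5, by simp only [xx, yy, a0, a1, a2, a3]; ring⟩
  · exact ⟨(1)*E^0 + (2)*E^1, (-4)*E^1, by simp only [xx, yy, a0, a1, a2, a3]; ring⟩
  · exact ⟨(3)*E^0 + (4)*E^1, (-2)*E^0 + (8)*E^1, by simp only [xx, yy, a0, a1, a2, a3]; ring⟩
  · exact ⟨(3)*E^0 + (4)*E^1, (-2)*E^0 + (8)*E^1, by simp only [xx, yy, a0, a1, a2, a3]; ring⟩
  · exact ⟨(1)*E^0 + (2)*E^1, (2)*E^0, by simp only [xx, yy, a0, a1, a2, a3]; ring⟩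
  · exact ⟨(4)*E^2 + (6)*E^3, (1)*E^0 + (10)*E^2 + (-12)*E^3, by simp only [xx, yy, a0, a1, a2, a3]; ring⟩
  · exact ⟨(3)*E^0 + (4)*E^1, (-2)*E^0 + (8)*E^1, by simp only [xx, yy, a0, a1, a2, a3]; ring⟩
  · exact ⟨(2)*E^2 + (2)*E^3, (1)*E^0 + (2)*E^2 + (4)*E^3, by simp only [xx, yy, a0, a1, a2, a3]; ring⟩
  · exact ⟨(1)*E^0 + (2)*E^1, (2)*E^0, by simp only [xx, yy, a0, a1, a2, a3]; ring⟩
  · exact ⟨(3)*E^0 + (4)*E^1, (-2)*E^0 + (8)*E^1, by simp only [xx, yy, a0, a1, a2, a3]; ring⟩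
  · exact ⟨(3)*E^0 + (4)*E^1, (-2)*E^0 + (8)*E^1, by simp only [xx, yy, a0, a1, a2, a3]; ring⟩
  · exact ⟨(3)*E^0 + (4)*E^1, (-2)*E^0 + (8)*E^1, by simp only [xx, yy, a0, a1, a2, a3]; ring⟩

end Cfsg.Agent.Lib.Chev.TwF4
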