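import Cfsg.Agent.Lib.Chev.TwF4SchB

/-!
# The Schur multiplier of `²F₄`: the parametrisation of the classes and the action of the torus
-/

set_option autoImplicit false
set_option linter.unusedSectionVars false
set_option linter.unusedVariables false
set_option linter.unnecessarySimpa false

namespace Cfsg.Agent.Lib.Chev.TwF4

open Cfsg.Agent.Lib.Chev Cfsg.Lie Equiv
open Cfsg.Agent.Lib.Chev.TwGen
open Cfsg.Agent.Lib.Chev.TwWF4 (gen)
open Cfsg.Agent.Lib.Chev.SchTwo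
open scoped commutatorElement

theorem blk_nil {k : ℕ} (h : 9 ≤ k) : blk k = [] := by
  obtain ⟨n, rfl⟩ : ∃ n, k = n + 9 := ⟨k - 9, by omega⟩
  rfl

theorem blk_cases' (k : ℕ) : ∀ b ∈ blk k, b = [0, 3] ∨ b = [1, 2, 1, 2] := by
  by_cases h : k < 9
  · exact blk_cases k h
  · rw [blk_nil (by omega)]
    simp

theorem wk_lt' (k : ℕ) : ∀ i ∈ wk k, i < chevF4.rank := by
  by_cases h : k < 9
  · exact wk_lt k h
  · simp [wk, blk_nil (show 9 ≤ k by omega)]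

variable {K : Type*} [Field K] [Fintype K] {e : ℕ} (d : Dat K e)

namespace Dat

theorem mm_mem (k : ℕ) : (mm K (wk k)).1 ∈ (d.twG).G1 := by
  unfold mm
  rw [hF.coe_prod_nNt (wk_lt' k)]
  show hF.wordN (F := K) (blk k).flatten ∈ twistedF4 K e
  apply hF.wordN_flatten_mem
  intro b hb
  exact wordN_block (by exact_mod_cast d.h2) d.he (blk_cases' k b hb)

/-- The conjugating element of a class. -/
noncomputable def W (k : ℕ) : ↥(d.twG).G1 := ⟨(mm K (wk k)).1, d.mm_mem k⟩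

/-- The elements of a class of odd index. -/
noncomputable def Eo (k : ℕ) (t : K) : ↥(d.twG).G1 := d.W k * d.gp t * (d.W k)⁻¹

/-- The elements of a class of even index. -/
noncomputable def Ee (k : ℕ) (t u : K) : ↥(d.twG).G1 := d.W k * d.gb t u * (d.W k)⁻¹

theorem Eo_add (k : ℕ) (a b : K) : d.Eo k (a + b) = d.Eo k a * d.Eo k b := by
  unfold Eo
  rw [← d.gp_mul]
  group

theorem Eo_comm (k : ℕ) (a b : K) : d.Eo k a * d.Eo k b = d.Eo k b * d.Eo k a := by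
  rw [← d.Eo_add, ← d.Eo_add, add_comm]

theorem Ee_mul (k : ℕ) (t u t' u' : K) : d.Ee k t u * d.Ee k t' u' = d.Ee k (t + t') (u + u' + d.f t * t') := by
  unfold Ee
  rw [← d.gb_mul]
  group

theorem Ee_zero (k : ℕ) : d.Ee k 0 0 = 1 := by
  unfold Ee
  rw [d.gb_zero]
  group

theorem Eo_zero (k : ℕ) : d.Eo k 0 = 1 := by
  unfold Eo
  rw [d.gp_zero]
  group

theorem gp_rc (t : K) : (d.gp t).1 ∈ Full.rootClosure chevF4 K (fun r => r ∈ [24, 33]) := mem_UL_03.1 (d.pW_mem_UL t)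

theorem gb_rc (t u : K) : (d.gb t u).1 ∈ Full.rootClosure chevF4 K (fun r => r ∈ [25, 27, 28, 30]) := mem_UL_12.1 (d.bW_mem_UL t u)

theorem Eo_mem {k : ℕ} (hk : k ∈ [1, 3, 5, 7]) (t : K) : d.Eo k t ∈ d.Sg k k := by
  apply d.mem_Sg.2
  show (mm K (wk k)).1 * (d.gp t).1 * (mm K (wk k)).1⁻¹ ∈ Rt K k k
  refine conj_rootClosure hF (Q := fun r => r ∈ [24, 33]) (fun r hr => ?_) (fun r hr hq => ?_) (d.gp_rc t)
  · simp only [List.mem_cons, List.not_mem_nil, or_false] at hr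
    rcases hr with rfl | rfl <;> decide
  · rw [rho_mm (wk_lt' k)]
    have h1 := (wk_odd k hk).1 r hq
    have h2 : 0 < k := by
      simp only [List.mem_cons, List.not_mem_nil, or_false] at hk
      omega
    exact ⟨by rw [h1]; exact h2, by rw [h1], by rw [h1]⟩

theorem Ee_mem {k : ℕ} (hk : k ∈ [2, 4, 6, 8]) (t u : K) : d.Ee k t u ∈ d.Sg k k := by
  apply d.mem_Sg.2
  show (mm K (wk k)).1 * (d.gb t u).1 * (mm K (wk k)).1⁻¹ ∈ Rt K k k
  refine conj_rootClosure hF (Q := fun r => r ∈ [25, 27, 28, 30]) (fun r hr => ?_) (fun r hr hq => ?_) (d.gb_rc t u)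
  · simp only [List.mem_cons, List.not_mem_nil, or_false] at hr
    rcases hr with rfl | rfl | rfl | rfl <;> decide
  · rw [rho_mm (wk_lt' k)]
    have h1 := (wk_even k hk).1 r hq
    have h2 : 0 < k := by
      simp only [List.mem_cons, List.not_mem_nil, or_false] at hk
      omega
    exact ⟨by rw [h1]; exact h2, by rw [h1], by rw [h1]⟩

/-- Pulling back a class to a basic class. -/
theorem pull_rc {k : ℕ} {B : List ℕ} (hB : ∀ r ∈ B, r < chevF4.nroots) (hk : wkOk k B) (x : ↥(d.twG).G1) (hx : x ∈ d.Sg k k) :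
    ((d.W k)⁻¹ * x * d.W k).1 ∈ Full.rootClosure chevF4 K (fun r => r ∈ B) := by
  have h := conj_rootClosure hF (F := K) (Q := Qq k k) (Q' := fun r => r ∈ B) (fun r hr => Qq_lt hr) (s := (mm K (wk k))⁻¹)
    (fun r hr hq => ?_) (d.mem_Sg.1 hx)
  · have e : ((d.W k)⁻¹ * x * d.W k).1 = (((mm K (wk k))⁻¹ : ↥(chevF4.monomialSubgroup K)) : GL chevF4.Idx K) * x.1 *
        (((mm K (wk k))⁻¹ : ↥(chevF4.monomialSubgroup K)) : GL chevF4.Idx K)⁻¹ := by
      simp [W]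
    rw [e]
    exact h
  · have hc : clid r = k := le_antisymm hq.2.2 hq.2.1
    obtain ⟨r₀, hr₀, e1⟩ := hk.2 r (by have := clid_lt hq.1; exact this.2) hc
    have hlt : r₀ < chevF4.nroots := hB r₀ hr₀
    have e2 : hF.rhoN K (mm K (wk k)) ⟨r₀, hlt⟩ = ⟨r, hr⟩ := by
      apply Fin.ext
      rw [rho_mm (wk_lt' k)]
      exact e1
    rw [map_inv]
    have e3 : (hF.rhoN K (mm K (wk k)))⁻¹ ⟨r, hr⟩ = ⟨r₀, hlt⟩ := by
      rw [Equiv.Perm.inv_eq_iff_eq]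
      exact e2.symm
    rw [e3]
    exact hr₀

theorem exists_Eo {k : ℕ} (hk : k ∈ [1, 3, 5, 7]) (x : ↥(d.twG).G1) (hx : x ∈ d.Sg k k) : ∃ t, x = d.Eo k t := by
  have h1 := d.pull_rc (by decide) (wk_odd k hk) x hx
  obtain ⟨t, ht⟩ := d.gp_of_UL (mem_UL_03.2 h1) (d.fix_G1 _)
  refine ⟨t, ?_⟩
  have h2 : (d.W k)⁻¹ * x * d.W k = d.gp t := Subtype.ext ht
  unfold Eo
  rw [← h2]
  group

theorem exists_Ee {k : ℕ} (hk : k ∈ [2, 4, 6, 8]) (x : ↥(d.twG).G1) (hx : x ∈ d.Sg k k) : ∃ t u, x = d.Ee k t u := by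
  have h1 := d.pull_rc (by decide) (wk_even k hk) x hx
  obtain ⟨t, u, ht⟩ := d.gb_of_UL (mem_UL_12.2 h1) (d.fix_G1 _)
  refine ⟨t, u, ?_⟩
  have h2 : (d.W k)⁻¹ * x * d.W k = d.gb t u := Subtype.ext ht
  unfold Ee
  rw [← h2]
  group

/-- The torus is normalised. -/
theorem exists_pc (k : ℕ) (p : Kˣ × Kˣ) : ∃ p', d.W k * d.gt p' * (d.W k)⁻¹ = d.gt p := by
  have h : ((d.W k)⁻¹ * d.gt p * d.W k).1 ∈ chevF4.diagonalSubgroup K := by
    have h1 := hF.monomial_le_normalizer (Subgroup.inv_mem _ (mm K (wk k)).2)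
    have h2 := (Subgroup.mem_normalizer_iff.1 h1 _).1 (d.gt_mem_diag p)
    simpa [W] using h2
  obtain ⟨p', hp'⟩ := d.exists_gt h
  exact ⟨p', by rw [← hp']; group⟩

theorem chi_W {k : ℕ} {p p' : Kˣ × Kˣ} (h : d.W k * d.gt p' * (d.W k)⁻¹ = d.gt p) (s : ℕ) (hs : s < chevF4.nroots) :
    chiT chevF4 (d.cOf p) (wAct TabF4.X (wk k) s) = chiT chevF4 (d.cOf p') s := by
  obtain ⟨u, hact⟩ := hF.rhoN_spec (mm K (wk k))
  have h' : tor RootF4T.R chevF4 (d.cOf p) = (mm K (wk k)).1 * tor RootF4T.R chevF4 (d.cOf p') * (mm K (wk k)).1⁻¹ :=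
    (congrArg Subtype.val h).symm
  have e2 := chi_conj hF hact h' ⟨s, hs⟩
  rw [rho_mm (wk_lt' k)] at e2
  exact e2

/-- The character of a class. -/
noncomputable def chi (k : ℕ) (p : Kˣ × Kˣ) : Kˣ := chiT chevF4 (d.cOf p) (rr k)

theorem gt_Eo {k : ℕ} (hk : k ∈ [1, 3, 5, 7]) (p : Kˣ × Kˣ) (t : K) :
    d.gt p * d.Eo k t * (d.gt p)⁻¹ = d.Eo k ((d.chi k p : Kˣ) * t) := by
  obtain ⟨p', hp'⟩ := d.exists_pc k p
  have hc : d.chi k p = aC p' := by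
    rw [← d.chi24, chi, ← rr_odd k hk]
    exact d.chi_W hp' 24 (by decide)
  rw [hc, ← hp']
  unfold Eo
  rw [← d.gt_gp]
  group

theorem gt_Ee {k : ℕ} (hk : k ∈ [2, 4, 6, 8]) (p : Kˣ × Kˣ) (t u : K) :
    d.gt p * d.Ee k t u * (d.gt p)⁻¹ = d.Ee k ((d.chi k p : Kˣ) * t) ((d.chi k p : Kˣ) * d.f (d.chi k p : Kˣ) * u) := by
  obtain ⟨p', hp'⟩ := d.exists_pc k p
  have hc : d.chi k p = d.bC p' := by
    rw [← d.chi25, chi, ← rr_even k hk]
    exact d.chi_W hp' 25 (by decide)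
  rw [hc, ← hp']
  unfold Ee
  rw [← d.gt_gb]
  group

theorem mem_cases {k : ℕ} (h1 : 1 ≤ k) (h2 : k ≤ 8) : k ∈ [1, 3, 5, 7] ∨ k ∈ [2, 4, 6, 8] := by
  interval_cases k <;> decide

/-- A trivial character centralises. -/
theorem fix_of_chi {k : ℕ} (h1 : 1 ≤ k) (h2 : k ≤ 8) {p : Kˣ × Kˣ} (h : d.chi k p = 1) (c : ↥(d.twG).G1) (hc : c ∈ d.Sg k k) :
    d.gt p * c * (d.gt p)⁻¹ = c := by
  rcases mem_cases h1 h2 with hk | hk
  · obtain ⟨t, rfl⟩ := d.exists_Eo hk c hc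
    rw [d.gt_Eo hk, h]
    simp
  · obtain ⟨t, u, rfl⟩ := d.exists_Ee hk c hc
    rw [d.gt_Ee hk, h]
    simp

theorem add_one_ne {a : K} (h : a ≠ 1) (h2 : (2 : K) = 0) : 1 + a ≠ 0 := by
  intro h3
  apply h
  linear_combination h3 - h2

/-- A non-trivial character gives the divisibility. -/
theorem dv_of_chi {k : ℕ} (h1 : 1 ≤ k) (h2 : k ≤ 8) {p : Kˣ × Kˣ} (h : d.chi k p ≠ 1) : Dv (d.gt p) (d.Sg k k) := by
  have hl : ((d.chi k p : Kˣ) : K) ≠ 1 := by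
    intro h3
    exact h (Units.ext h3)
  have hl' := add_one_ne hl d.h2
  set l : K := ((d.chi k p : Kˣ) : K) with hl0
  rcases mem_cases h1 h2 with hk | hk
  · intro a ha
    obtain ⟨t, rfl⟩ := d.exists_Eo hk a ha
    refine ⟨d.Eo k (t * (1 + l)⁻¹), d.Eo_mem hk _, 1, Subgroup.one_mem _, ?_⟩
    rw [d.gt_Eo hk, ← hl0, ← d.Eo_add, mul_one, mul_one]
    congr 1
    field_simp
  · intro a ha
    obtain ⟨t, u, rfl⟩ := d.exists_Ee hk a ha
    set t' := t * (1 + l)⁻¹ with ht'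
    have et : t' + l * t' = t := by
      simp only [ht']
      field_simp
    have e1 : d.Ee k t' 0 * (d.gt p * d.Ee k t' 0 * (d.gt p)⁻¹) = d.Ee k t (d.f t' * (l * t')) := by
      rw [d.gt_Ee hk, ← hl0, d.Ee_mul, et]
      simp
    set v := d.f t' * (l * t') with hv
    have h22 := d.h2
    by_cases hw : u + v = 0
    · refine ⟨d.Ee k t' 0, d.Ee_mem hk _ _, 1, Subgroup.one_mem _, ?_⟩
      rw [e1, mul_one, mul_one]
      congr 1
      linear_combination hw - v * h22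
    · obtain ⟨b, hb⟩ := d.exists_w (Units.mk0 _ hw)
      have hb' : (b : K) * d.f (b : K) = u + v := by
        have := congrArg Units.val hb
        simpa [fU_val] using this
      refine ⟨d.Ee k t' 0, d.Ee_mem hk _ _, d.Ee k b 0, d.Ee_mem hk _ _, ?_⟩
      rw [e1, d.Ee_mul, d.Ee_mul]
      have e3 : (b : K) + b = 0 := by linear_combination (b : K) * h22
      rw [e3]
      simp only [add_zero, zero_add, mul_zero]
      congr 1
      rw [mul_comm (d.f (b : K)), hb']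
      linear_combination (-v) * h22

theorem fU_pow (y : Kˣ) : d.fU y = y ^ e := by
  apply Units.ext
  rw [fU_val, d.hf]
  simp

/-- The character in terms of the parameters. -/
theorem chi_eq {k : ℕ} (hk : k ∈ [1, 2, 3, 4, 5, 6, 7, 8]) (p : Kˣ × Kˣ) :
    d.chi k p = p.1 ^ xx (e : ℤ) k * p.2 ^ yy (e : ℤ) k := by
  obtain ⟨h0, h1, h2, h3⟩ := cartan_rr k hk
  have c0 : d.cOf p i0 = d.fU p.1 := rfl
  have c1 : d.cOf p i1 = d.fU p.2 := rfl
  have c2 : d.cOf p i2 = p.2 := rfl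
  have c3 : d.cOf p i3 = p.1 := rfl
  rw [chi, chiT_eq, c0, c1, c2, c3, h0, h1, h2, h3, d.fU_pow, d.fU_pow, xx, yy, zpow_add, zpow_add, zpow_mul, zpow_mul, zpow_natCast, zpow_natCast]
  simp only [mul_comm, mul_left_comm, mul_assoc]

include d in
theorem pow_q (g : Kˣ) : g ^ (2 * (e : ℤ) ^ 2 - 1) = 1 := by
  have h1 := d.fU_sq g
  rw [d.fU_pow, d.fU_pow, ← pow_mul, ← pow_mul] at h1
  have h2 : g ^ (2 * (e : ℤ) ^ 2) = g := by
    have e1 : 2 * (e : ℤ) ^ 2 = ((e * (e * 2) : ℕ) : ℤ) := by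
      push_cast
      ring
    rw [e1, zpow_natCast]
    exact h1
  rw [zpow_sub_one, h2, mul_inv_cancel]

/-- Two characters of the tower are separated. -/
theorem exists_sep {k j : ℕ} (hk : 1 ≤ k) (hkj : k < j) (hj : j ≤ 8) {g : Kˣ} (hg : g ≠ 1) : ∃ p, d.chi j p = 1 ∧ d.chi k p ≠ 1 := by
  obtain ⟨A, B, hAB⟩ := bez (e : ℤ) hk hkj hj
  have hmem : ∀ i, 1 ≤ i → i ≤ 8 → i ∈ [1, 2, 3, 4, 5, 6, 7, 8] := by
    intro i h1 h2
    interval_cases i <;> decide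
  refine ⟨(g ^ yy (e : ℤ) j, g ^ (-xx (e : ℤ) j)), ?_, ?_⟩
  · rw [d.chi_eq (hmem j (by omega) hj)]
    simp only
    rw [← zpow_mul, ← zpow_mul, ← zpow_add]
    have : yy (e : ℤ) j * xx (e : ℤ) j + -xx (e : ℤ) j * yy (e : ℤ) j = 0 := by ring
    rw [this, zpow_zero]
  · intro h
    rw [d.chi_eq (hmem k hk (by omega))] at h
    simp only at h
    rw [← zpow_mul, ← zpow_mul, ← zpow_add] at h
    apply hg
    have e1 : yy (e : ℤ) j * xx (e : ℤ) k + -xx (e : ℤ) j * yy (e : ℤ) k = yy (e : ℤ) j * xx (e : ℤ) k - xx (e : ℤ) j * yy (e : ℤ) k := by ring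
    rw [e1] at h
    have h3 : g ^ ((yy (e : ℤ) j * xx (e : ℤ) k - xx (e : ℤ) j * yy (e : ℤ) k) * A) = 1 := by
      rw [zpow_mul, h, one_zpow]
    rw [hAB, zpow_add, zpow_mul, pow_q d, one_zpow, mul_one, zpow_one] at h3
    exact h3

theorem exists_unit_ne (hq : 5 ≤ Fintype.card K) : ∃ g : Kˣ, g ≠ 1 := by
  obtain ⟨l, h0, h1⟩ := exists_ne01 hq
  refine ⟨Units.mk0 l h0, ?_⟩
  intro h
  exact h1 (congrArg Units.val h)

include d in
theorem hsq (y : Kˣ) : IsSquare y ∨ IsSquare (-y) := by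
  left
  have h1 := d.fU_sq y
  exact ⟨d.fU (d.fU y), by rw [← sq, h1]⟩

end Dat

section tower

open Dat

variable {Γ : Type*} [Group Γ] {σ : Γ →* ↥(d.twG).G1} {z : Γ}

/-- The tower of the eight classes. -/
theorem Dat.ret_tower (hE : Ext2 σ z) (hq : 5 ≤ Fintype.card K) (hc : Odd (Fintype.card K - 1))
    (hbase : ∀ k, 1 ≤ k → k ≤ 8 → ∃ ρ, Ret σ z (d.Sg k k) ρ) : ∃ ρ, Ret σ z (d.Sg 1 8) ρ := by
  classical
  obtain ⟨g, hg⟩ := exists_unit_ne (K := K) hq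
  have hodd : Odd (Fintype.card (Kˣ × Kˣ)) := by
    rw [Fintype.card_prod, Fintype.card_units]
    exact hc.mul hc
  refine tower d.ιT hE hodd hbase (fun i j h => d.hemp h) (fun k j h1 h2 h3 x hx => ?_) (fun k h1 h2 x hx => d.hL k 8 h1 h2 x hx)
    (fun k h1 h2 a h3 h4 => d.hI k 8 h1 a h3 h4) (fun k j h1 h2 h3 a ha c hc => d.hC k j (by omega) h2 a ha c hc)
    (fun k j h1 h2 h3 => d.Sg_mono le_rfl h3) (fun k j h1 h2 h3 => d.Sg_mono (by omega) h3)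
    (fun k h1 h2 a ha b hb => d.hnrm (fun c _ h3 h4 => by omega) a ha b hb)
    (fun i j h a ha => d.hst h a ha) (fun k j h1 h2 h3 => ?_)
  · exact d.hR k j h1 h2 x hx
  · obtain ⟨p, hp1, hp2⟩ := d.exists_sep h1 h2 h3 hg
    exact ⟨p, d.fix_of_chi (by omega) h3 hp1, d.dv_of_chi h1 (by omega) hp2⟩

end tower

end Cfsg.Agent.Lib.Chev.TwF4
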