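import Cfsg.Agent.Lib.Chev.TwF4SchC

/-!
# The Schur multiplier of `²F₄`: the prime two
-/

set_option autoImplicit false
set_option linter.unusedSectionVars false
set_option linter.unusedVariables false
set_option linter.unnecessarySimpa false

namespace Cfsg.Agent.Lib.Chev.TwF4

open Cfsg.Agent.Lib.Chev Cfsg.Lie Equiv
open Cfsg.Agent.Lib.Chev.TwGen
open Cfsg.Agent.Lib.Chev.TwWF4 (gen)
open Cfsg.Agent.Lib.Chev.SchTwo
open scoped commutatorElement

variable {K : Type*} [Field K]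

/-- Root elements commuting in characteristic two. -/
theorem xcomm {r s : ℕ} (h : r < 48 ∧ s < 48 ∧ s ≠ r ∧ s ≠ chevF4.neg r ∧ ∀ c ∈ chevF4.commTerms r s, (2 : ℤ) ∣ c.2.1) (h2 : (2 : K) = 0) (a b : K) :
    hF.c.xG s b * hF.c.xG r a = hF.c.xG r a * hF.c.xG s b := by
  obtain ⟨h1, h3, h4, h5, h6⟩ := h
  refine hF.xG_commute_of_zero (by rw [nr_eq]; exact h1) (by rw [nr_eq]; exact h3) h4 h5 (fun c hc => ?_) a b
  obtain ⟨k, hk⟩ := h6 c hc
  rw [hk]
  push_cast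
  rw [h2, zero_mul]

section comm

variable (h2 : (2 : K) = 0)

include h2

theorem c39_27 (a b : K) : hF.c.xG 27 b * hF.c.xG 39 a = hF.c.xG 39 a * hF.c.xG 27 b * hF.c.xG 40 (a * b) := by
  have h1 := hF.xG_comm (F := K) (r := 39) (s := 27) (by decide) (by decide) (by decide) (by decide) a b
  have h3 : chevF4.commWord K 39 27 a b = [(40, a * b)] := by
    unfold ChevalleyDatum.commWord
    rw [(by decide +kernel : chevF4.commTerms 39 27 = [(40, -1, 1, 1)])]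
    simp
  rw [h1, h3]
  simp [Checks.wordG_cons, Checks.wordG_nil]

theorem c45_25 (a b : K) : hF.c.xG 25 b * hF.c.xG 45 a = hF.c.xG 45 a * hF.c.xG 25 b * hF.c.xG 46 (a * b) := by
  have h1 := hF.xG_comm (F := K) (r := 45) (s := 25) (by decide) (by decide) (by decide) (by decide) a b
  have h3 : chevF4.commWord K 45 25 a b = [(46, a * b)] := by
    unfold ChevalleyDatum.commWord
    rw [(by decide +kernel : chevF4.commTerms 45 25 = [(46, -1, 1, 1)])]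
    simp
  rw [h1, h3]
  simp [Checks.wordG_cons, Checks.wordG_nil]

/-- The commutator of a class `5` element with a class `8` element. -/
theorem comm58 (α β p q r s : K) :
    hF.c.xG 27 p * hF.c.xG 25 q * hF.c.xG 28 r * hF.c.xG 30 s * (hF.c.xG 39 α * hF.c.xG 45 β) =
      hF.c.xG 39 α * hF.c.xG 45 β * (hF.c.xG 27 p * hF.c.xG 25 q * hF.c.xG 28 r * hF.c.xG 30 s) * (hF.c.xG 40 (α * p) * hF.c.xG 46 (β * q)) ∧
    (hF.c.xG 40 (α * p) * hF.c.xG 46 (β * q)) * (hF.c.xG 39 α * hF.c.xG 45 β) = (hF.c.xG 39 α * hF.c.xG 45 β) * (hF.c.xG 40 (α * p) * hF.c.xG 46 (β * q)) ∧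
    (hF.c.xG 40 (α * p) * hF.c.xG 46 (β * q)) * (hF.c.xG 27 p * hF.c.xG 25 q * hF.c.xG 28 r * hF.c.xG 30 s) =
      (hF.c.xG 27 p * hF.c.xG 25 q * hF.c.xG 28 r * hF.c.xG 30 s) * (hF.c.xG 40 (α * p) * hF.c.xG 46 (β * q)) := by
  set X := hF.c.xG 39 α
  set Y := hF.c.xG 45 β
  set P := hF.c.xG 27 p
  set Q := hF.c.xG 25 q
  set R := hF.c.xG 28 r
  set S := hF.c.xG 30 s
  set c₁ := hF.c.xG 40 (α * p)
  set c₂ := hF.c.xG 46 (β * q)
  have RX : R * X = X * R := xcomm (by decide +kernel) h2 _ _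
  have RY : R * Y = Y * R := xcomm (by decide +kernel) h2 _ _
  have SX : S * X = X * S := xcomm (by decide +kernel) h2 _ _
  have SY : S * Y = Y * S := xcomm (by decide +kernel) h2 _ _
  have QX : Q * X = X * Q := xcomm (by decide +kernel) h2 _ _
  have PY : P * Y = Y * P := xcomm (by decide +kernel) h2 _ _
  have PX : P * X = X * P * c₁ := c39_27 h2 _ _
  have QY : Q * Y = Y * Q * c₂ := c45_25 h2 _ _
  have c1X : c₁ * X = X * c₁ := xcomm (by decide +kernel) h2 _ _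
  have c1Y : c₁ * Y = Y * c₁ := xcomm (by decide +kernel) h2 _ _
  have c2X : c₂ * X = X * c₂ := xcomm (by decide +kernel) h2 _ _
  have c2Y : c₂ * Y = Y * c₂ := xcomm (by decide +kernel) h2 _ _
  have c1P : c₁ * P = P * c₁ := xcomm (by decide +kernel) h2 _ _
  have c1Q : c₁ * Q = Q * c₁ := xcomm (by decide +kernel) h2 _ _
  have c1R : c₁ * R = R * c₁ := xcomm (by decide +kernel) h2 _ _
  have c1S : c₁ * S = S * c₁ := xcomm (by decide +kernel) h2 _ _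
  have c2P : c₂ * P = P * c₂ := xcomm (by decide +kernel) h2 _ _
  have c2Q : c₂ * Q = Q * c₂ := xcomm (by decide +kernel) h2 _ _
  have c2R : c₂ * R = R * c₂ := xcomm (by decide +kernel) h2 _ _
  have c2S : c₂ * S = S * c₂ := xcomm (by decide +kernel) h2 _ _
  have c12 : c₂ * c₁ = c₁ * c₂ := xcomm (by decide +kernel) h2 _ _
  have cA : c₁ * c₂ * (X * Y) = X * Y * (c₁ * c₂) := by
    calc c₁ * c₂ * (X * Y) = c₁ * (c₂ * X) * Y := by simp only [mul_assoc]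
      _ = (c₁ * X) * (c₂ * Y) := by rw [c2X]; simp only [mul_assoc]
      _ = X * (c₁ * Y) * c₂ := by rw [c1X, c2Y]; simp only [mul_assoc]
      _ = _ := by rw [c1Y]; simp only [mul_assoc]
  have cB : c₁ * c₂ * (P * Q * R * S) = P * Q * R * S * (c₁ * c₂) := by
    have e1 : c₁ * (P * Q * R * S) = P * Q * R * S * c₁ := by
      calc c₁ * (P * Q * R * S) = (c₁ * P) * Q * R * S := by simp only [mul_assoc]
        _ = P * (c₁ * Q) * R * S := by rw [c1P]; simp only [mul_assoc]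
        _ = P * Q * (c₁ * R) * S := by rw [c1Q]; simp only [mul_assoc]
        _ = P * Q * R * (c₁ * S) := by rw [c1R]; simp only [mul_assoc]
        _ = _ := by rw [c1S]; simp only [mul_assoc]
    have e2 : c₂ * (P * Q * R * S) = P * Q * R * S * c₂ := by
      calc c₂ * (P * Q * R * S) = (c₂ * P) * Q * R * S := by simp only [mul_assoc]
        _ = P * (c₂ * Q) * R * S := by rw [c2P]; simp only [mul_assoc]
        _ = P * Q * (c₂ * R) * S := by rw [c2Q]; simp only [mul_assoc]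
        _ = P * Q * R * (c₂ * S) := by rw [c2R]; simp only [mul_assoc]
        _ = _ := by rw [c2S]; simp only [mul_assoc]
    rw [mul_assoc, e2, ← mul_assoc, e1, mul_assoc]
  refine ⟨?_, cA, cB⟩
  have eRS : R * S * (X * Y) = X * Y * (R * S) := by
    calc R * S * (X * Y) = R * (S * X) * Y := by simp only [mul_assoc]
      _ = (R * X) * (S * Y) := by rw [SX]; simp only [mul_assoc]
      _ = X * (R * Y) * S := by rw [RX, SY]; simp only [mul_assoc]
      _ = _ := by rw [RY]; simp only [mul_assoc]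
  calc P * Q * R * S * (X * Y) = P * Q * (R * S * (X * Y)) := by simp only [mul_assoc]
    _ = P * (Q * X) * Y * (R * S) := by rw [eRS]; simp only [mul_assoc]
    _ = (P * X) * (Q * Y) * (R * S) := by rw [QX]; simp only [mul_assoc]
    _ = X * P * (c₁ * Y) * Q * c₂ * (R * S) := by rw [PX, QY]; simp only [mul_assoc]
    _ = X * (P * Y) * (c₁ * Q) * c₂ * (R * S) := by rw [c1Y]; simp only [mul_assoc]
    _ = X * Y * P * Q * c₁ * c₂ * (R * S) := by rw [PY, c1Q]; simp only [mul_assoc]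
    _ = X * Y * (P * Q) * ((c₁ * c₂) * (R * S)) := by simp only [mul_assoc]
    _ = _ := by
      have e3 : (c₁ * c₂) * (R * S) = (R * S) * (c₁ * c₂) := by
        calc (c₁ * c₂) * (R * S) = c₁ * (c₂ * R) * S := by simp only [mul_assoc]
          _ = (c₁ * R) * (c₂ * S) := by rw [c2R]; simp only [mul_assoc]
          _ = R * (c₁ * S) * c₂ := by rw [c1R, c2S]; simp only [mul_assoc]
          _ = _ := by rw [c1S]; simp only [mul_assoc]
      rw [e3]
      simp only [mul_assoc]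

end comm

theorem pair_inj' {a b a' b' : K} (h : hF.c.xG 40 a * hF.c.xG 46 b = hF.c.xG 40 a' * hF.c.xG 46 b') : a = a' ∧ b = b' := by
  have e : ∀ a b : K, hF.c.xG 40 a * hF.c.xG 46 b = hF.wL [40, 46] (fun r => if r = 40 then a else b) := by
    intro a b
    simp [Full.wL, Checks.wordG_cons, Checks.wordG_nil]
  rw [e, e] at h
  have h1 := hF.wL_inj_sorted (by decide) (by decide +kernel) h
  exact ⟨by simpa using h1 40 (by simp), by simpa using h1 46 (by simp)⟩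

/-- The centre of a class of even index. -/
theorem exists_NF0 (h2 : (2 : K) = 0) {x : GL chevF4.Idx K} (hx : x ∈ Full.rootClosure chevF4 K (fun r => r ∈ [28, 30])) :
    ∃ C E : K, x = NF 0 0 C E := by
  unfold Full.rootClosure at hx
  have hstep : ∀ (C E : K) (s : ℕ) (a : K), s ∈ [28, 30] → ∃ C' E' : K, NF 0 0 C E * hF.c.xG s a = NF 0 0 C' E' := by
    intro C E s a hs
    simp only [List.mem_cons, List.not_mem_nil, or_false] at hs
    rcases hs with rfl | rfl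
    · exact ⟨_, _, NF_x28 h2 0 0 C E a⟩
    · exact ⟨_, _, NF_x30 0 0 C E a⟩
  induction hx using Subgroup.closure_induction_right with
  | one => exact ⟨0, 0, NF_zero.symm⟩
  | mul_right x hx y hy ih =>
    obtain ⟨s, a, hs, hg⟩ := hy
    obtain ⟨C, E, rfl⟩ := ih
    rw [hF.c.eq_xG hg]
    exact hstep C E s a hs
  | mul_inv_cancel x hx y hy ih =>
    obtain ⟨s, a, hs, hg⟩ := hy
    obtain ⟨C, E, rfl⟩ := ih
    rw [hF.c.eq_xG hg, hF.c.xG_inv]
    exact hstep C E s (-a) hs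

variable [Fintype K] {e : ℕ} (d : Dat K e)

namespace Dat

theorem W8 : d.W 8 = 1 := Subtype.ext rfl

theorem Ee8 (t u : K) : d.Ee 8 t u = d.gb t u := by
  unfold Ee
  rw [d.W8]
  group

/-- The root elements of the conjugate of an element. -/
theorem mm_conj (L : List ℕ) (hL : ∀ i ∈ L, i < chevF4.rank) {r : ℕ} (hr : r < chevF4.nroots) :
    ∃ u : Kˣ, ∀ t : K, (mm K L).1 * hF.c.xG r t * (mm K L).1⁻¹ = hF.c.xG (wAct TabF4.X L r) ((u : K) * t) := by
  obtain ⟨u, hu⟩ := hF.rhoN_spec_apply (mm K L) ⟨r, hr⟩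
  refine ⟨u, fun t => ?_⟩
  have h1 := hu t
  simp only at h1
  rw [h1, rho_mm hL]

theorem wk5_vals : wAct TabF4.X (wk 5) 33 = 39 ∧ wAct TabF4.X (wk 5) 24 = 45 ∧ wAct TabF4.X (wk 6) 28 = 40 ∧ wAct TabF4.X (wk 6) 30 = 46 := by
  decide +kernel

/-- The form of the elements of class `5`. -/
theorem E5_form : ∃ u₁ u₂ : Kˣ, ∀ t : K, (d.Eo 5 t).1 = hF.c.xG 39 ((u₁ : K) * d.f t) * hF.c.xG 45 ((u₂ : K) * t) := by
  obtain ⟨u₁, h1⟩ := mm_conj (K := K) (wk 5) (wk_lt' 5) (r := 33) (by decide)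
  obtain ⟨u₂, h2⟩ := mm_conj (K := K) (wk 5) (wk_lt' 5) (r := 24) (by decide)
  refine ⟨u₁, u₂, fun t => ?_⟩
  obtain ⟨v1, v2, -⟩ := wk5_vals
  have h3 := h1 (d.f t)
  have h4 := h2 t
  rw [v1] at h3
  rw [v2] at h4
  rw [← h3, ← h4]
  show (mm K (wk 5)).1 * (hF.c.xG 33 (d.f t) * hF.c.xG 24 t) * (mm K (wk 5)).1⁻¹ = _
  group

theorem gb10 : (d.gb (1 : K) 0).1 = hF.c.xG 27 1 * hF.c.xG 25 1 * hF.c.xG 28 1 * hF.c.xG 30 0 := by
  show bW d.f d.g 27 25 28 30 1 0 = _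
  simp only [bW, map_one, map_zero, mul_one, add_zero, mul_assoc]

/-- The commutator of a class `5` element with the class `8` element. -/
theorem comm_form : ∃ u₁ u₂ : Kˣ, ∀ t : K, ⁅d.Eo 5 t, d.gb 1 0⁆.1 =
    hF.c.xG 40 ((u₁ : K) * d.f t) * hF.c.xG 46 ((u₂ : K) * t) := by
  obtain ⟨u₁, u₂, h⟩ := d.E5_form
  refine ⟨u₁, u₂, fun t => ?_⟩
  show ⁅(d.Eo 5 t).1, (d.gb 1 0).1⁆ = _
  rw [h, d.gb10]
  obtain ⟨h1, h3, h4⟩ := comm58 d.h2 ((u₁ : K) * d.f t) ((u₂ : K) * t) 1 1 1 0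
  simp only [mul_one] at h1 h3 h4
  set A := hF.c.xG 39 ((u₁ : K) * d.f t) * hF.c.xG 45 ((u₂ : K) * t)
  set B := hF.c.xG 27 (1 : K) * hF.c.xG 25 1 * hF.c.xG 28 1 * hF.c.xG 30 0
  set c := hF.c.xG 40 ((u₁ : K) * d.f t) * hF.c.xG 46 ((u₂ : K) * t)
  have hcc : c * c = 1 := by
    have c12 : hF.c.xG 46 ((u₂ : K) * t) * hF.c.xG 40 ((u₁ : K) * d.f t) = hF.c.xG 40 ((u₁ : K) * d.f t) * hF.c.xG 46 ((u₂ : K) * t) :=
      xcomm (by decide +kernel) d.h2 _ _
    have h22 := d.h2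
    calc c * c = hF.c.xG 40 ((u₁ : K) * d.f t) * (hF.c.xG 46 ((u₂ : K) * t) * hF.c.xG 40 ((u₁ : K) * d.f t)) * hF.c.xG 46 ((u₂ : K) * t) := by
          simp only [c, mul_assoc]
      _ = (hF.c.xG 40 ((u₁ : K) * d.f t) * hF.c.xG 40 ((u₁ : K) * d.f t)) * (hF.c.xG 46 ((u₂ : K) * t) * hF.c.xG 46 ((u₂ : K) * t)) := by
          rw [c12]
          simp only [mul_assoc]
      _ = 1 := by
          rw [hF.c.xG_add, hF.c.xG_add]
          have e1 : (u₁ : K) * d.f t + (u₁ : K) * d.f t = 0 := by linear_combination ((u₁ : K) * d.f t) * h22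
          have e2 : (u₂ : K) * t + (u₂ : K) * t = 0 := by linear_combination ((u₂ : K) * t) * h22
          rw [e1, e2]
          simp
  have hci : c⁻¹ = c := inv_eq_of_mul_eq_one_right hcc
  -- `B A = A B c`, `c` commutes with `A`, `B`
  rw [commutatorElement_def]
  have e1 : A * B = B * A * c := by
    calc A * B = A * B * (c * c) := by rw [hcc, mul_one]
      _ = (A * B * c) * c := by simp only [mul_assoc]
      _ = _ := by rw [← h1]
  calc A * B * A⁻¹ * B⁻¹ = B * A * c * A⁻¹ * B⁻¹ := by rw [e1]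
    _ = B * (c * A) * A⁻¹ * B⁻¹ := by rw [h3]; simp only [mul_assoc]
    _ = B * c * B⁻¹ := by group
    _ = c * B * B⁻¹ := by rw [h4]
    _ = c := by group

/-- Elements of the centre of the class `6`. -/
theorem exists_E6 (x : ↥(d.twG).G1) (hx : ∃ a b : K, x.1 = hF.c.xG 40 a * hF.c.xG 46 b) : ∃ v, x = d.Ee 6 0 v := by
  obtain ⟨a, b, hx⟩ := hx
  obtain ⟨-, -, v1, v2⟩ := wk5_vals
  have hy : ((d.W 6)⁻¹ * x * d.W 6).1 ∈ Full.rootClosure chevF4 K (fun r => r ∈ [28, 30]) := by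
    obtain ⟨u₁, h1⟩ := mm_conj (K := K) (wk 6) (wk_lt' 6) (r := 28) (by decide)
    obtain ⟨u₂, h2⟩ := mm_conj (K := K) (wk 6) (wk_lt' 6) (r := 30) (by decide)
    rw [v1] at h1
    rw [v2] at h2
    have e1 : ∀ a : K, hF.c.xG 40 a = (mm K (wk 6)).1 * hF.c.xG 28 ((u₁ : K)⁻¹ * a) * (mm K (wk 6)).1⁻¹ := by
      intro a
      rw [h1]
      simp
    have e2 : ∀ a : K, hF.c.xG 46 a = (mm K (wk 6)).1 * hF.c.xG 30 ((u₂ : K)⁻¹ * a) * (mm K (wk 6)).1⁻¹ := by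
      intro a
      rw [h2]
      simp
    show (mm K (wk 6)).1⁻¹ * x.1 * (mm K (wk 6)).1 ∈ _
    rw [hx, e1, e2]
    have e3 : (mm K (wk 6)).1⁻¹ * ((mm K (wk 6)).1 * hF.c.xG 28 ((u₁ : K)⁻¹ * a) * (mm K (wk 6)).1⁻¹ * ((mm K (wk 6)).1 * hF.c.xG 30 ((u₂ : K)⁻¹ * b) * (mm K (wk 6)).1⁻¹)) * (mm K (wk 6)).1 =
        hF.c.xG 28 ((u₁ : K)⁻¹ * a) * hF.c.xG 30 ((u₂ : K)⁻¹ * b) := by group
    rw [e3]
    exact Subgroup.mul_mem _ (hF.xG_mem_rootClosure (by simp) _) (hF.xG_mem_rootClosure (by simp) _)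
  have hy' : ((d.W 6)⁻¹ * x * d.W 6).1 ∈ Full.rootClosure chevF4 K (fun r => r ∈ [25, 27, 28, 30]) := by
    unfold Full.rootClosure at hy ⊢
    refine Subgroup.closure_mono ?_ hy
    rintro g ⟨r, t, hr, hg⟩
    refine ⟨r, t, ?_, hg⟩
    simp only [List.mem_cons, List.not_mem_nil, or_false] at hr ⊢
    omega
  obtain ⟨t, u, ht⟩ := d.gb_of_UL (mem_UL_12.2 hy') (d.fix_G1 _)
  obtain ⟨C, E, hCE⟩ := exists_NF0 d.h2 hy
  rw [ht] at hCE
  have h3 : bW d.f d.g 27 25 28 30 t u = NF 0 0 C E := hCE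
  rw [d.bP_NF] at h3
  obtain ⟨h4, -, -, -⟩ := NF_inj h3
  subst h4
  refine ⟨u, ?_⟩
  have h5 : (d.W 6)⁻¹ * x * d.W 6 = d.gb 0 u := Subtype.ext ht
  unfold Ee
  rw [← h5]
  group

/-- Surjectivity of the commutator map onto the centre of class `6`. -/
theorem exists_comm_eq (u : K) : ∃ t, ⁅d.Eo 5 t, d.gb 1 0⁆ = d.Ee 6 0 u := by
  obtain ⟨u₁, u₂, hc⟩ := d.comm_form
  have hv : ∀ t, ∃ v, ⁅d.Eo 5 t, d.gb 1 0⁆ = d.Ee 6 0 v := fun t => d.exists_E6 _ ⟨_, _, hc t⟩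
  choose v hv using hv
  have hinj : Function.Injective v := by
    intro t t' h
    have h1 := hv t
    rw [h, ← hv t'] at h1
    have h3 := congrArg Subtype.val h1
    rw [hc, hc] at h3
    obtain ⟨-, h4⟩ := pair_inj' h3
    exact mul_left_cancel₀ u₂.ne_zero h4
  obtain ⟨t, ht⟩ := Finite.surjective_of_injective hinj u
  exact ⟨t, by rw [hv, ht]⟩

/-- The classes `5` and `7` commute. -/
theorem comm57 (d : Dat K e) {x y : GL chevF4.Idx K} (hx : x ∈ Rt K 5 5) (hy : y ∈ Rt K 7 7) : x * y = y * x := by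
  have hroots : ∀ r s, clid r = 5 → clid s = 7 → ∀ a b : K, hF.c.xG s b * hF.c.xG r a = hF.c.xG r a * hF.c.xG s b := by
    intro r s hr hs a b
    have h5 : ∀ r < 48, ∀ s < 48, (clid r = 5 ∧ clid s = 7) → (s ≠ r ∧ s ≠ chevF4.neg r ∧ ∀ c ∈ chevF4.commTerms r s, (2 : ℤ) ∣ c.2.1) := by
      decide +kernel
    have hr' := (clid_lt (r := r) (by omega)).2
    have hs' := (clid_lt (r := s) (by omega)).2
    obtain ⟨h6, h7, h8⟩ := h5 r hr' s hs' ⟨hr, hs⟩
    exact xcomm ⟨hr', hs', h6, h7, h8⟩ d.h2 a b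
  have hbot : ∀ a : GL chevF4.Idx K, a ∈ Subgroup.normalizer (((⊥ : Subgroup (GL chevF4.Idx K))) : Set (GL chevF4.Idx K)) := by
    intro a
    refine Subgroup.mem_normalizer_iff.2 (fun n => ?_)
    simp only [SetLike.mem_coe, Subgroup.mem_bot]
    constructor
    · rintro rfl
      simp
    · intro h
      have h2 : n = a⁻¹ * (a * n * a⁻¹) * a := by group
      rw [h2, h]
      simp
  have h1 := comm_closure (N := ⊥) (fun a _ => hbot a) (fun b _ => hbot b) (A := _) (B := _) (by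
    rintro g ⟨r, t, hr, hg⟩ k ⟨s, u, hs, hk⟩
    rw [hF.c.eq_xG hg, hF.c.eq_xG hk, Subgroup.mem_bot]
    exact commutatorElement_eq_one_iff_mul_comm.2 (hroots r s (le_antisymm hr.2.2 hr.2.1) (le_antisymm hs.2.2 hs.2.1) t u).symm) x hx y hy
  exact commutatorElement_eq_one_iff_mul_comm.1 (Subgroup.mem_bot.1 h1)

end Dat

section base

open Dat

variable {Γ : Type*} [Group Γ] {σ : Γ →* ↥(d.twG).G1} {z : Γ}

theorem cen_mem_of_comm {a c : ↥(d.twG).G1} {k j : ℕ} (h : ⁅a, c⁆ ∈ d.Sg (k + 1) (j - 1)) (hj : j ≤ k + 1) : a * c = c * a := by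
  rw [d.hemp (by omega)] at h
  exact commutatorElement_eq_one_iff_mul_comm.1 (Subgroup.mem_bot.1 h)

/-- The centre of class `6` lifts to the centre of the inverse image. -/
theorem Dat.hcen6 (hE : Ext2 σ z) (hq : 5 ≤ Fintype.card K) (u : K) (x y : Γ) (t v : K) (hx : σ x = d.Ee 6 0 u)
    (hy : σ y = d.Ee 6 t v) : x * y = y * x := by
  obtain ⟨g, hg⟩ := exists_unit_ne (K := K) hq
  obtain ⟨p, hp1, hp2⟩ := d.exists_sep (k := 5) (j := 7) (by omega) (by omega) (by omega) hg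
  have hMA : ∀ m a, σ m ∈ d.Sg 7 7 → σ a ∈ d.Sg 5 5 → m * a = a * m := by
    intro m a hm ha
    exact (comm_of_sep hE (A := d.Sg 5 5) (C := d.Sg 7 7) (fun a ha c hc => Subtype.ext (comm57 d (d.mem_Sg.1 ha) (d.mem_Sg.1 hc)))
      (h := d.gt p) (fun a ha => d.hst p a ha) (fun c hc => d.fix_of_chi (by omega) (by omega) hp1 c hc) (d.dv_of_chi (by omega) (by omega) hp2) a m ha hm).symm
  have h3 := three hE (A₁ := d.Sg 5 5) (A₂ := d.Sg 8 8) (Y := d.Sg 6 6) (M := d.Sg 7 7)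
    (fun y hy a ha => (cen_mem_of_comm d (d.hC 5 6 (by omega) (by omega) a ha y hy) (by omega)).symm)
    (fun b hb y hy => by
      have h4 := d.hC 6 8 (by omega) (by omega) y hy b hb
      have e : ⁅b, y⁆ = ⁅y, b⁆⁻¹ := (commutatorElement_inv y b).symm
      rw [e]
      exact Subgroup.inv_mem _ h4)
    hMA
  obtain ⟨s, hs⟩ := d.exists_comm_eq u
  have ha : σ (hE.ce.L (d.Eo 5 s)) ∈ d.Sg 5 5 := by
    rw [hE.ce.σL]
    exact d.Eo_mem (by decide) s
  have hb : σ (hE.ce.L (d.gb 1 0)) ∈ d.Sg 8 8 := by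
    rw [hE.ce.σL, ← d.Ee8]
    exact d.Ee_mem (by decide) _ _
  have hy' : σ y ∈ d.Sg 6 6 := by
    rw [hy]
    exact d.Ee_mem (by decide) _ _
  have hc := h3 _ _ y ha hb hy'
  have ex : σ x = σ ⁅hE.ce.L (d.Eo 5 s), hE.ce.L (d.gb 1 0)⁆ := by
    rw [hx, map_commutatorElement, hE.ce.σL, hE.ce.σL, hs]
  obtain ⟨k, hk, ek⟩ := Cfsg.Agent.Lib.SzTorus.exists_ker_of_map ex
  rw [ek]
  calc ⁅hE.ce.L (d.Eo 5 s), hE.ce.L (d.gb 1 0)⁆ * k * y = ⁅hE.ce.L (d.Eo 5 s), hE.ce.L (d.gb 1 0)⁆ * (k * y) := by rw [mul_assoc]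
    _ = ⁅hE.ce.L (d.Eo 5 s), hE.ce.L (d.gb 1 0)⁆ * (y * k) := by rw [hE.ce.cen k hk]
    _ = (⁅hE.ce.L (d.Eo 5 s), hE.ce.L (d.gb 1 0)⁆ * y) * k := by rw [mul_assoc]
    _ = _ := by rw [hc, mul_assoc]

/-- The same for the basic class. -/
theorem Dat.hcenB (hE : Ext2 σ z) (hq : 5 ≤ Fintype.card K) (u : K) (x y : Γ) (t v : K) (hx : σ x = d.gb 0 u)
    (hy : σ y = d.gb t v) : x * y = y * x := by
  obtain ⟨g, hg⟩ := hE.ce.surj (d.W 6)
  have h1 := d.hcen6 hE hq u (g * x * g⁻¹) (g * y * g⁻¹) t v (by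
    rw [map_mul, map_mul, map_inv, hg, hx]
    rfl) (by
    rw [map_mul, map_mul, map_inv, hg, hy]
    rfl)
  have e1 : g * x * g⁻¹ * (g * y * g⁻¹) = g * (x * y) * g⁻¹ := by group
  have e2 : g * y * g⁻¹ * (g * x * g⁻¹) = g * (y * x) * g⁻¹ := by group
  rw [e1, e2] at h1
  exact mul_left_cancel (mul_right_cancel h1)

theorem Dat.ret_even (hE : Ext2 σ z) (hq : 5 ≤ Fintype.card K) (hc : Odd (Fintype.card K - 1)) {k : ℕ} (hk : k ∈ [2, 4, 6, 8]) :
    ∃ ρ, Ret σ z (d.Sg k k) ρ := by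
  classical
  have hodd : Odd (Fintype.card (Kˣ × Kˣ)) := by
    rw [Fintype.card_prod, Fintype.card_units]
    exact hc.mul hc
  let ι' : (Kˣ × Kˣ) →* ↥(d.twG).G1 := (MulAut.conj (d.W k)).toMonoidHom.comp d.ιT
  have hι : ∀ h, ι' h = d.W k * d.gt h * (d.W k)⁻¹ := fun h => rfl
  have hact : ∀ h t u, ι' h * d.Ee k t u * (ι' h)⁻¹ = d.Ee k ((d.bC h : Kˣ) * t) ((d.bC h : Kˣ) * d.f (d.bC h : Kˣ) * u) := by
    intro h t u
    rw [hι]
    unfold Ee
    rw [← d.gt_gb]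
    group
  refine ret_B (F := K) ι' hodd hq d.h2 (hsq d) hE (d.Ee k) (d.f : K →+* K) (d.Ee_mul k) (fun x hx => d.exists_Ee hk x hx)
    (fun h => ⟨_, hact h⟩) (fun l hl => ?_) (fun w hw => ?_) (fun u x y t v hx hy => ?_)
  · obtain ⟨p, -, hp⟩ := d.exists_p 1 (Units.mk0 l hl)
    refine ⟨p, fun t u => ?_⟩
    rw [hact, hp]
    rfl
  · obtain ⟨b, hb⟩ := d.exists_w (Units.mk0 _ hw)
    refine ⟨b, b.ne_zero, ?_⟩
    have := congrArg Units.val hb
    simpa [fU_val] using this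
  · obtain ⟨g, hg⟩ := hE.ce.surj (d.W k)⁻¹
    have h1 := d.hcenB hE hq u (g * x * g⁻¹) (g * y * g⁻¹) t v (by
      rw [map_mul, map_mul, map_inv, hg, hx]
      unfold Ee
      group) (by
      rw [map_mul, map_mul, map_inv, hg, hy]
      unfold Ee
      group)
    have e1 : g * x * g⁻¹ * (g * y * g⁻¹) = g * (x * y) * g⁻¹ := by group
    have e2 : g * y * g⁻¹ * (g * x * g⁻¹) = g * (y * x) * g⁻¹ := by group
    rw [e1, e2] at h1
    exact mul_left_cancel (mul_right_cancel h1)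

theorem Dat.ret_odd (hE : Ext2 σ z) (hq : 5 ≤ Fintype.card K) {k : ℕ} (hk : k ∈ [1, 3, 5, 7]) :
    ∃ ρ, Ret σ z (d.Sg k k) ρ := by
  refine ret_A hq d.h2 (hsq d) hE (d.Eo k) (d.Eo_add k) (d.Eo_comm k) (fun x hx => d.exists_Eo hk x hx) (fun s hs => ?_)
  obtain ⟨p, hp, -⟩ := d.exists_p (Units.mk0 s hs) 1
  refine ⟨d.W k * d.gt p * (d.W k)⁻¹, fun a => ?_⟩
  have e : s = ((aC p : Kˣ) : K) := by rw [hp]; rfl
  rw [e]
  unfold Eo
  rw [← d.gt_gp]
  group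

/-- A retraction over the positive roots. -/
theorem Dat.ret_U (hE : Ext2 σ z) (hq : 5 ≤ Fintype.card K) (hc : Odd (Fintype.card K - 1)) : ∃ ρ, Ret σ z (d.Sg 1 8) ρ := by
  refine d.ret_tower hE hq hc (fun k h1 h2 => ?_)
  rcases mem_cases h1 h2 with hk | hk
  · exact d.ret_odd hE hq hk
  · exact d.ret_even hE hq hc hk

end base

end Cfsg.Agent.Lib.Chev.TwF4
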