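import Cfsg.Agent.Lib.Chev.TwF4SchD
import Cfsg.Agent.Lib.Chev.SchOddB

/-!
# The Schur multiplier of `²F₄`: the case of the prime two, and the set-up for odd primes
-/

set_option autoImplicit false
set_option linter.unusedSectionVars false
set_option linter.unusedVariables false
set_option linter.unnecessarySimpa false

namespace Cfsg.Agent.Lib.Chev.TwF4

open Cfsg.Agent.Lib.Chev Cfsg.Lie Equiv
open Cfsg.Agent.Lib.Chev.TwGen
open Cfsg.Agent.Lib.Chev.SchTwo
open scoped commutatorElement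

variable {K : Type*} [Field K] [Fintype K] {e : ℕ}

/-- The Sylow `2`-subgroup. -/
theorem exists_U1_sylow {m : ℕ} (hm : 1 ≤ m) (hK : Fintype.card K = 2 ^ (2 * m + 1)) (d : Dat K (2 ^ m)) :
    ∃ P : Sylow 2 ↥(d.twG).G1, ∀ u : ↥(d.twG).G1, u ∈ (P : Subgroup ↥(d.twG).G1) ↔ u.1 ∈ chevF4.posUnipotent K := by
  have hU := d.card_U1
  have hG := d.card_G1
  rw [hK] at hU hG
  set Q := 2 ^ (2 * m + 1) with hQ
  have hQe : Even Q := (Nat.even_pow.2 ⟨even_two, by omega⟩)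
  have hQ1 : 1 ≤ Q := Nat.one_le_two_pow
  have hodd : Odd ((Q - 1) ^ 2 * ((Q ^ 3 + 1) * (Q ^ 3 + Q ^ 2 + Q + 1) * (Q ^ 6 + 1))) := by
    have o1 : Odd (Q - 1) := Nat.Even.sub_odd hQ1 hQe odd_one
    have e3 : Even (Q ^ 3) := hQe.pow_of_ne_zero (by norm_num)
    have e2 : Even (Q ^ 2) := hQe.pow_of_ne_zero (by norm_num)
    have e6 : Even (Q ^ 6) := hQe.pow_of_ne_zero (by norm_num)
    have o2 : Odd (Q ^ 3 + 1) := e3.add_odd odd_one
    have o3 : Odd (Q ^ 3 + Q ^ 2 + Q + 1) := ((e3.add e2).add hQe).add_odd odd_one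
    have o4 : Odd (Q ^ 6 + 1) := e6.add_odd odd_one
    exact (o1.pow).mul ((o2.mul o3).mul o4)
  haveI : Fact (Nat.Prime 2) := ⟨Nat.prime_two⟩
  exact exists_sylow d.twG (p := 2) (q := Q ^ 12) (N := (2 * m + 1) * 12)
    (r := (Q - 1) ^ 2 * ((Q ^ 3 + 1) * (Q ^ 3 + Q ^ 2 + Q + 1) * (Q ^ 6 + 1)))
    (by rw [hQ, pow_mul]) hU (by
      show Nat.card ↥(twistedF4 K (2 ^ m)) = _
      rw [hG]
      ring) (by
      intro h2
      exact (Nat.not_even_iff_odd.2 hodd) (even_iff_two_dvd.2 h2))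

theorem clid_pos_tab : ∀ r < 48, 24 ≤ r → 0 < clid r := by decide +kernel

/-- The group `U` is the product of the eight classes. -/
theorem mem_U_Rt {x : GL chevF4.Idx K} (hx : x ∈ chevF4.posUnipotent K) : x ∈ Rt K 1 8 := by
  have h1 : chevF4.posUnipotent K ≤ Rt K 1 8 := by
    unfold ChevalleyDatum.posUnipotent Rt Full.rootClosure
    apply Subgroup.closure_mono
    rintro g ⟨r, t, hr, hg⟩
    obtain ⟨h1, h2⟩ := hF.isPos_iff.1 hr
    rw [nr_eq] at h1
    rw [N_eq] at h2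
    have h3 := clid_pos_tab r h1 h2
    exact ⟨r, t, ⟨h3, h3, clid_le r⟩, hg⟩
  exact h1 hx

/-- There is no central stem extension with kernel of order two. -/
theorem no_two_kernel {m : ℕ} (hm : 1 ≤ m) (hK : Fintype.card K = 2 ^ (2 * m + 1)) (d : Dat K (2 ^ m))
    {Γ : Type*} [Group Γ] [Finite Γ] (σ : Γ →* ↥(d.twG).G1) (hσ : Cfsg.IsStemExtension σ) (hk2 : Nat.card σ.ker = 2) : False := by
  haveI : Fact (Nat.Prime 2) := ⟨Nat.prime_two⟩
  obtain ⟨⟨z, hz⟩, hzo⟩ : ∃ x : σ.ker, orderOf x = 2 := exists_prime_orderOf_dvd_card' 2 (by rw [hk2])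
  have hzo' : orderOf z = 2 := (Subgroup.orderOf_mk z hz).symm.trans hzo
  have hz1 : z ≠ 1 := by
    rintro rfl
    rw [orderOf_one] at hzo'
    omega
  have hzz : z * z = 1 := by
    rw [← pow_two, ← hzo']
    exact pow_orderOf_eq_one z
  have hE : Ext2 σ z := by
    refine ⟨⟨hσ.1, fun k hk x => (Subgroup.mem_center_iff.1 (hσ.2.1 hk) x).symm⟩, hz, hz1, hzz, fun k hk => ?_⟩
    obtain ⟨a, b, hab, hall⟩ := Nat.card_eq_two_iff.1 hk2
    have h1 := fun y : σ.ker => (by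
      have := hall ▸ Set.mem_univ y
      simpa using this : y = a ∨ y = b)
    by_cases hk1 : k = 1
    · exact Or.inl hk1
    · refine Or.inr ?_
      have e1 : (⟨k, hk⟩ : σ.ker) ≠ 1 := fun h => hk1 (congrArg Subtype.val h)
      have e2 : (⟨z, hz⟩ : σ.ker) ≠ 1 := fun h => hz1 (congrArg Subtype.val h)
      have e3 : (1 : σ.ker) = a ∨ (1 : σ.ker) = b := h1 1
      rcases e3 with e3 | e3
      · have e4 := (h1 ⟨k, hk⟩).resolve_left (by rw [← e3]; exact e1)
        have e5 := (h1 ⟨z, hz⟩).resolve_left (by rw [← e3]; exact e2)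
        exact congrArg Subtype.val (e4.trans e5.symm)
      · have e4 := (h1 ⟨k, hk⟩).resolve_right (by rw [← e3]; exact e1)
        have e5 := (h1 ⟨z, hz⟩).resolve_right (by rw [← e3]; exact e2)
        exact congrArg Subtype.val (e4.trans e5.symm)
  have hq : 5 ≤ Fintype.card K := by
    rw [hK]
    calc 5 ≤ 2 ^ 3 := by norm_num
      _ ≤ 2 ^ (2 * m + 1) := Nat.pow_le_pow_right (by norm_num) (by omega)
  have hc : Odd (Fintype.card K - 1) := by
    rw [hK]
    exact Nat.Even.sub_odd Nat.one_le_two_pow (Nat.even_pow.2 ⟨even_two, by omega⟩) odd_one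
  obtain ⟨ρ, hρ⟩ := d.ret_U hE hq hc
  obtain ⟨U, hU⟩ := exists_U1_sylow hm hK d
  obtain ⟨P, hzP, hPm⟩ := StemSylow.exists_sylow_over hσ.1 U (hσ.2.1 hz) hzo'
  have hcom := StemSylow.ker_mem_commutator hσ P hz hzP
  have hPS : ∀ x ∈ (P : Subgroup Γ), σ x ∈ d.Sg 1 8 := by
    intro x hx
    have h1 : σ x ∈ (P : Subgroup Γ).map σ := ⟨x, hx, rfl⟩
    rw [hPm, hU] at h1
    exact d.mem_Sg.2 (mem_U_Rt h1)
  let W : Subgroup ↥(P : Subgroup Γ) :=
    { carrier := {x | ρ x.1 = 0}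
      mul_mem' := by
        intro a b ha hb
        show ρ (a.1 * b.1) = 0
        rw [hρ.1 _ _ (hPS _ a.2) (hPS _ b.2), ha, hb, add_zero]
      one_mem' := Ret.map_one hρ
      inv_mem' := by
        intro a ha
        show ρ (a.1⁻¹) = 0
        rw [Ret.map_inv hρ (hPS _ a.2)]
        exact ha }
  have hle : commutator ↥(P : Subgroup Γ) ≤ W := by
    unfold commutator
    rw [Subgroup.commutator_le]
    intro a _ b _
    show ρ (⁅a, b⁆ : ↥(P : Subgroup Γ)).1 = 0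
    exact Ret.map_comm hρ (hPS _ a.2) (hPS _ b.2)
  have h0 : ρ z = 0 := hle hcom
  have h1 : ρ z = 1 := hρ.2
  rw [h0] at h1
  exact zero_ne_one h1

end Cfsg.Agent.Lib.Chev.TwF4
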