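import Cfsg.Agent.Lib.Chev.TwF4SchE

/-!
# The Schur multiplier of `²F₄`: the rank one subgroups
-/

set_option autoImplicit false
set_option linter.unusedSectionVars false
set_option linter.unusedVariables false
set_option linter.unnecessarySimpa false

namespace Cfsg.Agent.Lib.Chev.TwF4

open Cfsg.Agent.Lib.Chev Cfsg.Lie Equiv
open Cfsg.Agent.Lib.Chev.Full (cellS)
open Cfsg.Agent.Lib.Chev.TwGen
open Cfsg.Agent.Lib.Chev.TwWF4 (gen)
open Cfsg.Agent.Lib.Chev.SchOdd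
open scoped commutatorElement

/-- The data of a rank one subgroup. -/
structure RkD (j : ℕ) (Lp Ln : List ℕ) : Prop where
  hj : j < chevF4.rank
  hlq : ∀ r, LQ chevF4 {x | x ∈ gen j} r ↔ r ∈ Lp
  hnp : ∀ r ∈ Ln, chevF4.neg r ∈ Lp
  hw : ∀ r ∈ Ln, wAct TabF4.X (gen j) r ∈ Lp
  hs : wAct TabF4.X (gen j) (chevF4.simple j) = chevF4.neg (chevF4.simple j)
  hlt : ∀ r ∈ Ln, r < 24
  hplt : ∀ r ∈ Lp, r < chevF4.nroots

theorem rk0 : RkD 0 [24, 33] [14, 23] :=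
  ⟨by decide, LQ0, by decide +kernel, neg_L0, by decide +kernel, by decide, by decide⟩

theorem rk1' : RkD 1 [25, 27, 28, 30] [17, 19, 20, 22] :=
  ⟨by decide, LQ1, by decide +kernel, neg_L1, by decide +kernel, by decide, by decide⟩

/-- The positive roots. -/
def Lp : Fin 2 → List ℕ := ![[24, 33], [25, 27, 28, 30]]

/-- The negative roots. -/
def Ln : Fin 2 → List ℕ := ![[14, 23], [17, 19, 20, 22]]

theorem rkd (i : Fin 2) : RkD i.val (Lp i) (Ln i) := by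
  fin_cases i
  · exact rk0
  · exact rk1'

theorem neg_neg_F {r : ℕ} (hr : r < 48) : chevF4.neg (chevF4.neg r) = r := by
  have : ∀ r < 48, chevF4.neg (chevF4.neg r) = r := by decide +kernel
  exact this r hr

section gen

variable {K : Type*} [Field K]

theorem rc_mono {L L' : ℕ → Prop} (h : ∀ r, L r → L' r) : Full.rootClosure chevF4 K L ≤ Full.rootClosure chevF4 K L' := by
  unfold Full.rootClosure
  apply Subgroup.closure_mono
  rintro g ⟨r, t, hr, hg⟩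
  exact ⟨r, t, h r hr, hg⟩

theorem RkD.mem_UL {j : ℕ} {Lp Ln : List ℕ} (h : RkD j Lp Ln) {x : GL chevF4.Idx K} :
    x ∈ UL chevF4 K {y | y ∈ gen j} ↔ x ∈ Full.rootClosure chevF4 K (fun r => r ∈ Lp) := by
  have e : LQ chevF4 {y | y ∈ gen j} = fun r => r ∈ Lp := funext fun r => propext (h.hlq r)
  unfold UL
  rw [e]

theorem RkD.inRootSub {j : ℕ} {Lp Ln : List ℕ} (h : RkD j Lp Ln) {r : ℕ} (hr : r ∈ Lp ∨ r ∈ Ln) :
    chevF4.InRootSub {y | y ∈ gen j} r := by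
  rcases hr with hr | hr
  · exact ((h.hlq r).2 hr).2
  · have h1 := ((h.hlq _).2 (h.hnp r hr)).2
    have h2 := hF.neg_inRootSub h1
    have h3 := h.hlt r hr
    rwa [neg_neg_F (by omega)] at h2

theorem RkD.le_levi {j : ℕ} {Lp Ln : List ℕ} (h : RkD j Lp Ln) :
    Full.rootClosure chevF4 K (fun r => r ∈ Lp ∨ r ∈ Ln) ≤ chevF4.leviSubgroup K {y | y ∈ gen j} := by
  refine le_trans ?_ le_sup_right
  unfold Full.rootClosure
  apply Subgroup.closure_mono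
  rintro g ⟨s, t, hs, hg⟩
  exact ⟨s, t, h.inRootSub hs, hg⟩

theorem rc_le_V {Ln : List ℕ} (h : ∀ r ∈ Ln, r < 24) : Full.rootClosure chevF4 K (fun r => r ∈ Ln) ≤ chevF4.negUnipotent K := by
  unfold Full.rootClosure
  rw [Subgroup.closure_le]
  rintro g ⟨r, t, hr, hg⟩
  rw [SetLike.mem_coe, hF.c.eq_xG hg]
  exact hF.xG_mem_V (by rw [N_eq]; exact h r hr) t

/-- The torus normalises root closures. -/
theorem tor_conj_rc (c : Fin chevF4.rank → Kˣ) {Q : ℕ → Prop} (hQ : ∀ r, Q r → r < chevF4.nroots) {y : GL chevF4.Idx K}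
    (hy : y ∈ Full.rootClosure chevF4 K Q) :
    tor RootF4T.R chevF4 c * y * (tor RootF4T.R chevF4 c)⁻¹ ∈ Full.rootClosure chevF4 K Q := by
  unfold Full.rootClosure at hy
  induction hy using Subgroup.closure_induction with
  | mem x hx =>
    obtain ⟨r, t, hr, hg⟩ := hx
    rw [hF.c.eq_xG hg, hF.tor_conj_xG c (hQ r hr)]
    exact hF.xG_mem_rootClosure hr _
  | one => simp [Subgroup.one_mem]
  | mul a b _ _ ha hb =>
    have e : tor RootF4T.R chevF4 c * (a * b) * (tor RootF4T.R chevF4 c)⁻¹ = (tor RootF4T.R chevF4 c * a * (tor RootF4T.R chevF4 c)⁻¹) * (tor RootF4T.R chevF4 c * b * (tor RootF4T.R chevF4 c)⁻¹) := by group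
    rw [e]
    exact Subgroup.mul_mem _ ha hb
  | inv a _ ha =>
    have e : tor RootF4T.R chevF4 c * a⁻¹ * (tor RootF4T.R chevF4 c)⁻¹ = (tor RootF4T.R chevF4 c * a * (tor RootF4T.R chevF4 c)⁻¹)⁻¹ := by group
    rw [e]
    exact Subgroup.inv_mem _ ha

theorem wordG_mem_rc {L : List ℕ} {l : List (ℕ × ℤ)} (hl : ∀ p ∈ l, p.1 ∈ L) :
    hF.c.wordG (castW K l) ∈ Full.rootClosure chevF4 K (fun r => r ∈ L) := by
  apply hF.c.wordG_mem
  intro p hp
  simp only [castW, List.mem_map] at hp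
  obtain ⟨q, hq, rfl⟩ := hp
  exact hF.xG_mem_rootClosure (hl q hq) _

end gen

variable {K : Type*} [Field K] [Fintype K] {e : ℕ} (d : Dat K e)

namespace Dat

/-- The intersection of a root closure with the twisted group. -/
noncomputable def Up (L : List ℕ) : Subgroup ↥(d.twG).G1 := (Full.rootClosure chevF4 K (fun r => r ∈ L)).subgroupOf (d.twG).G1

theorem mem_Up {L : List ℕ} {x : ↥(d.twG).G1} : x ∈ d.Up L ↔ x.1 ∈ Full.rootClosure chevF4 K (fun r => r ∈ L) := Subgroup.mem_subgroupOf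

theorem Lb_rc {Lp Ln : List ℕ} {x : ↥(d.twG).G1} (hx : x ∈ Lb (d.Up Lp) (d.Up Ln)) :
    x.1 ∈ Full.rootClosure chevF4 K (fun r => r ∈ Lp ∨ r ∈ Ln) := by
  unfold Lb at hx
  induction hx using Subgroup.closure_induction with
  | mem y hy =>
    rcases hy with hy | hy
    · exact rc_mono (fun r hr => Or.inl hr) (d.mem_Up.1 hy)
    · exact rc_mono (fun r hr => Or.inr hr) (d.mem_Up.1 hy)
  | one => exact Subgroup.one_mem _
  | mul a b _ _ ha hb => exact Subgroup.mul_mem _ ha hb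
  | inv a _ ha => exact Subgroup.inv_mem _ ha

theorem Up_le_B {j : ℕ} {Lp Ln : List ℕ} (h : RkD j Lp Ln) {x : ↥(d.twG).G1} (hx : x ∈ d.Up Lp) : x.1 ∈ chevF4.borelSubgroup K :=
  hF.c.posUnipotent_le_borel (hF.UL_le_U _ (h.mem_UL.2 (d.mem_Up.1 hx)))

theorem Up_le_U {j : ℕ} {Lp Ln : List ℕ} (h : RkD j Lp Ln) {x : ↥(d.twG).G1} (hx : x ∈ d.Up Lp) : x.1 ∈ chevF4.posUnipotent K :=
  hF.UL_le_U _ (h.mem_UL.2 (d.mem_Up.1 hx))

theorem Lb_le_Pa {j : ℕ} {Lp Ln : List ℕ} (h : RkD j Lp Ln) : Lb (d.Up Lp) (d.Up Ln) ≤ d.Pa h.hj := by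
  unfold Lb
  rw [Subgroup.closure_le]
  rintro x (hx | hx)
  · exact (mem_parabolic_iff_cell d.twG d.hA h.hj _).2 (Or.inl (d.Up_le_B h hx))
  · refine d.V_mem_P h.hj (Q := fun r => r ∈ Ln) (fun r hr => ?_) (fun r hr => (h.hlq _).2 (h.hw r hr)) x (d.mem_Up.1 hx)
    have := h.hlt r hr
    rw [nr_eq]
    omega

/-- Elements of the Borel subgroup and of the Levi subgroup. -/
theorem B_levi {j : ℕ} {Lp Ln : List ℕ} (h : RkD j Lp Ln) (b : ↥(d.twG).G1) (hb : b.1 ∈ chevF4.borelSubgroup K)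
    (hl : b.1 ∈ chevF4.leviSubgroup K {y | y ∈ gen j}) :
    ∃ u ∈ d.Up Lp, ∃ t : ↥(d.twG).G1, t.1 ∈ chevF4.diagonalSubgroup K ∧ b = u * t := by
  obtain ⟨u, hu, t, ht, e⟩ := (d.twG).borel_split hb b.2
  obtain ⟨y, hy, q, hq, e2⟩ := hF.exists_UL_Q {y | y ∈ gen j} hu.1
  have hyl := hF.UL_le_levi _ hy
  have htl : t ∈ chevF4.leviSubgroup K {y | y ∈ gen j} := (le_sup_left : chevF4.diagonalSubgroup K ≤ _) ht.1
  have hql : q ∈ chevF4.leviSubgroup K {y | y ∈ gen j} := by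
    have e3 : q = y⁻¹ * b.1 * t⁻¹ := by
      rw [e, e2]
      group
    rw [e3]
    exact Subgroup.mul_mem _ (Subgroup.mul_mem _ (Subgroup.inv_mem _ hyl) hl) (Subgroup.inv_mem _ htl)
  have hq1 : q = 1 := by
    have h3 : q ∈ chevF4.unipotentRadical K {y | y ∈ gen j} ⊓ chevF4.leviSubgroup K {y | y ∈ gen j} := ⟨hq, hql⟩
    rw [hF.radical_inf_levi] at h3
    exact h3
  have e4 : u = y := by
    rw [e2, hq1, mul_one]
  have hu' : u ∈ UL chevF4 K {y | y ∈ gen j} := by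
    rw [e4]
    exact hy
  refine ⟨⟨u, hu.2⟩, d.mem_Up.2 (h.mem_UL.1 hu'), ⟨t, ht.2⟩, ht.1, Subtype.ext e⟩

/-- The element of `N` of a rank one subgroup. -/
theorem nL_of {j : ℕ} {Lp Ln : List ℕ} (h : RkD j Lp Ln) (l₁ l₂ l₃ : List (ℕ × ℤ))
    (hw : ((d.twG).nC j).1 = hF.c.wordG (castW K [l₁, l₂, l₃].flatten))
    (h1 : hF.c.wordG (castW K l₁) ∈ (d.twG).G1) (h2 : hF.c.wordG (castW K l₂) ∈ (d.twG).G1) (h3 : hF.c.wordG (castW K l₃) ∈ (d.twG).G1)
    (h1' : ∀ p ∈ l₁, p.1 ∈ Lp) (h2' : ∀ p ∈ l₂, p.1 ∈ Ln) (h3' : ∀ p ∈ l₃, p.1 ∈ Lp) :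
    TwGen.sE d.twG h.hj ∈ Lb (d.Up Lp) (d.Up Ln) := by
  have key : hF.c.wordG (castW K [l₁, l₂, l₃].flatten) ∈ (Lb (d.Up Lp) (d.Up Ln)).map (d.twG).G1.subtype := by
    apply hF.wordG_castW_flatten_mem
    intro l hl
    simp only [List.mem_cons, List.not_mem_nil, or_false] at hl
    rcases hl with rfl | rfl | rfl
    · exact ⟨⟨_, h1⟩, Subgroup.subset_closure (Or.inl (d.mem_Up.2 (wordG_mem_rc h1'))), rfl⟩
    · exact ⟨⟨_, h2⟩, Subgroup.subset_closure (Or.inr (d.mem_Up.2 (wordG_mem_rc h2'))), rfl⟩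
    · exact ⟨⟨_, h3⟩, Subgroup.subset_closure (Or.inl (d.mem_Up.2 (wordG_mem_rc h3'))), rfl⟩
  rw [← hw] at key
  obtain ⟨y, hy, e⟩ := key
  have e2 : y = TwGen.sE d.twG h.hj := Subtype.ext e
  rw [← e2]
  exact hy

/-- The word of `n₀`. -/
theorem nL0 : TwGen.sE d.twG rk0.hj ∈ Lb (d.Up [24, 33]) (d.Up [14, 23]) := by
  have h2 : ((2 : ℕ) : K) = 0 := by exact_mod_cast d.h2
  have hmem : ∀ w, w ∈ f4Words K e → hF.c.wordG w ∈ (d.twG).G1 :=
    fun w hw => hF.wordG_mem_genSubgroup hw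
  refine d.nL_of rk0 pairP pairM pairP ?_ (hmem _ (w_pairP d.he)) (hmem _ (w_pairM d.he)) (hmem _ (w_pairP d.he)) (by decide) (by decide) (by decide)
  show (((gen 0).map (hF.nNt K)).prod : ↥(chevF4.monomialSubgroup K)).1 = _
  rw [hF.coe_prod_nNt (by decide)]
  exact hF.wordN_eq_wordG_mod h2 _ (by decide +kernel) _ chk03

/-- The word of `n₁`. -/
theorem nL1 : TwGen.sE d.twG rk1'.hj ∈ Lb (d.Up [25, 27, 28, 30]) (d.Up [17, 19, 20, 22]) := by
  have h2 : ((2 : ℕ) : K) = 0 := by exact_mod_cast d.h2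
  have hmem : ∀ w, w ∈ f4Words K e → hF.c.wordG w ∈ (d.twG).G1 :=
    fun w hw => hF.wordG_mem_genSubgroup hw
  refine d.nL_of rk1' classU10 classV01 classU11 ?_ (hmem _ (w_U10 d.he)) (hmem _ (w_V01 d.he)) (hmem _ (w_U11 h2 d.he)) (by decide) (by decide) (by decide)
  show (((gen 1).map (hF.nNt K)).prod : ↥(chevF4.monomialSubgroup K)).1 = _
  rw [hF.coe_prod_nNt (by decide)]
  exact hF.wordN_eq_wordG_mod h2 _ (by decide +kernel) _ chk12

theorem nL (i : Fin 2) : TwGen.sE d.twG (rkd i).hj ∈ Lb (d.Up (Lp i)) (d.Up (Ln i)) := by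
  fin_cases i
  · exact d.nL0
  · exact d.nL1

/-- The rank one decomposition. -/
theorem rk1_form (i : Fin 2) (x : ↥(d.twG).G1) (hx : x ∈ Lb (d.Up (Lp i)) (d.Up (Ln i))) :
    ∃ a ∈ d.Up (Lp i), ∃ m : ↥(d.twG).G1, m.1 ∈ chevF4.monomialSubgroup K ∧ ∃ b ∈ d.Up (Lp i), x = a * m * b := by
  have h := rkd i
  have hlev := h.le_levi (K := K) (d.Lb_rc hx)
  rcases (mem_parabolic_iff_cell d.twG d.hA h.hj _).1 (d.Lb_le_Pa h hx) with hB | hc
  · obtain ⟨u, hu, t, ht, e⟩ := d.B_levi h x hB hlev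
    exact ⟨u, hu, t, hF.c.diagonal_le_monomial ht, 1, Subgroup.one_mem _, by rw [e, mul_one]⟩
  · obtain ⟨g, hg, y, hy, hys, e⟩ := exists_of_cell d.twG h.hj x.2 hc
    have hyG := (d.twG).UL_fix i.val h.hj y hy hys
    set y₁ : ↥(d.twG).G1 := ⟨y, hyG⟩ with hy₁
    set n := TwGen.sE d.twG h.hj with hn
    have hnL := d.nL i
    have hnlev := h.le_levi (K := K) (d.Lb_rc hnL)
    have hyl : y₁.1 ∈ chevF4.leviSubgroup K {y | y ∈ gen i.val} := hF.UL_le_levi _ hy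
    set g₁ : ↥(d.twG).G1 := x * y₁⁻¹ * n⁻¹ with hg₁
    have eg : g₁.1 = g := by
      rw [hg₁]
      show x.1 * y⁻¹ * ((d.twG).nC i.val).1⁻¹ = g
      rw [e]
      group
    have hg₁l : g₁.1 ∈ chevF4.leviSubgroup K {y | y ∈ gen i.val} := by
      rw [hg₁]
      exact Subgroup.mul_mem _ (Subgroup.mul_mem _ hlev (Subgroup.inv_mem _ hyl)) (Subgroup.inv_mem _ hnlev)
    obtain ⟨u, hu, t, ht, e2⟩ := d.B_levi h g₁ (by rw [eg]; exact hg) hg₁l
    refine ⟨u, hu, t * n, Subgroup.mul_mem _ (hF.c.diagonal_le_monomial ht) ((d.twG).nC i.val).2, y₁, ?_, ?_⟩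
    · exact d.mem_Up.2 (h.mem_UL.1 hy)
    · rw [← mul_assoc u t n, ← e2, hg₁]
      group

/-- Monomial elements of a rank one subgroup. -/
theorem hNL_form (i : Fin 2) (x : ↥(d.twG).G1) (hx : x ∈ Lb (d.Up (Lp i)) (d.Up (Ln i))) (hxN : x.1 ∈ chevF4.monomialSubgroup K) :
    x.1 ∈ chevF4.diagonalSubgroup K ∨ (TwGen.sE d.twG (rkd i).hj)⁻¹.1 * x.1 ∈ chevF4.diagonalSubgroup K := by
  have h := rkd i
  rcases (mem_parabolic_iff_cell d.twG d.hA h.hj _).1 (d.Lb_le_Pa h hx) with hB | hc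
  · left
    rw [← hF.B_inf_N]
    exact ⟨hB, hxN⟩
  · right
    have hcell : x.1 ∈ cellS chevF4 K x.1 := ⟨1, Subgroup.one_mem _, 1, Subgroup.one_mem _, by simp⟩
    have h1 := hF.cell_disjoint ((d.twG).nC i.val).2 hxN hc hcell
    rw [← hF.B_inf_N]
    exact ⟨h1, Subgroup.mul_mem _ (Subgroup.inv_mem _ ((d.twG).nC i.val).2) hxN⟩

/-- The dichotomy. -/
theorem dich_form (i : Fin 2) (m : ↥(d.twG).G1) (hm : m.1 ∈ chevF4.monomialSubgroup K) :
    (∀ u ∈ d.Up (Lp i), (m⁻¹ * u * m).1 ∈ chevF4.posUnipotent K) ∨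
    (∀ u ∈ d.Up (Lp i), (m⁻¹ * TwGen.sE d.twG (rkd i).hj * u * (m⁻¹ * TwGen.sE d.twG (rkd i).hj)⁻¹).1 ∈ chevF4.posUnipotent K) := by
  have h := rkd i
  let k : ↥(chevF4.monomialSubgroup K) := ⟨(m⁻¹).1, Subgroup.inv_mem _ hm⟩
  have hkG : k.1 ∈ (d.twG).G1 := (m⁻¹).2
  by_cases hpos : RootF4T.R.N ≤ ((hF.rhoN K k ⟨chevF4.simple i.val, hF.simple_lt h.hj⟩ : Fin chevF4.nroots) : ℕ)
  · left
    intro u hu
    have h1 := conj_pos_of d.twG k hkG h.hj hpos (x := u.1) (h.mem_UL.2 (d.mem_Up.1 hu))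
    have e1 : (m⁻¹ * u * m).1 = k.1 * u.1 * k.1⁻¹ := by
      show (m⁻¹).1 * u.1 * m.1 = (m⁻¹).1 * u.1 * ((m⁻¹).1)⁻¹
      simp
    rw [e1]
    exact h1
  · right
    intro u hu
    let k' : ↥(chevF4.monomialSubgroup K) := k * (d.twG).nC i.val
    have hk'G : k'.1 ∈ (d.twG).G1 := Subgroup.mul_mem _ hkG ((d.twG).nC_mem i.val h.hj)
    have hpos' : RootF4T.R.N ≤ ((hF.rhoN K k' ⟨chevF4.simple i.val, hF.simple_lt h.hj⟩ : Fin chevF4.nroots) : ℕ) := by
      have e1 : hF.rhoN K (d.twG.nC i.val) ⟨chevF4.simple i.val, hF.simple_lt h.hj⟩ = hF.negF ⟨chevF4.simple i.val, hF.simple_lt h.hj⟩ := by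
        apply Fin.ext
        rw [d.rho_nC i.val h.hj]
        exact h.hs
      have e2 : hF.rhoN K k' ⟨chevF4.simple i.val, hF.simple_lt h.hj⟩ = hF.negF (hF.rhoN K k ⟨chevF4.simple i.val, hF.simple_lt h.hj⟩) := by
        rw [map_mul, Perm.mul_apply, e1]
        obtain ⟨v, hv⟩ := hF.rhoN_spec k
        exact hv.neg_σ _
      rw [e2]
      have e3 := hF.negF_lt_iff (hF.negF (hF.rhoN K k ⟨chevF4.simple i.val, hF.simple_lt h.hj⟩))
      rw [hF.negF_negF] at e3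
      exact e3.1 (not_le.1 hpos)
    have h1 := conj_pos_of d.twG k' hk'G h.hj hpos' (x := u.1) (h.mem_UL.2 (d.mem_Up.1 hu))
    exact h1

/-- All the generators. -/
theorem gen_form (x : ↥(d.twG).G1) : x ∈ Subgroup.closure {y | ∃ i : Fin 2, y ∈ Lb (d.Up (Lp i)) (d.Up (Ln i))} := by
  set X := Subgroup.closure {y | ∃ i : Fin 2, y ∈ Lb (d.Up (Lp i)) (d.Up (Ln i))} with hX
  have key : (d.twG).G1 ≤ X.map (d.twG).G1.subtype := by
    show twistedF4 K e ≤ _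
    apply hF.c.gen_le
    intro w hw
    have hwG : hF.c.wordG w ∈ (d.twG).G1 := hF.wordG_mem_genSubgroup hw
    have hl : ∀ (i : Fin 2), hF.c.wordG w ∈ Full.rootClosure chevF4 K (fun r => r ∈ Lp i) ∨ hF.c.wordG w ∈ Full.rootClosure chevF4 K (fun r => r ∈ Ln i) →
        hF.c.wordG w ∈ X.map (d.twG).G1.subtype := by
      intro i hi
      refine ⟨⟨_, hwG⟩, Subgroup.subset_closure ⟨i, ?_⟩, rfl⟩
      rcases hi with hi | hi
      · exact Subgroup.subset_closure (Or.inl (d.mem_Up.2 hi))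
      · exact Subgroup.subset_closure (Or.inr (d.mem_Up.2 hi))
    rcases hw with ⟨t, rfl | rfl⟩ | ⟨t, u, rfl | rfl⟩
    · refine hl 0 (Or.inl ?_)
      apply hF.c.wordG_mem
      intro p hp
      simp only [f4PairWord, f4p1, f4p4, List.mem_cons, List.not_mem_nil, or_false] at hp
      rcases hp with rfl | rfl
      · exact hF.xG_mem_rootClosure (by simp [Lp]) _
      · exact hF.xG_mem_rootClosure (by simp [Lp]) _
    · refine hl 0 (Or.inr ?_)
      apply hF.c.wordG_mem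
      intro p hp
      simp only [f4PairWord, f4m1, f4m4, List.mem_cons, List.not_mem_nil, or_false] at hp
      rcases hp with rfl | rfl
      · exact hF.xG_mem_rootClosure (by simp [Ln]) _
      · exact hF.xG_mem_rootClosure (by simp [Ln]) _
    · refine hl 1 (Or.inl ?_)
      apply hF.c.wordG_mem
      intro p hp
      simp only [b2ClassWord, f4a, f4b, f4ab, f4aab, List.mem_cons, List.not_mem_nil, or_false] at hp
      rcases hp with rfl | rfl | rfl | rfl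
      all_goals exact hF.xG_mem_rootClosure (by simp [Lp]) _
    · refine hl 1 (Or.inr ?_)
      apply hF.c.wordG_mem
      intro p hp
      simp only [b2ClassWord, f4ma, f4mb, f4mab, f4maab, List.mem_cons, List.not_mem_nil, or_false] at hp
      rcases hp with rfl | rfl | rfl | rfl
      all_goals exact hF.xG_mem_rootClosure (by simp [Ln]) _
  obtain ⟨y, hy, e⟩ := key x.2
  have e2 : y = x := Subtype.ext e
  rw [← e2]
  exact hy

end Dat

end Cfsg.Agent.Lib.Chev.TwF4
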