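import Cfsg.Agent.Lib.Chev.TwF4SchF

/-!
# The Schur multiplier of `²F₄`: the (B,N)-data
-/

set_option autoImplicit false
set_option linter.unusedSectionVars false
set_option linter.unusedVariables false
set_option linter.unnecessarySimpa false

namespace Cfsg.Agent.Lib.Chev.TwF4

open Cfsg.Agent.Lib.Chev Cfsg.Lie Equiv
open Cfsg.Agent.Lib.Chev.Full (cellS)
open Cfsg.Agent.Lib.Chev.TwGen
open Cfsg.Agent.Lib.Chev.TwWF4 (gen)
open Cfsg.Agent.Lib.Chev.SchOdd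
open scoped commutatorElement

/-- Table for normalising the classes above. -/
def nrm0 (r s : ℕ) : Prop := 2 ≤ clid s → s ≠ chevF4.neg r ∧ (s ≠ r → ∀ c ∈ chevF4.commTerms r s, 2 ≤ clid c.1)

/-- Table for normalising the classes below. -/
def nrm1 (r s : ℕ) : Prop := 0 < clid s → clid s ≤ 7 → s ≠ chevF4.neg r ∧ (s ≠ r → ∀ c ∈ chevF4.commTerms r s, 0 < clid c.1 ∧ clid c.1 ≤ 7)

instance (r s : ℕ) : Decidable (nrm0 r s) := by
  unfold nrm0
  infer_instance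

instance (r s : ℕ) : Decidable (nrm1 r s) := by
  unfold nrm1
  infer_instance

theorem nrm0_tab : ∀ r ∈ [14, 23, 24, 33], ∀ s < 48, nrm0 r s := by decide +kernel

theorem nrm1_tab : ∀ r ∈ [17, 19, 20, 22, 25, 27, 28, 30], ∀ s < 48, nrm1 r s := by decide +kernel

section gen

variable {K : Type*} [Field K]

theorem x_norm0 {r : ℕ} (hr : r ∈ [14, 23, 24, 33]) (t : K) : hF.c.xG r t ∈ Subgroup.normalizer (Rt K 2 8 : Set (GL chevF4.Idx K)) := by
  have hr' : r < chevF4.nroots := by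
    revert r
    decide +kernel
  refine hF.xG_mem_normalizer hr' (Qq 2 8) (fun s hs => ?_) (fun s hs hsr c hc => ?_) t
  · have h1 := clid_lt hs.1
    exact ⟨by rw [nr_eq]; exact h1.2, (nrm0_tab r hr s h1.2 hs.2.1).1⟩
  · have h1 := clid_lt hs.1
    have h3 := (nrm0_tab r hr s h1.2 hs.2.1).2 hsr c hc
    exact ⟨by omega, h3, clid_le _⟩

theorem x_norm1 {r : ℕ} (hr : r ∈ [17, 19, 20, 22, 25, 27, 28, 30]) (t : K) : hF.c.xG r t ∈ Subgroup.normalizer (Rt K 1 7 : Set (GL chevF4.Idx K)) := by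
  have hr' : r < chevF4.nroots := by
    revert r
    decide +kernel
  refine hF.xG_mem_normalizer hr' (Qq 1 7) (fun s hs => ?_) (fun s hs hsr c hc => ?_) t
  · have h1 := clid_lt hs.1
    exact ⟨by rw [nr_eq]; exact h1.2, (nrm1_tab r hr s h1.2 hs.1 hs.2.2).1⟩
  · have h1 := clid_lt hs.1
    have h3 := (nrm1_tab r hr s h1.2 hs.1 hs.2.2).2 hsr c hc
    exact ⟨h3.1, by omega, h3.2⟩

theorem rc_norm {Q : ℕ → Prop} {M : Subgroup (GL chevF4.Idx K)} (h : ∀ r, Q r → ∀ t : K, hF.c.xG r t ∈ Subgroup.normalizer (M : Set (GL chevF4.Idx K))) :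
    Full.rootClosure chevF4 K Q ≤ Subgroup.normalizer (M : Set (GL chevF4.Idx K)) := by
  unfold Full.rootClosure
  rw [Subgroup.closure_le]
  rintro g ⟨r, t, hr, hg⟩
  rw [SetLike.mem_coe, hF.c.eq_xG hg]
  exact h r hr t

theorem qq11 {r : ℕ} (hr : Qq 1 1 r) : r ∈ [24, 33] := by
  have h1 := clid_lt hr.1
  have h2 : clid r = 1 := le_antisymm hr.2.2 hr.2.1
  have : ∀ r < 48, clid r = 1 → r ∈ [24, 33] := by decide +kernel
  exact this r h1.2 h2

theorem qq88 {r : ℕ} (hr : Qq 8 8 r) : r ∈ [25, 27, 28, 30] := by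
  have h1 := clid_lt hr.1
  have h2 : clid r = 8 := le_antisymm hr.2.2 hr.2.1
  have : ∀ r < 48, clid r = 8 → r ∈ [25, 27, 28, 30] := by decide +kernel
  exact this r h1.2 h2

/-- Root closures commute. -/
theorem comm_rc {Q Q' : ℕ → Prop} (h : ∀ r, Q r → ∀ s, Q' s → ∀ a b : K, hF.c.xG s b * hF.c.xG r a = hF.c.xG r a * hF.c.xG s b)
    {x y : GL chevF4.Idx K} (hx : x ∈ Full.rootClosure chevF4 K Q) (hy : y ∈ Full.rootClosure chevF4 K Q') : y * x = x * y := by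
  have h1 : ∀ y ∈ Full.rootClosure chevF4 K Q', ∀ r, Q r → ∀ a : K, Commute y (hF.c.xG r a) := by
    intro y hy r hr a
    unfold Full.rootClosure at hy
    induction hy using Subgroup.closure_induction with
    | mem g hg =>
      obtain ⟨s, t, hs, hg⟩ := hg
      rw [hF.c.eq_xG hg]
      exact h r hr s hs a t
    | one => exact Commute.one_left _
    | mul a b _ _ ha hb => exact ha.mul_left hb
    | inv a _ ha => exact ha.inv_left
  have h2 : Commute y x := by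
    unfold Full.rootClosure at hx
    induction hx using Subgroup.closure_induction with
    | mem g hg =>
      obtain ⟨s, t, hs, hg⟩ := hg
      rw [hF.c.eq_xG hg]
      exact h1 y hy s hs t
    | one => exact Commute.one_right _
    | mul a b _ _ ha hb => exact ha.mul_right hb
    | inv a _ ha => exact ha.inv_right
  exact h2

end gen

/-- Table of commuting roots. -/
def cmOk (r s : ℕ) : Prop := r < 48 ∧ s < 48 ∧ s ≠ r ∧ s ≠ chevF4.neg r ∧ ∀ c ∈ chevF4.commTerms r s, (2 : ℤ) ∣ c.2.1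

instance (r s : ℕ) : Decidable (cmOk r s) := by
  unfold cmOk
  infer_instance

theorem cm0 : ∀ r ∈ [14, 23, 24, 33], ∀ s ∈ [39, 45], cmOk r s := by decide +kernel

theorem cm1 : ∀ r ∈ [17, 19, 20, 22, 25, 27, 28, 30], ∀ s ∈ [29, 41, 44, 47], cmOk r s := by decide +kernel

theorem q55 {r : ℕ} (hr : Qq 5 5 r) : r ∈ [39, 45] := by
  have h1 := clid_lt hr.1
  have h2 : clid r = 5 := le_antisymm hr.2.2 hr.2.1
  have : ∀ r < 48, clid r = 5 → r ∈ [39, 45] := by decide +kernel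
  exact this r h1.2 h2

theorem q44 {r : ℕ} (hr : Qq 4 4 r) : r ∈ [29, 41, 44, 47] := by
  have h1 := clid_lt hr.1
  have h2 : clid r = 4 := le_antisymm hr.2.2 hr.2.1
  have : ∀ r < 48, clid r = 4 → r ∈ [29, 41, 44, 47] := by decide +kernel
  exact this r h1.2 h2

variable {K : Type*} [Field K] [Fintype K] {e : ℕ} (d : Dat K e)

namespace Dat

theorem Eo5_inj {a b : K} (h : d.Eo 5 a = d.Eo 5 b) : a = b := by
  apply d.gp_inj
  unfold Eo at h
  exact mul_left_cancel (mul_right_cancel h)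

theorem Ee4_inj {a b a' b' : K} (h : d.Ee 4 a b = d.Ee 4 a' b') : a = a' ∧ b = b' := by
  apply d.gb_inj
  unfold Ee at h
  exact mul_left_cancel (mul_right_cancel h)

/-- The two rank one subgroups meet the torus trivially. -/
theorem T01_form (x : ↥(d.twG).G1) (h0 : x ∈ Lb (d.Up (Lp 0)) (d.Up (Ln 0))) (h1 : x ∈ Lb (d.Up (Lp 1)) (d.Up (Ln 1)))
    (hx : x.1 ∈ chevF4.diagonalSubgroup K) : x = 1 := by
  obtain ⟨p, rfl⟩ := d.exists_gt hx
  have h2 := d.h2
  have c5 : d.chi 5 p = 1 := by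
    have hc : (d.Eo 5 1).1 * (d.gt p).1 = (d.gt p).1 * (d.Eo 5 1).1 := by
      refine comm_rc (K := K) (Q := fun r => r ∈ Lp 0 ∨ r ∈ Ln 0) (Q' := Qq 5 5) (fun r hr s hs a b => ?_) (d.Lb_rc h0) (d.mem_Sg.1 (d.Eo_mem (by decide) 1))
      refine xcomm (cm0 r ?_ s (q55 hs)) h2 a b
      simpa [Lp, Ln, or_comm, or_assoc, or_left_comm] using hr
    have hc' : d.gt p * d.Eo 5 1 * (d.gt p)⁻¹ = d.Eo 5 1 := by
      have : d.gt p * d.Eo 5 1 = d.Eo 5 1 * d.gt p := Subtype.ext hc.symm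
      rw [this]
      group
    rw [d.gt_Eo (by decide), mul_one] at hc'
    exact Units.ext (d.Eo5_inj hc')
  have c4 : d.chi 4 p = 1 := by
    have hc : (d.Ee 4 1 0).1 * (d.gt p).1 = (d.gt p).1 * (d.Ee 4 1 0).1 := by
      refine comm_rc (K := K) (Q := fun r => r ∈ Lp 1 ∨ r ∈ Ln 1) (Q' := Qq 4 4) (fun r hr s hs a b => ?_) (d.Lb_rc h1) (d.mem_Sg.1 (d.Ee_mem (by decide) 1 0))
      refine xcomm (cm1 r ?_ s (q44 hs)) h2 a b
      simpa [Lp, Ln, or_comm, or_assoc, or_left_comm] using hr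
    have hc' : d.gt p * d.Ee 4 1 0 * (d.gt p)⁻¹ = d.Ee 4 1 0 := by
      have : d.gt p * d.Ee 4 1 0 = d.Ee 4 1 0 * d.gt p := Subtype.ext hc.symm
      rw [this]
      group
    rw [d.gt_Ee (by decide), mul_one] at hc'
    exact Units.ext (d.Ee4_inj hc').1
  have hpow : ∀ g : Kˣ, g ^ (2 * (e : ℤ) - 1) = 1 → g = 1 := by
    intro g hg
    have h3 := pow_q d g
    have e1 : (1 : ℤ) = (2 * (e : ℤ) - 1) * (2 * (e : ℤ) + 1) - 2 * (2 * (e : ℤ) ^ 2 - 1) := by ring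
    have h4 : g ^ (1 : ℤ) = 1 := by
      rw [e1, zpow_sub, zpow_mul, hg, one_zpow, mul_comm (2 : ℤ), zpow_mul, h3, one_zpow, inv_one, mul_one]
    simpa using h4
  have hp1 : p.1 = 1 := by
    apply hpow
    have := d.chi_eq (k := 4) (by decide) p
    rw [c4] at this
    simp only [xx, yy, a0, a1, a2, a3] at this
    have e1 : (e : ℤ) * 2 + -1 = 2 * (e : ℤ) - 1 := by ring
    simpa [e1] using this.symm
  have hp2 : p.2 = 1 := by
    apply hpow
    have := d.chi_eq (k := 5) (by decide) p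
    rw [c5] at this
    simp only [xx, yy, a0, a1, a2, a3] at this
    have e1 : (e : ℤ) * 2 + -1 = 2 * (e : ℤ) - 1 := by ring
    simpa [e1] using this.symm
  have hp : p = 1 := Prod.ext hp1 hp2
  rw [hp]
  exact map_one d.ιT

/-- The twisted Weyl group is dihedral. -/
theorem exists_psi : ∃ ψ : DihedralGroup 8 ≃* (d.twG).W1, (ψ (DihedralGroup.sr 0)).1 = hF.rhoN K ((d.twG).nC 0) ∧
    (ψ (DihedralGroup.sr 1)).1 = hF.rhoN K ((d.twG).nC 1) := by
  classical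
  have hS : hF.rhoN K ((d.twG).nC 0) ∈ (d.twG).W1 := Subgroup.subset_closure ⟨0, by decide, rfl⟩
  have hT : hF.rhoN K ((d.twG).nC 1) ∈ (d.twG).W1 := Subgroup.subset_closure ⟨1, by decide, rfl⟩
  let S : (d.twG).W1 := ⟨_, hS⟩
  let Tt : (d.twG).W1 := ⟨_, hT⟩
  have hSS : S * S = 1 := Subtype.ext (d.rho_nC_sq (i := 0) (by decide))
  have hTT : Tt * Tt = 1 := Subtype.ext (d.rho_nC_sq (i := 1) (by decide))
  have hord : (S * Tt) ^ 8 = 1 := by
    apply Subtype.ext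
    show (hF.rhoN K ((d.twG).nC 0) * hF.rhoN K ((d.twG).nC 1)) ^ 8 = 1
    have e1 : hF.rhoN K ((d.twG).nC 0) * hF.rhoN K ((d.twG).nC 1) = (Lh.map hF.wPt).prod := by
      show hF.rhoN K ((gen 0).map (hF.nNt K)).prod * hF.rhoN K ((gen 1).map (hF.nNt K)).prod = _
      rw [hF.rhoN_prod_nNt, hF.rhoN_prod_nNt]
      simp [gen, Lh, mul_assoc]
    have e2 : ∀ L : List ℕ, (L.map hF.wPt).prod * (L.map hF.wPt).prod = ((L ++ L).map hF.wPt).prod := by
      intro L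
      rw [List.map_append, List.prod_append]
    have e3 : ∀ x : Perm (Fin chevF4.nroots), x ^ 8 = ((x * x) * (x * x)) * ((x * x) * (x * x)) := by
      intro x
      simp only [pow_succ, pow_zero, one_mul, mul_assoc]
    rw [e1, e3, e2, e2, e2]
    apply Equiv.ext
    intro r
    apply Fin.ext
    rw [hF.prod_wPt_apply Lh_lt]
    exact Lh_ord r r.2
  have hsa : S * (S * Tt) * S = (S * Tt)⁻¹ := by
    have e1 : (S * Tt)⁻¹ = Tt⁻¹ * S⁻¹ := mul_inv_rev _ _
    have e2 : S⁻¹ = S := inv_eq_of_mul_eq_one_left hSS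
    have e3 : Tt⁻¹ = Tt := inv_eq_of_mul_eq_one_left hTT
    rw [e1, e2, e3, ← mul_assoc, hSS, one_mul]
  obtain ⟨ψ, h1, h2⟩ := exists_dihedral_hom S (S * Tt) hSS hord hsa
  have hs : ψ (DihedralGroup.sr 0) = S := by
    rw [h2]
    simp
  have ht : ψ (DihedralGroup.sr 1) = Tt := by
    rw [h2]
    have : (1 : ZMod 8).val = 1 := rfl
    rw [this, pow_one, ← mul_assoc, hSS, one_mul]
  have hsurj : Function.Surjective ψ := by
    rw [← MonoidHom.range_eq_top, eq_top_iff]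
    rintro ⟨w, hw⟩ -
    have key : ∀ w (hw : w ∈ (d.twG).W1), (⟨w, hw⟩ : (d.twG).W1) ∈ ψ.range := by
      intro w hw
      unfold TwG.W1 at hw
      induction hw using Subgroup.closure_induction with
      | mem x hx =>
        obtain ⟨i, hi, rfl⟩ := hx
        have hi' : i < 4 := hi
        have e0 : (d.twG).nC 3 = (d.twG).nC 0 := rfl
        have e1 : (d.twG).nC 2 = (d.twG).nC 1 := rfl
        interval_cases i
        · exact ⟨_, hs⟩
        · exact ⟨_, ht⟩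
        · refine ⟨DihedralGroup.sr 1, ?_⟩
          rw [ht]
          exact Subtype.ext (congrArg (hF.rhoN K) e1.symm)
        · refine ⟨DihedralGroup.sr 0, ?_⟩
          rw [hs]
          exact Subtype.ext (congrArg (hF.rhoN K) e0.symm)
      | one => exact Subgroup.one_mem _
      | mul a b ha' hb' ha hb => exact Subgroup.mul_mem _ ha hb
      | inv a ha' ha => exact Subgroup.inv_mem _ ha
    exact key w hw
  have hcard : Nat.card (DihedralGroup 8) = Nat.card (d.twG).W1 := by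
    rw [DihedralGroup.nat_card, d.card_W1]
  have hbij : Function.Bijective ψ :=
    ⟨((Nat.bijective_iff_surjective_and_card ψ).2 ⟨hsurj, hcard⟩).1, hsurj⟩
  refine ⟨MulEquiv.ofBijective ψ hbij, ?_, ?_⟩
  · show (ψ (DihedralGroup.sr 0)).1 = _
    rw [hs]
  · show (ψ (DihedralGroup.sr 1)).1 = _
    rw [ht]

/-- The map of `N` onto the twisted Weyl group. -/
theorem exists_phi : ∃ φ : ↥((chevF4.monomialSubgroup K).subgroupOf (d.twG).G1) →* DihedralGroup 8,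
    (∀ x (hx : x ∈ (chevF4.monomialSubgroup K).subgroupOf (d.twG).G1), φ ⟨x, hx⟩ = 1 ↔ x ∈ (chevF4.diagonalSubgroup K).subgroupOf (d.twG).G1) ∧
    (∀ h, φ ⟨TwGen.sE d.twG (rkd 0).hj, h⟩ = DihedralGroup.sr 0) ∧ (∀ h, φ ⟨TwGen.sE d.twG (rkd 1).hj, h⟩ = DihedralGroup.sr 1) := by
  obtain ⟨ψ, h0, h1⟩ := d.exists_psi
  let r₀ : ↥((chevF4.monomialSubgroup K).subgroupOf (d.twG).G1) →* ↥(chevF4.monomialSubgroup K) :=
    { toFun := fun x => ⟨x.1.1, Subgroup.mem_subgroupOf.1 x.2⟩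
      map_one' := rfl
      map_mul' := fun _ _ => rfl }
  have hmem : ∀ x, hF.rhoN K (r₀ x) ∈ (d.twG).W1 := by
    intro x
    exact (d.twG).mem_W1_of_comm _ _ (hF.rhoN_mem_Wk _) ((d.twG).rho_fix (r₀ x) x.1.2) rfl
  let r₁ : ↥((chevF4.monomialSubgroup K).subgroupOf (d.twG).G1) →* (d.twG).W1 :=
    { toFun := fun x => ⟨hF.rhoN K (r₀ x), hmem x⟩
      map_one' := by
        apply Subtype.ext
        show hF.rhoN K (r₀ 1) = 1
        rw [map_one, map_one]
      map_mul' := fun a b => by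
        apply Subtype.ext
        show hF.rhoN K (r₀ (a * b)) = hF.rhoN K (r₀ a) * hF.rhoN K (r₀ b)
        rw [map_mul, map_mul] }
  refine ⟨ψ.symm.toMonoidHom.comp r₁, ?_, ?_, ?_⟩
  · intro x hx
    rw [Subgroup.mem_subgroupOf]
    constructor
    · intro h
      have h1 : r₁ ⟨x, hx⟩ = 1 := by
        have h2 : ψ.symm (r₁ ⟨x, hx⟩) = 1 := h
        simpa using h2
      have h2 : hF.rhoN K (r₀ ⟨x, hx⟩) = 1 := congrArg Subtype.val h1
      exact hF.mem_diagonal_of_rhoN_eq_one h2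
    · intro h
      have h2 : r₁ ⟨x, hx⟩ = 1 := Subtype.ext (hF.rhoN_of_mem_diagonal (r₀ ⟨x, hx⟩) h)
      show ψ.symm (r₁ ⟨x, hx⟩) = 1
      rw [h2, map_one]
  · intro h
    show ψ.symm (r₁ _) = _
    rw [MulEquiv.symm_apply_eq]
    exact Subtype.ext h0.symm
  · intro h
    show ψ.symm (r₁ _) = _
    rw [MulEquiv.symm_apply_eq]
    exact Subtype.ext h1.symm

end Dat

theorem mm_app (L L' : List ℕ) : (mm K (L ++ L')) = mm K L * mm K L' := by
  unfold mm
  rw [List.map_append, List.prod_append]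

/-- The long word. -/
def Lw : List ℕ := [1, 2, 1, 2] ++ [0, 3] ++ [1, 2, 1, 2] ++ [0, 3] ++ [1, 2, 1, 2] ++ [0, 3] ++ [1, 2, 1, 2]

theorem Lw_lt : ∀ i ∈ Lw, i < chevF4.rank := by decide +kernel

theorem Lw_p : ∀ r ∈ [24, 33], wAct TabF4.X Lw r ∈ [24, 33] := by decide +kernel

theorem Lw_n : ∀ r ∈ [14, 23], wAct TabF4.X Lw r ∈ [14, 23] := by decide +kernel

namespace Dat

/-- The conjugation by the long word. -/
theorem w_conj {L : List ℕ} (hL : ∀ r ∈ L, r < chevF4.nroots) (hL' : ∀ r ∈ L, wAct TabF4.X Lw r ∈ L) (u : ↥(d.twG).G1) (hu : u ∈ d.Up L) :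
    (TwGen.sE d.twG (rkd 1).hj * TwGen.sE d.twG (rkd 0).hj * TwGen.sE d.twG (rkd 1).hj * TwGen.sE d.twG (rkd 0).hj *
      TwGen.sE d.twG (rkd 1).hj * TwGen.sE d.twG (rkd 0).hj * TwGen.sE d.twG (rkd 1).hj) * u *
    (TwGen.sE d.twG (rkd 1).hj * TwGen.sE d.twG (rkd 0).hj * TwGen.sE d.twG (rkd 1).hj * TwGen.sE d.twG (rkd 0).hj *
      TwGen.sE d.twG (rkd 1).hj * TwGen.sE d.twG (rkd 0).hj * TwGen.sE d.twG (rkd 1).hj)⁻¹ ∈ d.Up L := by
  apply d.mem_Up.2
  have h := conj_rootClosure hF (F := K) (Q := fun r => r ∈ L) (Q' := fun r => r ∈ L) hL (s := mm K Lw)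
    (fun r hr hq => by
      rw [rho_mm Lw_lt]
      exact hL' r hq) (d.mem_Up.1 hu)
  have e1 : (TwGen.sE d.twG (rkd 1).hj * TwGen.sE d.twG (rkd 0).hj * TwGen.sE d.twG (rkd 1).hj * TwGen.sE d.twG (rkd 0).hj *
      TwGen.sE d.twG (rkd 1).hj * TwGen.sE d.twG (rkd 0).hj * TwGen.sE d.twG (rkd 1).hj).1 = (mm K Lw).1 := by
    simp only [Lw, mm_app]
    rfl
  simp only [Subgroup.coe_mul, Subgroup.coe_inv] at e1 ⊢
  rw [e1]
  exact h

end Dat

/-- The elements of `U` have two-power order. -/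
theorem T2_U {m : ℕ} (hm : 1 ≤ m) (hK : Fintype.card K = 2 ^ (2 * m + 1)) (d : Dat K (2 ^ m)) {x : ↥(d.twG).G1} (hx : x.1 ∈ chevF4.posUnipotent K) : T2 x := by
  obtain ⟨P, hP⟩ := exists_U1_sylow hm hK d
  haveI : Fact (Nat.Prime 2) := ⟨Nat.prime_two⟩
  have h1 : x ∈ (P : Subgroup ↥(d.twG).G1) := (hP x).2 hx
  obtain ⟨k, hk⟩ := P.isPGroup' ⟨x, h1⟩
  exact ⟨k, congrArg Subtype.val hk⟩

/-- The (B,N)-data. -/
theorem exists_BD {m : ℕ} (hm : 1 ≤ m) (hK : Fintype.card K = 2 ^ (2 * m + 1)) (d : Dat K (2 ^ m)) :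
    ∃ φ : ↥((chevF4.monomialSubgroup K).subgroupOf (d.twG).G1) →* DihedralGroup 8,
      BD ((chevF4.posUnipotent K).subgroupOf (d.twG).G1) ((chevF4.diagonalSubgroup K).subgroupOf (d.twG).G1)
        ((chevF4.monomialSubgroup K).subgroupOf (d.twG).G1) (fun i => d.Up (Lp i)) (fun i => d.Up (Ln i)) ![d.Sg 2 8, d.Sg 1 7]
        (fun i => TwGen.sE d.twG (rkd i).hj) φ := by
  obtain ⟨φ, hφ, hφ0, hφ1⟩ := d.exists_phi
  refine ⟨φ, ?_⟩
  constructor
  case hU =>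
    intro x hx
    exact T2_U hm hK d (Subgroup.mem_subgroupOf.1 hx)
  case hV =>
    intro i x hx
    have h1 : x.1 ∈ chevF4.negUnipotent K := rc_le_V (rkd i).hlt (d.mem_Up.1 hx)
    have h2 : (d.N₀ * x * (d.N₀)⁻¹).1 ∈ chevF4.posUnipotent K := (d.N₀_swap.2 _).1 h1
    obtain ⟨k, hk⟩ := T2_U hm hK d h2
    refine ⟨k, ?_⟩
    rw [conj_pow] at hk
    have h3 : d.N₀ * (x ^ (2 ^ k) * (d.N₀)⁻¹) = 1 := by
      rw [← hk, mul_assoc]
    have h4 := (mul_eq_one_iff_eq_inv'.1 h3)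
    have h5 : x ^ 2 ^ k = 1 := by
      have : x ^ 2 ^ k = (d.N₀)⁻¹ * (d.N₀ * (x ^ (2 ^ k) * (d.N₀)⁻¹)) * d.N₀ := by group
      rw [this, h3]
      group
    exact h5
  case Ui_le =>
    intro i x hx
    exact Subgroup.mem_subgroupOf.2 (d.Up_le_U (rkd i) hx)
  case Qi_le =>
    refine Fin.forall_fin_two.2 ⟨?_, ?_⟩
    · intro x hx
      exact Subgroup.mem_subgroupOf.2 (Rt_le_U (d.mem_Sg.1 hx))
    · intro x hx
      exact Subgroup.mem_subgroupOf.2 (Rt_le_U (d.mem_Sg.1 hx))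
  case fac =>
    refine Fin.forall_fin_two.2 ⟨?_, ?_⟩
    · intro u hu
      obtain ⟨a, ha, b, hb, e⟩ := d.hL 1 8 le_rfl (by norm_num) u (d.mem_Sg.2 (mem_U_Rt (Subgroup.mem_subgroupOf.1 hu)))
      exact ⟨a, d.mem_Up.2 (rc_mono (fun r hr => qq11 hr) (d.mem_Sg.1 ha)), b, hb, e⟩
    · intro u hu
      obtain ⟨a, ha, b, hb, e⟩ := factor_right (K := K) (Q := Qq 1 8) (Q₁ := Qq 1 7) (Q₂ := Qq 8 8)
        (fun r hr => by
          by_cases h : clid r ≤ 7
          · exact Or.inl ⟨hr.1, hr.2.1, h⟩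
          · exact Or.inr ⟨hr.1, by omega, hr.2.2⟩)
        (Rt_le_norm (fun c _ h3 h4 => by omega)) (mem_U_Rt (Subgroup.inv_mem _ (Subgroup.mem_subgroupOf.1 hu)))
      obtain ⟨a', ha', b', hb', e'⟩ := d.Sg_factor (x := u⁻¹) (m := 7) (by norm_num) ha hb e
      refine ⟨b'⁻¹, Subgroup.inv_mem _ (d.mem_Up.2 (rc_mono (fun r hr => qq88 hr) (d.mem_Sg.1 hb'))), a'⁻¹, Subgroup.inv_mem _ ha', ?_⟩
      rw [← mul_inv_rev, ← e', inv_inv]
  case nrmQ =>
    refine Fin.forall_fin_two.2 ⟨?_, ?_⟩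
    · intro l hl q hq
      have h1 : l.1 ∈ Subgroup.normalizer (Rt K 2 8 : Set (GL chevF4.Idx K)) := by
        refine rc_norm (Q := fun r => r ∈ Lp 0 ∨ r ∈ Ln 0) (fun r hr t => x_norm0 ?_ t) (d.Lb_rc hl)
        simpa [Lp, Ln, or_comm, or_assoc, or_left_comm] using hr
      exact d.mem_Sg.2 ((Subgroup.mem_normalizer_iff.1 h1 _).1 (d.mem_Sg.1 hq))
    · intro l hl q hq
      have h1 : l.1 ∈ Subgroup.normalizer (Rt K 1 7 : Set (GL chevF4.Idx K)) := by
        refine rc_norm (Q := fun r => r ∈ Lp 1 ∨ r ∈ Ln 1) (fun r hr t => x_norm1 ?_ t) (d.Lb_rc hl)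
        simpa [Lp, Ln, or_comm, or_assoc, or_left_comm] using hr
      exact d.mem_Sg.2 ((Subgroup.mem_normalizer_iff.1 h1 _).1 (d.mem_Sg.1 hq))
  case rk1 =>
    intro i x hx
    obtain ⟨a, ha, m, hm', b, hb, e⟩ := d.rk1_form i x hx
    exact ⟨a, ha, m, Subgroup.mem_subgroupOf.2 hm', b, hb, e⟩
  case nN =>
    intro i
    exact Subgroup.mem_subgroupOf.2 ((d.twG).nC i.val).2
  case nL =>
    exact d.nL
  case hNL =>
    intro i x hx hxN
    rcases d.hNL_form i x hx (Subgroup.mem_subgroupOf.1 hxN) with h | h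
    · exact Or.inl (Subgroup.mem_subgroupOf.2 h)
    · exact Or.inr (Subgroup.mem_subgroupOf.2 h)
  case dich =>
    intro i m hm'
    rcases d.dich_form i m (Subgroup.mem_subgroupOf.1 hm') with h | h
    · exact Or.inl (fun u hu => Subgroup.mem_subgroupOf.2 (h u hu))
    · exact Or.inr (fun u hu => Subgroup.mem_subgroupOf.2 (h u hu))
  case gen =>
    exact d.gen_form
  case UN =>
    intro x hx hxN
    have h1 : x.1 ∈ chevF4.posUnipotent K ⊓ chevF4.monomialSubgroup K := ⟨Subgroup.mem_subgroupOf.1 hx, Subgroup.mem_subgroupOf.1 hxN⟩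
    rw [hF.U_inf_N] at h1
    exact Subtype.ext h1
  case HN =>
    intro x hx
    exact Subgroup.mem_subgroupOf.2 (hF.c.diagonal_le_monomial (Subgroup.mem_subgroupOf.1 hx))
  case Hcomm =>
    intro a ha b hb
    exact Subtype.ext (diag_comm hF (Subgroup.mem_subgroupOf.1 ha) (Subgroup.mem_subgroupOf.1 hb))
  case NH =>
    intro m hm' h hh
    exact Subgroup.mem_subgroupOf.2 ((Subgroup.mem_normalizer_iff.1 (hF.monomial_le_normalizer (Subgroup.mem_subgroupOf.1 hm')) _).1 (Subgroup.mem_subgroupOf.1 hh))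
  case HU =>
    intro i h hh u hu
    obtain ⟨c, hc⟩ := hF.mem_diagonal_iff.1 (Subgroup.mem_subgroupOf.1 hh)
    refine d.mem_Up.2 ?_
    show h.1 * u.1 * h.1⁻¹ ∈ _
    rw [hc]
    exact tor_conj_rc c (rkd i).hplt (d.mem_Up.1 hu)
  case HV =>
    intro i h hh u hu
    obtain ⟨c, hc⟩ := hF.mem_diagonal_iff.1 (Subgroup.mem_subgroupOf.1 hh)
    refine d.mem_Up.2 ?_
    show h.1 * u.1 * h.1⁻¹ ∈ _
    rw [hc]
    refine tor_conj_rc c (fun r hr => ?_) (d.mem_Up.1 hu)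
    have := (rkd i).hlt r hr
    rw [nr_eq]
    omega
  case T01 =>
    intro x h0 h1 hx
    exact d.T01_form x h0 h1 (Subgroup.mem_subgroupOf.1 hx)
  case φker =>
    exact hφ
  case φ0 =>
    exact hφ0
  case φ1 =>
    exact hφ1
  case wU =>
    exact d.w_conj (by decide) Lw_p
  case wV =>
    exact d.w_conj (by decide) Lw_n

end Cfsg.Agent.Lib.Chev.TwF4
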