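import Cfsg.Agent.Lib.Chev.TwF4SchG

/-!
# The Schur multiplier of `²F₄`: blocks of matrices
-/

set_option autoImplicit false
set_option linter.unusedSectionVars false
set_option linter.unusedVariables false
set_option linter.unnecessarySimpa false

namespace Cfsg.Agent.Lib.Chev.Blk

variable {ι : Type*} [Fintype ι] [DecidableEq ι] {K : Type*} [Field K] {n : ℕ}

/-- The columns of `B` are supported in `B`. -/
def Stb (B : Fin n → ι) (g : Matrix ι ι K) : Prop := ∀ v, v ∉ Set.range B → ∀ j, g v (B j) = 0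

/-- The block of a matrix. -/
def bk (B : Fin n → ι) (g : Matrix ι ι K) : Matrix (Fin n) (Fin n) K := fun i j => g (B i) (B j)

variable {B : Fin n → ι}

theorem Stb_one (hB : Function.Injective B) : Stb B (1 : Matrix ι ι K) := by
  intro v hv j
  rw [Matrix.one_apply_ne]
  rintro rfl
  exact hv ⟨j, rfl⟩

theorem sum_col (hB : Function.Injective B) {g h : Matrix ι ι K} (hh : Stb B h) (v : ι) (j : Fin n) :
    (g * h) v (B j) = ∑ k : Fin n, g v (B k) * h (B k) (B j) := by
  rw [Matrix.mul_apply]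
  symm
  apply Fintype.sum_of_injective B hB
  · intro w hw
    rw [hh w hw j, mul_zero]
  · intro k
    rfl

theorem Stb_mul (hB : Function.Injective B) {g h : Matrix ι ι K} (hg : Stb B g) (hh : Stb B h) : Stb B (g * h) := by
  intro v hv j
  rw [sum_col hB hh]
  apply Finset.sum_eq_zero
  intro k _
  rw [hg v hv k, zero_mul]

theorem bk_one (hB : Function.Injective B) : bk B (1 : Matrix ι ι K) = 1 := by
  ext i j
  simp only [bk, Matrix.one_apply]
  by_cases h : i = j
  · simp [h]
  · have : B i ≠ B j := fun e => h (hB e)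
    simp [h, this]

theorem bk_mul (hB : Function.Injective B) {g h : Matrix ι ι K} (hh : Stb B h) : bk B (g * h) = bk B g * bk B h := by
  ext i j
  show (g * h) (B i) (B j) = _
  rw [sum_col hB hh, Matrix.mul_apply]
  rfl

/-- The subgroup of stable matrices. -/
def StS (hB : Function.Injective B) : Subgroup (GL ι K) where
  carrier := {g | Stb B g.1 ∧ Stb B (g⁻¹ : GL ι K).1}
  mul_mem' := by
    rintro a b ⟨h1, h2⟩ ⟨h3, h4⟩
    refine ⟨Stb_mul hB h1 h3, ?_⟩
    rw [mul_inv_rev]
    exact Stb_mul hB h4 h2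
  one_mem' := by
    refine ⟨Stb_one hB, ?_⟩
    rw [inv_one]
    exact Stb_one hB
  inv_mem' := by
    rintro a ⟨h1, h2⟩
    refine ⟨h2, ?_⟩
    rw [inv_inv]
    exact h1

theorem bk_inv_mul (hB : Function.Injective B) {g : GL ι K} (hg : Stb B g.1) : bk B (g⁻¹ : GL ι K).1 * bk B g.1 = 1 := by
  rw [← bk_mul hB hg, ← Units.val_mul, inv_mul_cancel, Units.val_one, bk_one hB]

variable {X : Type*} [Group X] (c : X →* Matrix (Fin n) (Fin n) K)

/-- The subgroup of stable matrices whose block lies in `X`. -/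
def StX (hB : Function.Injective B) : Subgroup (GL ι K) where
  carrier := {g | g ∈ StS (K := K) hB ∧ ∃ y, c y = bk B g.1}
  mul_mem' := by
    rintro a b ⟨h1, y, hy⟩ ⟨h2, y', hy'⟩
    refine ⟨Subgroup.mul_mem _ h1 h2, y * y', ?_⟩
    rw [map_mul, hy, hy', Units.val_mul, bk_mul hB h2.1]
  one_mem' := ⟨Subgroup.one_mem _, 1, by rw [map_one, Units.val_one, bk_one hB]⟩
  inv_mem' := by
    rintro a ⟨h1, y, hy⟩
    refine ⟨Subgroup.inv_mem _ h1, y⁻¹, ?_⟩
    have e1 : bk B (a⁻¹ : GL ι K).1 * bk B a.1 = 1 := bk_inv_mul hB h1.1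
    have e2 : c y * c y⁻¹ = 1 := by rw [← map_mul, mul_inv_cancel, map_one]
    calc c y⁻¹ = (bk B (a⁻¹ : GL ι K).1 * bk B a.1) * c y⁻¹ := by rw [e1, one_mul]
      _ = bk B (a⁻¹ : GL ι K).1 * (c y * c y⁻¹) := by rw [hy, mul_assoc]
      _ = _ := by rw [e2, mul_one]

theorem mem_StX (hB : Function.Injective B) {g : GL ι K} : g ∈ StX c hB ↔ g ∈ StS (K := K) hB ∧ ∃ y, c y = bk B g.1 := Iff.rfl

/-- The map of the subgroup of stable matrices onto `X`. -/
noncomputable def blkHom (hB : Function.Injective B) (hc : Function.Injective c) : ↥(StX c hB) →* X where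
  toFun x := Classical.choose x.2.2
  map_one' := by
    apply hc
    rw [Classical.choose_spec (1 : ↥(StX c hB)).2.2, map_one]
    show bk B (1 : GL ι K).1 = 1
    rw [Units.val_one, bk_one hB]
  map_mul' a b := by
    apply hc
    rw [Classical.choose_spec (a * b).2.2, map_mul, Classical.choose_spec a.2.2, Classical.choose_spec b.2.2]
    show bk B (a.1 * b.1).1 = _
    rw [Units.val_mul, bk_mul hB b.2.1.1]

theorem blkHom_spec (hB : Function.Injective B) (hc : Function.Injective c) (x : ↥(StX c hB)) :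
    c (blkHom c hB hc x) = bk B x.1.1 := Classical.choose_spec x.2.2

/-- Upper unitriangular matrices. -/
def UT (M : Matrix (Fin n) (Fin n) K) : Prop := (∀ i j, j < i → M i j = 0) ∧ ∀ i, M i i = 1

theorem UT_mul {M N : Matrix (Fin n) (Fin n) K} (hM : UT M) (hN : UT N) : UT (M * N) := by
  constructor
  · intro i j hij
    rw [Matrix.mul_apply]
    apply Finset.sum_eq_zero
    intro k _
    by_cases h : k < i
    · rw [hM.1 i k h, zero_mul]
    · rw [hN.1 k j (by
        rcases lt_or_ge j k with h2 | h2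
        · exact h2
        · exact absurd (lt_of_le_of_lt h2 hij) h), mul_zero]
  · intro i
    rw [Matrix.mul_apply, Finset.sum_eq_single i]
    · rw [hM.2, hN.2, one_mul]
    · intro k _ hk
      rcases lt_or_gt_of_ne hk with h | h
      · rw [hM.1 i k h, zero_mul]
      · rw [hN.1 k i h, mul_zero]
    · simp

/-- The corner entry of a product of triangular matrices. -/
theorem corner {A V C : Matrix (Fin n) (Fin n) K} (hA : UT A) (hC : UT C) {l z : Fin n} (hl : ∀ k, k ≤ l) (hz : ∀ k, z ≤ k) :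
    (A * V * C) l z = V l z := by
  have h1 : (A * V * C) l z = (A * V) l z := by
    rw [Matrix.mul_apply, Finset.sum_eq_single z]
    · rw [hC.2, mul_one]
    · intro k _ hk
      rw [hC.1 k z (lt_of_le_of_ne (hz k) (Ne.symm hk)), mul_zero]
    · simp
  rw [h1, Matrix.mul_apply, Finset.sum_eq_single l]
  · rw [hA.2, one_mul]
  · intro k _ hk
    rw [hA.1 l k (lt_of_le_of_ne (hl k) hk), zero_mul]
  · simp

end Cfsg.Agent.Lib.Chev.Blk
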