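import Cfsg.Agent.Lib.Chev.TwF4SchH

/-!
# The Schur multiplier of `²F₄`: embedding the rank one subgroups
-/

set_option autoImplicit false
set_option linter.unusedSectionVars false
set_option linter.unusedVariables false
set_option linter.unnecessarySimpa false

namespace Cfsg.Agent.Lib.Chev.TwF4

open Cfsg.Agent.Lib.Chev Cfsg.Lie Equiv
open Cfsg.Agent.Lib.Chev.Full (cellS)
open Cfsg.Agent.Lib.Chev.TwGen
open Cfsg.Agent.Lib.Chev.TwWF4 (gen)
open Cfsg.Agent.Lib.Chev.SchOdd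
open Cfsg.Agent.Lib.Chev.Blk

section diag

variable {K : Type*} [Field K]

theorem diag_off {g : GL chevF4.Idx K} (hg : g ∈ chevF4.diagonalSubgroup K) {a b : chevF4.Idx} (hab : a ≠ b) : g.1 a b = 0 := by
  obtain ⟨c, rfl⟩ := hF.mem_diagonal_iff.1 hg
  rw [hF.tor_eq, coe_diagG, Matrix.diagonal_apply_ne _ hab]

theorem diag_ne {g : GL chevF4.Idx K} (hg : g ∈ chevF4.diagonalSubgroup K) (a : chevF4.Idx) : g.1 a a ≠ 0 := by
  obtain ⟨c, rfl⟩ := hF.mem_diagonal_iff.1 hg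
  rw [hF.tor_eq, coe_diagG, Matrix.diagonal_apply_eq]
  cases a with
  | inl i => simp
  | inr s => simpa using Units.ne_zero _

end diag

variable {K : Type*} [Field K] [Fintype K] {e : ℕ}

/-- The data of an embedding of a rank one subgroup. -/
structure BlkD (d : Dat K e) (i : Fin 2) {X : Type*} [Group X] {n : ℕ} (B : Fin n → chevF4.Idx) (c : X →* Matrix (Fin n) (Fin n) K)
    (w₁ v w₃ : ↥(d.twG).G1) (l z : Fin n) : Prop where
  hB : Function.Injective B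
  hc : Function.Injective c
  hSt : ∀ r, (r ∈ Lp i ∨ r ∈ Ln i) → ∀ t : K, Stb B (hF.c.xG r t).1
  hUy : ∀ u ∈ d.Up (Lp i), ∃ y, c y = bk B u.1.1
  hUT : ∀ u ∈ d.Up (Lp i), UT (bk B u.1.1)
  hUinj : ∀ u ∈ d.Up (Lp i), bk B u.1.1 = 1 → u = 1
  hw₁ : w₁ ∈ d.Up (Lp i)
  hv : v ∈ d.Up (Ln i)
  hw₃ : w₃ ∈ d.Up (Lp i)
  hn : TwGen.sE d.twG (rkd i).hj = w₁ * v * w₃
  hVy : ∃ y, c y = bk B v.1.1
  hV0 : bk B v.1.1 l z ≠ 0
  hl : ∀ k, k ≤ l
  hz : ∀ k, z ≤ k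
  hlz : z < l
  hT : ∀ p, d.gt p ∈ Lb (d.Up (Lp i)) (d.Up (Ln i)) → (∀ u ∈ d.Up (Lp i), d.gt p * u * (d.gt p)⁻¹ = u) → p = 1

namespace BlkD

variable {d : Dat K e} {i : Fin 2} {X : Type*} [Group X] {n : ℕ} {B : Fin n → chevF4.Idx} {c : X →* Matrix (Fin n) (Fin n) K}
  {w₁ v w₃ : ↥(d.twG).G1} {l z : Fin n} (D : BlkD d i B c w₁ v w₃ l z)

include D

theorem stab_rc {g : GL chevF4.Idx K} (hg : g ∈ Full.rootClosure chevF4 K (fun r => r ∈ Lp i ∨ r ∈ Ln i)) : g ∈ StS (K := K) D.hB := by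
  have h1 : Full.rootClosure chevF4 K (fun r => r ∈ Lp i ∨ r ∈ Ln i) ≤ StS (K := K) D.hB := by
    unfold Full.rootClosure
    rw [Subgroup.closure_le]
    rintro g ⟨r, t, hr, hg⟩
    rw [SetLike.mem_coe, hF.c.eq_xG hg]
    refine ⟨D.hSt r hr t, ?_⟩
    rw [hF.c.xG_inv]
    exact D.hSt r hr (-t)
  exact h1 hg

theorem stab_Lb {x : ↥(d.twG).G1} (hx : x ∈ Lb (d.Up (Lp i)) (d.Up (Ln i))) : x.1 ∈ StS (K := K) D.hB :=
  D.stab_rc (d.Lb_rc hx)

theorem U_StX {u : ↥(d.twG).G1} (hu : u ∈ d.Up (Lp i)) : u.1 ∈ StX c D.hB :=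
  ⟨D.stab_rc (rc_mono (fun r hr => Or.inl hr) (d.mem_Up.1 hu)), D.hUy u hu⟩

theorem n_StX : (TwGen.sE d.twG (rkd i).hj).1 ∈ StX c D.hB := by
  rw [D.hn]
  refine Subgroup.mul_mem _ (Subgroup.mul_mem _ (D.U_StX D.hw₁) ⟨D.stab_rc (rc_mono (fun r hr => Or.inr hr) (d.mem_Up.1 D.hv)), D.hVy⟩) (D.U_StX D.hw₃)

theorem V_StX {x : ↥(d.twG).G1} (hx : x ∈ d.Up (Ln i)) : x.1 ∈ StX c D.hB := by
  have h := rkd i
  have hy := conj_rootClosure hF (F := K) (s := ((d.twG).nC i.val)⁻¹) (Q := fun r => r ∈ Ln i) (Q' := fun r => r ∈ Lp i) (fun r hr => by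
    have := h.hlt r hr
    rw [nr_eq]
    omega) (fun r hr hL => by
    rw [map_inv, d.rho_nC_inv h.hj, d.rho_nC i.val h.hj]
    exact h.hw r hL) (d.mem_Up.1 hx)
  set n := TwGen.sE d.twG h.hj with hn
  have hy₁ : n⁻¹ * x * n ∈ d.Up (Lp i) := by
    apply d.mem_Up.2
    have e1 : (n⁻¹ * x * n).1 = (((d.twG).nC i.val)⁻¹ : ↥(chevF4.monomialSubgroup K)).1 * x.1 * (((d.twG).nC i.val)⁻¹ : ↥(chevF4.monomialSubgroup K)).1⁻¹ := by
      simp [hn, TwGen.sE]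
    rw [e1]
    exact hy
  have e2 : x.1 = n.1 * (n⁻¹ * x * n).1 * n.1⁻¹ := by
    simp only [Subgroup.coe_mul, Subgroup.coe_inv]
    group
  rw [e2]
  exact Subgroup.mul_mem _ (Subgroup.mul_mem _ D.n_StX (D.U_StX hy₁)) (Subgroup.inv_mem _ D.n_StX)

theorem Lb_StX {x : ↥(d.twG).G1} (hx : x ∈ Lb (d.Up (Lp i)) (d.Up (Ln i))) : x.1 ∈ StX c D.hB := by
  unfold Lb at hx
  induction hx using Subgroup.closure_induction with
  | mem y hy =>
    rcases hy with hy | hy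
    · exact D.U_StX hy
    · exact D.V_StX hy
  | one => exact Subgroup.one_mem _
  | mul a b _ _ ha hb => exact Subgroup.mul_mem _ ha hb
  | inv a _ ha => exact Subgroup.inv_mem _ ha

theorem bk_mul' {g h : ↥(d.twG).G1} (hh : h ∈ Lb (d.Up (Lp i)) (d.Up (Ln i))) : bk B (g * h).1.1 = bk B g.1.1 * bk B h.1.1 := by
  show bk B (g.1 * h.1).1 = _
  rw [Units.val_mul, bk_mul D.hB (D.stab_Lb hh).1]

theorem bk_one' : bk B (1 : ↥(d.twG).G1).1.1 = 1 := bk_one D.hB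

/-- The rank one subgroup embeds into the target. -/
theorem exists_hom : ∃ Ψ : ↥(Lb (d.Up (Lp i)) (d.Up (Ln i))) →* X, Function.Injective Ψ := by
  let r₀ : ↥(Lb (d.Up (Lp i)) (d.Up (Ln i))) →* ↥(StX c D.hB) :=
    { toFun := fun x => ⟨x.1.1, D.Lb_StX x.2⟩
      map_one' := rfl
      map_mul' := fun _ _ => rfl }
  refine ⟨(blkHom c D.hB D.hc).comp r₀, ?_⟩
  rw [injective_iff_map_eq_one]
  rintro ⟨x, hx⟩ hΨ
  have hbl : bk B x.1.1 = 1 := by
    have h1 := blkHom_spec c D.hB D.hc (r₀ ⟨x, hx⟩)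
    have h2 : blkHom c D.hB D.hc (r₀ ⟨x, hx⟩) = 1 := hΨ
    rw [h2, map_one] at h1
    exact h1.symm
  apply Subtype.ext
  show x = 1
  have hL : ∀ {a}, a ∈ d.Up (Lp i) → a ∈ Lb (d.Up (Lp i)) (d.Up (Ln i)) := fun ha => Subgroup.subset_closure (Or.inl ha)
  obtain ⟨a, ha, m, hm, b, hb, e⟩ := d.rk1_form i x hx
  have hmL : m ∈ Lb (d.Up (Lp i)) (d.Up (Ln i)) := by
    have e1 : m = a⁻¹ * x * b⁻¹ := by
      rw [e]
      group
    rw [e1]
    exact Subgroup.mul_mem _ (Subgroup.mul_mem _ (Subgroup.inv_mem _ (hL ha)) hx) (Subgroup.inv_mem _ (hL hb))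
  have hUm : UT (bk B m.1.1) := by
    have e1 : m = a⁻¹ * x * b⁻¹ := by
      rw [e]
      group
    have h1 : bk B m.1.1 = bk B (a⁻¹).1.1 * bk B b⁻¹.1.1 := by
      rw [e1, D.bk_mul' (Subgroup.inv_mem _ (hL hb)), D.bk_mul' hx, hbl, mul_one]
    rw [h1]
    exact UT_mul (D.hUT _ (Subgroup.inv_mem _ ha)) (D.hUT _ (Subgroup.inv_mem _ hb))
  rcases d.hNL_form i m hmL hm with h | h
  · -- `m` lies in the torus
    have hm1 : bk B m.1.1 = 1 := by
      ext s t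
      by_cases hst : s = t
      · subst hst
        rw [hUm.2, Matrix.one_apply_eq]
      · rw [Matrix.one_apply_ne hst]
        exact diag_off h (fun e' => hst (D.hB e'))
    obtain ⟨p, rfl⟩ := d.exists_gt h
    have hinv : bk B (d.gt p)⁻¹.1.1 = 1 := by
      have h1 := D.bk_mul' (g := (d.gt p)⁻¹) (h := d.gt p) hmL
      rw [inv_mul_cancel, D.bk_one', hm1, mul_one] at h1
      exact h1.symm
    have hcent : ∀ u ∈ d.Up (Lp i), d.gt p * u * (d.gt p)⁻¹ = u := by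
      intro u hu
      have hc1 : d.gt p * u * (d.gt p)⁻¹ ∈ d.Up (Lp i) := by
        apply d.mem_Up.2
        exact tor_conj_rc _ (rkd i).hplt (d.mem_Up.1 hu)
      have h3 : bk B (d.gt p * u * (d.gt p)⁻¹).1.1 = bk B u.1.1 := by
        rw [D.bk_mul' (Subgroup.inv_mem _ hmL), D.bk_mul' (hL hu), hm1, hinv, one_mul, mul_one]
      have h4 : bk B (d.gt p * u * (d.gt p)⁻¹ * u⁻¹).1.1 = 1 := by
        rw [D.bk_mul' (Subgroup.inv_mem _ (hL hu)), h3, ← D.bk_mul' (Subgroup.inv_mem _ (hL hu)), mul_inv_cancel, D.bk_one']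
      have h5 := D.hUinj _ (Subgroup.mul_mem _ hc1 (Subgroup.inv_mem _ hu)) h4
      exact mul_inv_eq_one.1 h5
    have hp := D.hT p hmL hcent
    have hm1' : d.gt p = 1 := by
      rw [hp]
      exact map_one d.ιT
    rw [hm1', mul_one] at e
    apply D.hUinj x
    · rw [e]
      exact Subgroup.mul_mem _ ha hb
    · exact hbl
  · -- `m` lies in the other coset
    exfalso
    set nn := TwGen.sE d.twG (rkd i).hj with hnn
    have hnL : nn ∈ Lb (d.Up (Lp i)) (d.Up (Ln i)) := d.nL i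
    set q : ↥(d.twG).G1 := nn⁻¹ * m with hq
    have hqL : q ∈ Lb (d.Up (Lp i)) (d.Up (Ln i)) := Subgroup.mul_mem _ (Subgroup.inv_mem _ hnL) hmL
    have em : m = nn * q := by
      rw [hq]
      group
    have h0 : bk B m.1.1 l z = 0 := hUm.1 l z D.hlz
    rw [em, D.bk_mul' hqL, Matrix.mul_apply, Finset.sum_eq_single z] at h0
    · have hnb : bk B nn.1.1 = bk B w₁.1.1 * bk B v.1.1 * bk B w₃.1.1 := by
        rw [hnn, D.hn, D.bk_mul' (hL D.hw₃), D.bk_mul' (Subgroup.subset_closure (Or.inr D.hv))]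
      rw [hnb, corner (D.hUT _ D.hw₁) (D.hUT _ D.hw₃) D.hl D.hz] at h0
      rcases mul_eq_zero.1 h0 with h1 | h1
      · exact D.hV0 h1
      · exact diag_ne h _ h1
    · intro k _ hk
      have : bk B q.1.1 k z = 0 := diag_off h (fun e' => hk (D.hB e'))
      rw [this, mul_zero]
    · simp

end BlkD

end Cfsg.Agent.Lib.Chev.TwF4
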