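import Cfsg.Agent.Lib.Chev.TwF4SchI

/-!
# The Schur multiplier of `²F₄`: the entries of some root elements
-/

set_option autoImplicit false
set_option linter.unusedSectionVars false
set_option linter.unusedVariables false
set_option linter.unnecessarySimpa false

namespace Cfsg.Agent.Lib.Chev.TwF4

open Cfsg.Agent.Lib.Chev Cfsg.Lie Equiv
open Cfsg.Agent.Lib.Chev.Blk

/-- The non-trivial entries. -/
def Lt : List (ℕ × ℕ × ℕ) := [(17, 37, 33), (19, 35, 33), (19, 37, 34), (20, 34, 33), (20, 37, 35), (22, 35, 34), (25, 34, 35), (27, 33, 34),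
  (27, 35, 37), (28, 33, 35), (28, 34, 37), (30, 33, 37), (23, 26, 25), (24, 25, 26)]

/-- The non-trivial entries with a sign. -/
def Lm : List (ℕ × ℕ × ℕ) := [(19, 37, 34), (28, 34, 37)]

/-- The column of a root element. -/
def colOk (r s : ℕ) : Prop := r < 48 ∧ s < 48 ∧ s ≠ r ∧ s ≠ chevF4.neg r ∧
  ∀ u < 48, chevF4.chainCoeff r s u = if (r, s, u) ∈ Lt then [(1, if (r, s, u) ∈ Lm then -1 else 1)] else []

instance (r s : ℕ) : Decidable (colOk r s) := by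
  unfold colOk
  infer_instance

theorem col1 : ∀ r ∈ [17, 19, 20, 22, 25, 27, 28, 30], ∀ s ∈ [37, 35, 34, 33], colOk r s := by decide +kernel

theorem col0 : ∀ r ∈ [14, 23, 24, 33], ∀ s ∈ [26, 25], colOk r s := by decide +kernel

theorem lt1 : ∀ r ∈ [17, 19, 20, 22, 25, 27, 28, 30], ∀ s ∈ [37, 35, 34, 33], ∀ u < 48, (r, s, u) ∈ Lt → u ∈ [37, 35, 34, 33] := by decide +kernel

theorem lt0 : ∀ r ∈ [14, 23, 24, 33], ∀ s ∈ [26, 25], ∀ u < 48, (r, s, u) ∈ Lt → u ∈ [26, 25] := by decide +kernel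

variable {K : Type*} [Field K]

theorem x_inl {r s : ℕ} (h : colOk r s) (t : K) (i : Fin chevF4.rank) (hs : s < chevF4.nroots) :
    (hF.c.xG r t).1 (Sum.inl i) (Sum.inr ⟨s, hs⟩) = 0 := by
  obtain ⟨h1, h2, h3, h4, h5⟩ := h
  have hr : r < chevF4.nroots := by rw [nr_eq]; exact h1
  have hx : chevF4.x K r t = chevF4.xMat K ⟨r, hr⟩ t := by simp [ChevalleyDatum.x, hr]
  rw [hF.c.coe_xG, hx]
  simp only [ChevalleyDatum.xMat, Matrix.of_apply]
  rw [if_neg (fun e => h3 (Fin.mk.inj e)), if_neg (show ¬ s = chevF4.negIdx.getD r 0 from h4)]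

theorem x_inr {r s : ℕ} (h : colOk r s) (h2' : (2 : K) = 0) (t : K) (u : Fin chevF4.nroots) (hs : s < chevF4.nroots) :
    (hF.c.xG r t).1 (Sum.inr u) (Sum.inr ⟨s, hs⟩) = (if (u : ℕ) = s then 1 else 0) + (if (r, s, (u : ℕ)) ∈ Lt then t else 0) := by
  obtain ⟨h1, h2, h3, h4, h5⟩ := h
  have hr : r < chevF4.nroots := by rw [nr_eq]; exact h1
  have hx : chevF4.x K r t = chevF4.xMat K ⟨r, hr⟩ t := by simp [ChevalleyDatum.x, hr]
  rw [hF.c.coe_xG, hx]
  simp only [ChevalleyDatum.xMat, Matrix.of_apply]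
  rw [if_neg (fun e => h3 (Fin.mk.inj e)), if_neg (show ¬ s = chevF4.negIdx.getD r 0 from h4)]
  have hu : (u : ℕ) < 48 := lt_of_lt_of_eq u.2 nr_eq
  rw [h5 _ hu]
  have e1 : (if u = (⟨s, hs⟩ : Fin chevF4.nroots) then (1 : K) else 0) = if (u : ℕ) = s then 1 else 0 := by
    by_cases h6 : (u : ℕ) = s
    · rw [if_pos (Fin.ext h6), if_pos h6]
    · rw [if_neg (fun e => h6 (by rw [e])), if_neg h6]
  rw [e1]
  congr 1
  by_cases h6 : (r, s, (u : ℕ)) ∈ Lt
  · rw [if_pos h6, if_pos h6]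
    by_cases h7 : (r, s, (u : ℕ)) ∈ Lm
    · rw [if_pos h7]
      simp
      linear_combination (-t) * h2'
    · rw [if_neg h7]
      simp
  · rw [if_neg h6, if_neg h6]
    simp

/-- The block of a root element. -/
def eb {n : ℕ} (N : Fin n → ℕ) (r : ℕ) (t : K) : Matrix (Fin n) (Fin n) K :=
  fun i j => (if N i = N j then 1 else 0) + (if (r, N j, N i) ∈ Lt then t else 0)

/-- The basis of the block. -/
def Bx {n : ℕ} (N : Fin n → ℕ) (hN : ∀ j, N j < chevF4.nroots) : Fin n → chevF4.Idx := fun j => Sum.inr ⟨N j, hN j⟩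

theorem bk_x {n : ℕ} {N : Fin n → ℕ} (hN : ∀ j, N j < chevF4.nroots) {r : ℕ} (hc : ∀ j, colOk r (N j)) (h2 : (2 : K) = 0) (t : K) :
    bk (Bx N hN) (hF.c.xG r t).1 = eb N r t := by
  ext i j
  exact x_inr (hc j) h2 t _ _

theorem Bx_inj {n : ℕ} {N : Fin n → ℕ} (hN : ∀ j, N j < chevF4.nroots) (hi : Function.Injective N) : Function.Injective (Bx N hN) := by
  intro a b h
  have h1 := Sum.inr.inj h
  exact hi (Fin.mk.inj h1)

theorem Stb_x {n : ℕ} {N : Fin n → ℕ} (hN : ∀ j, N j < chevF4.nroots) {r : ℕ} (hc : ∀ j, colOk r (N j)) (h2 : (2 : K) = 0)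
    (ht : ∀ j, ∀ u < 48, (r, N j, u) ∈ Lt → ∃ k, N k = u) (t : K) : Stb (Bx N hN) (hF.c.xG r t).1 := by
  intro v hv j
  cases v with
  | inl i => exact x_inl (hc j) t i _
  | inr u =>
    show (hF.c.xG r t).1 (Sum.inr u) (Sum.inr ⟨N j, hN j⟩) = 0
    rw [x_inr (hc j) h2]
    have hu : (u : ℕ) < 48 := lt_of_lt_of_eq u.2 nr_eq
    have hne : ∀ k, N k ≠ u := by
      intro k hk
      refine hv (Set.mem_range.2 ⟨k, ?_⟩)
      show (Sum.inr (⟨N k, hN k⟩ : Fin chevF4.nroots) : chevF4.Idx) = _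
      congr 1
      exact Fin.ext hk
    rw [if_neg (fun e => hne j e.symm), if_neg (fun e => by
      obtain ⟨k, hk⟩ := ht j _ hu e
      exact hne k hk)]
    simp

end Cfsg.Agent.Lib.Chev.TwF4
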