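import Cfsg.Agent.Lib.Chev.TwF4SchJ
import Cfsg.Agent.Lib.SzTorusH

/-!
# The Schur multiplier of `²F₄`: the rank one subgroup of Suzuki type
-/

set_option autoImplicit false
set_option linter.unusedSectionVars false
set_option linter.unusedVariables false
set_option linter.unnecessarySimpa false

namespace Cfsg.Agent.Lib.Chev.TwF4

open Cfsg.Agent.Lib.Chev Cfsg.Lie Equiv
open Cfsg.Agent.Lib.Chev.Blk
open Cfsg.Agent.Lib.Chev.SchOdd
open Cfsg.Agent.Lib.SuzukiBasic (fn)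
open Cfsg.Agent.Lib.Chev.TwWF4 (gen)

/-- The basis of the Suzuki module. -/
def N1 : Fin 4 → ℕ := ![37, 35, 34, 33]

theorem hN1 : ∀ j, N1 j < chevF4.nroots := by decide

theorem N1_inj : Function.Injective N1 := by decide

theorem mem_N1 (j : Fin 4) : N1 j ∈ [37, 35, 34, 33] := by
  fin_cases j <;> decide

theorem c1 {r : ℕ} (hr : r ∈ [17, 19, 20, 22, 25, 27, 28, 30]) (j : Fin 4) : colOk r (N1 j) := col1 r hr _ (mem_N1 j)

theorem t1 {r : ℕ} (hr : r ∈ [17, 19, 20, 22, 25, 27, 28, 30]) (j : Fin 4) (u : ℕ) (hu : u < 48) (h : (r, N1 j, u) ∈ Lt) : ∃ k, N1 k = u := by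
  have h1 := lt1 r hr _ (mem_N1 j) u hu h
  simp only [List.mem_cons, List.not_mem_nil, or_false] at h1
  rcases h1 with rfl | rfl | rfl | rfl
  · exact ⟨0, rfl⟩
  · exact ⟨1, rfl⟩
  · exact ⟨2, rfl⟩
  · exact ⟨3, rfl⟩

variable {K : Type*} [Field K]

theorem eb27 (t : K) : eb N1 27 t = !![1,t,0,0;0,1,0,0;0,0,1,t;0,0,0,1] := by
  ext i j
  fin_cases i <;> fin_cases j <;> simp [eb, N1, Lt]

theorem eb25 (t : K) : eb N1 25 t = !![1,0,0,0;0,1,t,0;0,0,1,0;0,0,0,1] := by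
  ext i j
  fin_cases i <;> fin_cases j <;> simp [eb, N1, Lt]

theorem eb28 (t : K) : eb N1 28 t = !![1,0,t,0;0,1,0,t;0,0,1,0;0,0,0,1] := by
  ext i j
  fin_cases i <;> fin_cases j <;> simp [eb, N1, Lt]

theorem eb30 (t : K) : eb N1 30 t = !![1,0,0,t;0,1,0,0;0,0,1,0;0,0,0,1] := by
  ext i j
  fin_cases i <;> fin_cases j <;> simp [eb, N1, Lt]

theorem eb20 (t : K) : eb N1 20 t = !![1,0,0,0;t,1,0,0;0,0,1,0;0,0,t,1] := by
  ext i j
  fin_cases i <;> fin_cases j <;> simp [eb, N1, Lt]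

theorem eb22 (t : K) : eb N1 22 t = !![1,0,0,0;0,1,0,0;0,t,1,0;0,0,0,1] := by
  ext i j
  fin_cases i <;> fin_cases j <;> simp [eb, N1, Lt]

theorem eb19 (t : K) : eb N1 19 t = !![1,0,0,0;0,1,0,0;t,0,1,0;0,t,0,1] := by
  ext i j
  fin_cases i <;> fin_cases j <;> simp [eb, N1, Lt]

theorem eb17 (t : K) : eb N1 17 t = !![1,0,0,0;0,1,0,0;0,0,1,0;t,0,0,1] := by
  ext i j
  fin_cases i <;> fin_cases j <;> simp [eb, N1, Lt]

theorem prodP (a b c d : K) : (!![1,a,0,0;0,1,0,0;0,0,1,a;0,0,0,1] : Matrix (Fin 4) (Fin 4) K) * (!![1,0,0,0;0,1,b,0;0,0,1,0;0,0,0,1] * (!![1,0,c,0;0,1,0,c;0,0,1,0;0,0,0,1] * !![1,0,0,d;0,1,0,0;0,0,1,0;0,0,0,1])) =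
    !![1,a,a*b+c,a*c+d;0,1,b,c;0,0,1,a;0,0,0,1] := by
  ext i j
  fin_cases i <;> fin_cases j <;> simp [Matrix.mul_apply, Fin.sum_univ_four]
  all_goals ring

theorem prodN (a b c d : K) : (!![1,0,0,0;a,1,0,0;0,0,1,0;0,0,a,1] : Matrix (Fin 4) (Fin 4) K) * (!![1,0,0,0;0,1,0,0;0,b,1,0;0,0,0,1] * (!![1,0,0,0;0,1,0,0;c,0,1,0;0,c,0,1] * !![1,0,0,0;0,1,0,0;0,0,1,0;d,0,0,1])) =
    !![1,0,0,0;a,1,0,0;c,b,1,0;a*c+d,a*b+c,a,1] := by
  ext i j
  fin_cases i <;> fin_cases j <;> simp [Matrix.mul_apply, Fin.sum_univ_four]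

/-- Products of root elements. -/
theorem bk_prod4 (h2 : (2 : K) = 0) {r₁ r₂ r₃ r₄ : ℕ} (h₂ : r₂ ∈ [17, 19, 20, 22, 25, 27, 28, 30]) (h₃ : r₃ ∈ [17, 19, 20, 22, 25, 27, 28, 30])
    (h₄ : r₄ ∈ [17, 19, 20, 22, 25, 27, 28, 30]) (h₁ : r₁ ∈ [17, 19, 20, 22, 25, 27, 28, 30]) (a b c d : K) :
    bk (Bx N1 hN1) (hF.c.xG r₁ a * (hF.c.xG r₂ b * (hF.c.xG r₃ c * hF.c.xG r₄ d)) : GL chevF4.Idx K).1 =
      eb N1 r₁ a * (eb N1 r₂ b * (eb N1 r₃ c * eb N1 r₄ d)) := by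
  have hB := Bx_inj hN1 N1_inj
  have s2 := Stb_x (K := K) hN1 (c1 h₂) h2 (t1 h₂) b
  have s3 := Stb_x (K := K) hN1 (c1 h₃) h2 (t1 h₃) c
  have s4 := Stb_x (K := K) hN1 (c1 h₄) h2 (t1 h₄) d
  simp only [Units.val_mul]
  rw [bk_mul hB (Stb_mul hB s2 (Stb_mul hB s3 s4)), bk_mul hB (Stb_mul hB s3 s4), bk_mul hB s4,
    bk_x hN1 (c1 h₁) h2, bk_x hN1 (c1 h₂) h2, bk_x hN1 (c1 h₃) h2, bk_x hN1 (c1 h₄) h2]

theorem matT_UT {m : ℕ} (a b : K) : UT (Suzuki.matT m a b) := by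
  constructor
  · intro i j hij
    fin_cases i <;> fin_cases j <;> first | (exact absurd hij (by decide)) | simp [Suzuki.matT]
  · intro i
    fin_cases i <;> simp [Suzuki.matT]

section main

variable [Fintype K] {m : ℕ} (hm : 1 ≤ m) (hK : Fintype.card K = 2 ^ (2 * m + 1)) (d : Dat K (2 ^ m))

include d in
theorem phi_eq (x : K) : Suzuki.phi m x = d.g x := by
  rw [d.g_apply, d.hf, Suzuki.phi, ← pow_mul, pow_succ]

/-- The map to matrices. -/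
def cSz (K : Type*) [Field K] (m : ℕ) : ↥(Cfsg.Sz K m) →* Matrix (Fin 4) (Fin 4) K where
  toFun x := x.1.1
  map_one' := rfl
  map_mul' _ _ := rfl

theorem cSz_inj : Function.Injective (cSz K m) := fun a b h => Subtype.ext (Subtype.ext h)

include d in
theorem g_f_mul (t u : K) : d.g (d.f t * t + u) = t * d.g t + d.g u := by
  rw [map_add, map_mul, d.g_f]

/-- The block of an element of the class. -/
theorem bk_gb (t u : K) : bk (Bx N1 hN1) (d.gb t u).1.1 = Suzuki.matT m (d.f t) (d.f t * t + u) := by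
  have h2 := d.h2
  show bk (Bx N1 hN1) (hF.c.xG 27 (d.f t) * (hF.c.xG 25 t * (hF.c.xG 28 (d.f t * t + u) * hF.c.xG 30 (d.g u)))).1 = _
  rw [bk_prod4 h2 (by decide) (by decide) (by decide) (by decide), eb27, eb25, eb28, eb30, prodP]
  have e1 : Suzuki.phi m (d.f t) = t := by
    rw [phi_eq d, d.g_f]
  have e2 : d.f t ^ 2 = d.g t := (d.g_apply t).symm
  have e3 : fn m (d.f t) (d.f t * t + u) = d.f t * (d.f t * t + u) + d.g u := by
    have : fn m (d.f t) (d.f t * t + u) = d.f t * (d.f t * t + u) + Suzuki.phi m (d.f t) * d.f t ^ 2 + Suzuki.phi m (d.f t * t + u) := by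
      simp only [fn, Suzuki.phi, pow_add]
    rw [this, e1, e2, phi_eq d, g_f_mul d]
    linear_combination (t * d.g t) * h2
  ext i j
  fin_cases i <;> fin_cases j <;> simp [Suzuki.matT, e1, e3]
  all_goals ring

theorem bk_V01 (h2 : (2 : K) = 0) : bk (Bx N1 hN1) (hF.c.wordG (castW K classV01)).1 = !![1,0,0,0;0,1,0,0;1,0,1,0;1,1,0,1] := by
  have e1 : hF.c.wordG (castW K classV01) = hF.c.xG 20 0 * (hF.c.xG 22 0 * (hF.c.xG 19 1 * hF.c.xG 17 1)) := by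
    simp [castW, classV01, Checks.wordG_cons, Checks.wordG_nil]
  rw [e1, bk_prod4 h2 (by decide) (by decide) (by decide) (by decide), eb20, eb22, eb19, eb17, prodN]
  simp

theorem sz_neg_val : (Suzuki.W K * Suzuki.T m (0 : K) 1 * Suzuki.W K).1 = !![1,0,0,0;0,1,0,0;1,0,1,0;1,1,0,1] := by
  show Cfsg.suzukiForm K * Suzuki.matT m (0 : K) 1 * Cfsg.suzukiForm K = _
  have e : fn m (0 : K) 1 = 1 := by
    simp [fn]
  ext i j
  fin_cases i <;> fin_cases j <;> simp [Matrix.mul_apply, Fin.sum_univ_four, Suzuki.matT, Cfsg.suzukiForm, e, Suzuki.phi]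

end main

namespace Dat

variable [Fintype K] {e : ℕ} (d : Dat K e)

include d in
theorem hpow' (g : Kˣ) (hg : g ^ (2 * (e : ℤ) - 1) = 1) : g = 1 := by
  have h3 := pow_q d g
  have e1 : (1 : ℤ) = (2 * (e : ℤ) - 1) * (2 * (e : ℤ) + 1) - 2 * (2 * (e : ℤ) ^ 2 - 1) := by ring
  have h4 : g ^ (1 : ℤ) = 1 := by
    rw [e1, zpow_sub, zpow_mul, hg, one_zpow, mul_comm (2 : ℤ), zpow_mul, h3, one_zpow, inv_one, mul_one]
  simpa using h4

theorem chi5_of {p : Kˣ × Kˣ} (h0 : d.gt p ∈ Lb (d.Up (Lp 0)) (d.Up (Ln 0))) : d.chi 5 p = 1 := by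
  have h2 := d.h2
  have hc : (d.Eo 5 1).1 * (d.gt p).1 = (d.gt p).1 * (d.Eo 5 1).1 := by
    refine comm_rc (K := K) (Q := fun r => r ∈ Lp 0 ∨ r ∈ Ln 0) (Q' := Qq 5 5) (fun r hr s hs a b => ?_) (d.Lb_rc h0) (d.mem_Sg.1 (d.Eo_mem (by decide) 1))
    refine xcomm (cm0 r ?_ s (q55 hs)) h2 a b
    simpa [Lp, Ln, or_comm, or_assoc, or_left_comm] using hr
  have hc' : d.gt p * d.Eo 5 1 * (d.gt p)⁻¹ = d.Eo 5 1 := by
    have : d.gt p * d.Eo 5 1 = d.Eo 5 1 * d.gt p := Subtype.ext hc.symm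
    rw [this]
    group
  rw [d.gt_Eo (by decide), mul_one] at hc'
  exact Units.ext (d.Eo5_inj hc')

theorem chi4_of {p : Kˣ × Kˣ} (h1 : d.gt p ∈ Lb (d.Up (Lp 1)) (d.Up (Ln 1))) : d.chi 4 p = 1 := by
  have h2 := d.h2
  have hc : (d.Ee 4 1 0).1 * (d.gt p).1 = (d.gt p).1 * (d.Ee 4 1 0).1 := by
    refine comm_rc (K := K) (Q := fun r => r ∈ Lp 1 ∨ r ∈ Ln 1) (Q' := Qq 4 4) (fun r hr s hs a b => ?_) (d.Lb_rc h1) (d.mem_Sg.1 (d.Ee_mem (by decide) 1 0))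
    refine xcomm (cm1 r ?_ s (q44 hs)) h2 a b
    simpa [Lp, Ln, or_comm, or_assoc, or_left_comm] using hr
  have hc' : d.gt p * d.Ee 4 1 0 * (d.gt p)⁻¹ = d.Ee 4 1 0 := by
    have : d.gt p * d.Ee 4 1 0 = d.Ee 4 1 0 * d.gt p := Subtype.ext hc.symm
    rw [this]
    group
  rw [d.gt_Ee (by decide), mul_one] at hc'
  exact Units.ext (d.Ee4_inj hc').1

include d in
theorem p1_of {p : Kˣ × Kˣ} (h : d.chi 4 p = 1) : p.1 = 1 := by
  apply d.hpow'
  have := d.chi_eq (k := 4) (by decide) p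
  rw [h] at this
  simp only [xx, yy, a0, a1, a2, a3] at this
  have e1 : (e : ℤ) * 2 + -1 = 2 * (e : ℤ) - 1 := by ring
  simpa [e1] using this.symm

include d in
theorem p2_of {p : Kˣ × Kˣ} (h : d.chi 5 p = 1) : p.2 = 1 := by
  apply d.hpow'
  have := d.chi_eq (k := 5) (by decide) p
  rw [h] at this
  simp only [xx, yy, a0, a1, a2, a3] at this
  have e1 : (e : ℤ) * 2 + -1 = 2 * (e : ℤ) - 1 := by ring
  simpa [e1] using this.symm

/-- The torus of the rank one subgroup of Suzuki type. -/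
theorem hT1 (p : Kˣ × Kˣ) (hp : d.gt p ∈ Lb (d.Up (Lp 1)) (d.Up (Ln 1))) (hc : ∀ u ∈ d.Up (Lp 1), d.gt p * u * (d.gt p)⁻¹ = u) : p = 1 := by
  have h1 : p.1 = 1 := d.p1_of (d.chi4_of hp)
  have hu : d.gb 1 0 ∈ d.Up (Lp 1) := d.mem_Up.2 (d.gb_rc 1 0)
  have h3 := hc _ hu
  rw [d.gt_gb, mul_one] at h3
  have h4 : d.bC p = 1 := Units.ext (d.gb_inj h3).1
  set g := p.2 with hg
  have h5 : g ^ (2 * (e : ℤ) - 2) = 1 := by
    have h6 : d.bC p = g ^ (2 : ℤ) * ((g ^ (e : ℤ)) ^ (2 : ℤ))⁻¹ := by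
      rw [bC, d.fU_pow, h1]
      simp [hg]
    rw [h6] at h4
    have h7 : g ^ (2 : ℤ) = (g ^ (e : ℤ)) ^ (2 : ℤ) := by
      rwa [mul_inv_eq_one] at h4
    rw [← zpow_mul] at h7
    have e1 : (2 * (e : ℤ) - 2) = (e : ℤ) * 2 - 2 := by ring
    rw [e1, zpow_sub, ← h7, mul_inv_cancel]
  have h8 : g = 1 := by
    have h9 := pow_q d g
    have e1 : (1 : ℤ) = (2 * (e : ℤ) ^ 2 - 1) - (2 * (e : ℤ) - 2) * ((e : ℤ) + 1) := by ring
    have h10 : g ^ (1 : ℤ) = 1 := by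
      rw [e1, zpow_sub, zpow_mul g (2 * (e : ℤ) - 2), h5, one_zpow, h9, inv_one, mul_one]
    simpa using h10
  exact Prod.ext h1 h8

end Dat

section main

variable [Fintype K] {m : ℕ} (hm : 1 ≤ m) (hK : Fintype.card K = 2 ^ (2 * m + 1)) (d : Dat K (2 ^ m))

include hm hK in
/-- The embedding of the rank one subgroup of Suzuki type. -/
theorem exists_blkD1 : ∃ w₁ v w₃, BlkD d 1 (Bx N1 hN1) (cSz K m) w₁ v w₃ 3 0 := by
  haveI : Suzuki.SzHyp K m := ⟨hm, hK⟩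
  haveI : CharP K 2 := Suzuki.charP_two K m
  have h2 := d.h2
  have h2' : ((2 : ℕ) : K) = 0 := by exact_mod_cast d.h2
  have hmem : ∀ w, w ∈ f4Words K (2 ^ m) → hF.c.wordG w ∈ (d.twG).G1 :=
    fun w hw => hF.wordG_mem_genSubgroup hw
  refine ⟨⟨_, hmem _ (w_U10 d.he)⟩, ⟨_, hmem _ (w_V01 d.he)⟩, ⟨_, hmem _ (w_U11 h2' d.he)⟩, ?_⟩
  have hform : ∀ u ∈ d.Up (Lp 1), ∃ t v, u = d.gb t v := by
    intro u hu
    obtain ⟨t, v, h⟩ := d.gb_of_UL (Dat.mem_UL_12.2 (d.mem_Up.1 hu)) (d.fix_G1 u)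
    exact ⟨t, v, Subtype.ext h⟩
  constructor
  case hB => exact Bx_inj hN1 N1_inj
  case hc => exact cSz_inj
  case hSt =>
    intro r hr t
    have hr' : r ∈ [17, 19, 20, 22, 25, 27, 28, 30] := by
      simpa [Lp, Ln, or_comm, or_assoc, or_left_comm] using hr
    exact Stb_x hN1 (c1 hr') h2 (t1 hr') t
  case hUy =>
    intro u hu
    obtain ⟨t, v, rfl⟩ := hform u hu
    refine ⟨⟨Suzuki.T m (d.f t) (d.f t * t + v), Suzuki.T_mem _ _⟩, ?_⟩
    rw [bk_gb]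
    rfl
  case hUT =>
    intro u hu
    obtain ⟨t, v, rfl⟩ := hform u hu
    rw [bk_gb]
    exact matT_UT _ _
  case hUinj =>
    intro u hu h
    obtain ⟨t, v, rfl⟩ := hform u hu
    rw [bk_gb] at h
    have h3 : d.f t = 0 := by
      have := congrFun (congrFun h 0) 1
      simpa [Suzuki.matT] using this
    have h4 : d.f t * t + v = 0 := by
      have := congrFun (congrFun h 1) 3
      simpa [Suzuki.matT] using this
    have h5 : t = 0 := by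
      have := d.g_f t
      rw [h3, map_zero] at this
      exact this.symm
    have h6 : v = 0 := by
      rw [h3, zero_mul, zero_add] at h4
      exact h4
    rw [h5, h6]
    exact d.gb_zero
  case hw₁ => exact d.mem_Up.2 (wordG_mem_rc (by decide))
  case hv => exact d.mem_Up.2 (wordG_mem_rc (by decide))
  case hw₃ => exact d.mem_Up.2 (wordG_mem_rc (by decide))
  case hn =>
    apply Subtype.ext
    show (((gen 1).map (hF.nNt K)).prod : ↥(chevF4.monomialSubgroup K)).1 = _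
    rw [hF.coe_prod_nNt (by decide)]
    have h3 := hF.wordN_eq_wordG_mod h2' _ (by decide +kernel) _ chk12
    simp only [List.flatten_cons, List.flatten_nil, List.append_nil, castW_append, hF.c.wordG_append] at h3
    show hF.wordN (F := K) [1, 2, 1, 2] = _
    rw [h3]
    simp only [Subgroup.coe_mul, mul_assoc]
  case hVy =>
    refine ⟨⟨Suzuki.W K * Suzuki.T m (0 : K) 1 * Suzuki.W K, Subgroup.mul_mem _ (Subgroup.mul_mem _ Suzuki.W_mem (Suzuki.T_mem _ _)) Suzuki.W_mem⟩, ?_⟩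
    show (Suzuki.W K * Suzuki.T m (0 : K) 1 * Suzuki.W K).1 = bk (Bx N1 hN1) (hF.c.wordG (castW K classV01)).1
    rw [sz_neg_val, bk_V01 h2]
  case hV0 =>
    show bk (Bx N1 hN1) (hF.c.wordG (castW K classV01)).1 3 0 ≠ 0
    rw [bk_V01 h2]
    simp
  case hl => exact fun k => Fin.le_last k
  case hz => exact fun k => Fin.zero_le k
  case hlz => decide
  case hT => exact d.hT1

end main

end Cfsg.Agent.Lib.Chev.TwF4
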