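import Cfsg.Agent.Lib.Chev.TwF4SchK
import Cfsg.Agent.Lib.SL2Tori

/-!
# The Schur multiplier of `²F₄`: the rank one subgroup of type `A₁`, and the end of the proof
-/

set_option autoImplicit false
set_option linter.unusedSectionVars false
set_option linter.unusedVariables false
set_option linter.unnecessarySimpa false

namespace Cfsg.Agent.Lib.Chev.TwF4

open Cfsg.Agent.Lib.Chev Cfsg.Lie Equiv
open Cfsg.Agent.Lib.Chev.Blk
open Cfsg.Agent.Lib.Chev.SchOdd
open Cfsg.Agent.Lib.Chev.TwWF4 (gen)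

/-- The basis of the natural module. -/
def N0 : Fin 2 → ℕ := ![26, 25]

theorem hN0 : ∀ j, N0 j < chevF4.nroots := by decide

theorem N0_inj : Function.Injective N0 := by decide

theorem mem_N0 (j : Fin 2) : N0 j ∈ [26, 25] := by
  fin_cases j <;> decide

theorem c0 {r : ℕ} (hr : r ∈ [14, 23, 24, 33]) (j : Fin 2) : colOk r (N0 j) := col0 r hr _ (mem_N0 j)

theorem t0 {r : ℕ} (hr : r ∈ [14, 23, 24, 33]) (j : Fin 2) (u : ℕ) (hu : u < 48) (h : (r, N0 j, u) ∈ Lt) : ∃ k, N0 k = u := by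
  have h1 := lt0 r hr _ (mem_N0 j) u hu h
  simp only [List.mem_cons, List.not_mem_nil, or_false] at h1
  rcases h1 with rfl | rfl
  · exact ⟨0, rfl⟩
  · exact ⟨1, rfl⟩

variable {K : Type*} [Field K]

theorem eb33 (t : K) : eb N0 33 t = 1 := by
  ext i j
  fin_cases i <;> fin_cases j <;> simp [eb, N0, Lt]

theorem eb14 (t : K) : eb N0 14 t = 1 := by
  ext i j
  fin_cases i <;> fin_cases j <;> simp [eb, N0, Lt]

theorem eb24 (t : K) : eb N0 24 t = !![1,t;0,1] := by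
  ext i j
  fin_cases i <;> fin_cases j <;> simp [eb, N0, Lt]

theorem eb23 (t : K) : eb N0 23 t = !![1,0;t,1] := by
  ext i j
  fin_cases i <;> fin_cases j <;> simp [eb, N0, Lt]

/-- Products of root elements. -/
theorem bk_prod2 (h2 : (2 : K) = 0) {r₁ r₂ : ℕ} (h₁ : r₁ ∈ [14, 23, 24, 33]) (h₂ : r₂ ∈ [14, 23, 24, 33]) (a b : K) :
    bk (Bx N0 hN0) (hF.c.xG r₁ a * hF.c.xG r₂ b : GL chevF4.Idx K).1 = eb N0 r₁ a * eb N0 r₂ b := by
  have hB := Bx_inj hN0 N0_inj
  have s2 := Stb_x (K := K) hN0 (c0 h₂) h2 (t0 h₂) b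
  rw [Units.val_mul, bk_mul hB s2, bk_x hN0 (c0 h₁) h2, bk_x hN0 (c0 h₂) h2]

/-- The map to matrices. -/
def cS2 (K : Type*) [Field K] : Matrix.SpecialLinearGroup (Fin 2) K →* Matrix (Fin 2) (Fin 2) K where
  toFun x := x.1
  map_one' := rfl
  map_mul' _ _ := rfl

theorem cS2_inj : Function.Injective (cS2 K) := fun a b h => Subtype.ext h

theorem bk_pM (h2 : (2 : K) = 0) : bk (Bx N0 hN0) (hF.c.wordG (castW K pairM)).1 = !![1,0;1,1] := by
  have e1 : hF.c.wordG (castW K pairM) = hF.c.xG 14 1 * hF.c.xG 23 1 := by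
    simp [castW, pairM, Checks.wordG_cons, Checks.wordG_nil]
  rw [e1, bk_prod2 h2 (by decide) (by decide), eb14, eb23, one_mul]

section main

variable [Fintype K] {e : ℕ} (d : Dat K e)

theorem bk_gp (t : K) : bk (Bx N0 hN0) (d.gp t).1.1 = !![1,t;0,1] := by
  show bk (Bx N0 hN0) (hF.c.xG 33 (d.f t) * hF.c.xG 24 t : GL chevF4.Idx K).1 = _
  rw [bk_prod2 d.h2 (by decide) (by decide), eb33, eb24, one_mul]

/-- The torus of the rank one subgroup of type `A₁`. -/
theorem Dat.hT0 (p : Kˣ × Kˣ) (hp : d.gt p ∈ Lb (d.Up (Lp 0)) (d.Up (Ln 0))) (hc : ∀ u ∈ d.Up (Lp 0), d.gt p * u * (d.gt p)⁻¹ = u) : p = 1 := by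
  have h1 : p.2 = 1 := d.p2_of (d.chi5_of hp)
  have hu : d.gp 1 ∈ d.Up (Lp 0) := d.mem_Up.2 (d.gp_rc 1)
  have h3 := hc _ hu
  rw [d.gt_gp, mul_one] at h3
  have h4 : aC p = 1 := Units.ext (d.gp_inj h3)
  have h5 : p.1 ^ 2 = 1 := by
    rw [aC, h1] at h4
    simpa using h4
  have h8 : p.1 = 1 := by
    have h9 := pow_q d p.1
    have e1 : (1 : ℤ) = 2 * ((e : ℤ) ^ 2) - (2 * (e : ℤ) ^ 2 - 1) := by ring
    have h5' : p.1 ^ (2 : ℤ) = 1 := by
      simpa using h5
    have h10 : p.1 ^ (1 : ℤ) = 1 := by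
      rw [e1, zpow_sub, zpow_mul, h5', one_zpow, h9, inv_one, mul_one]
    simpa using h10
  exact Prod.ext h8 h1

/-- The embedding of the rank one subgroup of type `A₁`. -/
theorem exists_blkD0 : ∃ w₁ v w₃, BlkD d 0 (Bx N0 hN0) (cS2 K) w₁ v w₃ 1 0 := by
  have h2 := d.h2
  have h2' : ((2 : ℕ) : K) = 0 := by exact_mod_cast d.h2
  have hmem : ∀ w, w ∈ f4Words K e → hF.c.wordG w ∈ (d.twG).G1 :=
    fun w hw => hF.wordG_mem_genSubgroup hw
  refine ⟨⟨_, hmem _ (w_pairP d.he)⟩, ⟨_, hmem _ (w_pairM d.he)⟩, ⟨_, hmem _ (w_pairP d.he)⟩, ?_⟩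
  have hform : ∀ u ∈ d.Up (Lp 0), ∃ t, u = d.gp t := by
    intro u hu
    obtain ⟨t, h⟩ := d.gp_of_UL (Dat.mem_UL_03.2 (d.mem_Up.1 hu)) (d.fix_G1 u)
    exact ⟨t, Subtype.ext h⟩
  constructor
  case hB => exact Bx_inj hN0 N0_inj
  case hc => exact cS2_inj
  case hSt =>
    intro r hr t
    have hr' : r ∈ [14, 23, 24, 33] := by
      simpa [Lp, Ln, or_comm, or_assoc, or_left_comm] using hr
    exact Stb_x hN0 (c0 hr') h2 (t0 hr') t
  case hUy =>
    intro u hu
    obtain ⟨t, rfl⟩ := hform u hu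
    refine ⟨⟨!![1,t;0,1], by simp [Matrix.det_fin_two_of]⟩, ?_⟩
    rw [bk_gp]
    rfl
  case hUT =>
    intro u hu
    obtain ⟨t, rfl⟩ := hform u hu
    rw [bk_gp]
    constructor
    · intro i j hij
      fin_cases i <;> fin_cases j <;> first | (exact absurd hij (by decide)) | simp
    · intro i
      fin_cases i <;> simp
  case hUinj =>
    intro u hu h
    obtain ⟨t, rfl⟩ := hform u hu
    rw [bk_gp] at h
    have h3 : t = 0 := by
      have := congrFun (congrFun h 0) 1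
      simpa using this
    rw [h3]
    exact d.gp_zero
  case hw₁ => exact d.mem_Up.2 (wordG_mem_rc (by decide))
  case hv => exact d.mem_Up.2 (wordG_mem_rc (by decide))
  case hw₃ => exact d.mem_Up.2 (wordG_mem_rc (by decide))
  case hn =>
    apply Subtype.ext
    show (((gen 0).map (hF.nNt K)).prod : ↥(chevF4.monomialSubgroup K)).1 = _
    rw [hF.coe_prod_nNt (by decide)]
    have h3 := hF.wordN_eq_wordG_mod h2' _ (by decide +kernel) _ chk03
    simp only [List.flatten_cons, List.flatten_nil, List.append_nil, castW_append, hF.c.wordG_append] at h3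
    show hF.wordN (F := K) [0, 3] = _
    rw [h3]
    simp only [Subgroup.coe_mul, mul_assoc]
  case hVy =>
    refine ⟨⟨!![1,0;1,1], by simp [Matrix.det_fin_two_of]⟩, ?_⟩
    show !![1,0;1,1] = bk (Bx N0 hN0) (hF.c.wordG (castW K pairM)).1
    rw [bk_pM h2]
  case hV0 =>
    show bk (Bx N0 hN0) (hF.c.wordG (castW K pairM)).1 1 0 ≠ 0
    rw [bk_pM h2]
    simp
  case hl => exact fun k => Fin.le_last k
  case hz => exact fun k => Fin.zero_le k
  case hlz => decide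
  case hT => exact d.hT0

end main

/-- A `p`-subgroup embedded in a group with cyclic Sylow subgroups is cyclic. -/
theorem cyc_of_inj {G X : Type*} [Group G] [Group X] [Finite X] {r : ℕ} [Fact r.Prime] (hX : ∀ P : Sylow r X, IsCyclic P)
    (R : Subgroup G) (hR : IsPGroup r R) (f : ↥R →* X) (hf : Function.Injective f) : IsCyclic R := by
  have h1 : IsPGroup r f.range := hR.of_surjective f.rangeRestrict f.rangeRestrict_surjective
  obtain ⟨P, hP⟩ := h1.exists_le_sylow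
  haveI := hX P
  let g : ↥R →* ↥(P : Subgroup X) :=
    { toFun := fun x => ⟨f x, hP ⟨x, rfl⟩⟩
      map_one' := Subtype.ext (map_one f)
      map_mul' := fun a b => Subtype.ext (map_mul f a b) }
  exact isCyclic_of_injective g (fun a b h => hf (congrArg Subtype.val h))

/-- The odd Sylow subgroups of `SL₂(q)`, `q` even. -/
theorem sl2_sylow [Fintype K] {N : ℕ} (hq : Fintype.card K = 2 ^ N) {r : ℕ} [hr : Fact r.Prime] (hr2 : r ≠ 2)
    (P : Sylow r (Matrix.SpecialLinearGroup (Fin 2) K)) : IsCyclic P := by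
  have hq1 : 1 < Fintype.card K := Fintype.one_lt_card
  have hG : Nat.card (Matrix.SpecialLinearGroup (Fin 2) K) = (Fintype.card K + 1) * Fintype.card K * (Fintype.card K - 1) := ClassicalSmall.card_SL2
  have hrq : ¬ r ∣ Fintype.card K := by
    rw [hq]
    intro h
    exact hr2 ((Nat.prime_dvd_prime_iff_eq hr.out Nat.prime_two).1 (hr.out.dvd_of_dvd_pow h))
  set q := Fintype.card K with hq'
  have hrp : r.Prime := hr.out
  set a := r ^ (Nat.card (Matrix.SpecialLinearGroup (Fin 2) K)).factorization r with ha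
  have ha1 : a ∣ (q + 1) * q * (q - 1) := by
    rw [← hG]
    exact Nat.ordProj_dvd _ _
  have hcop : ∀ b, ¬ r ∣ b → Nat.Coprime a b := fun b h => Nat.Coprime.pow_left _ ((Nat.Prime.coprime_iff_not_dvd hrp).2 h)
  by_cases h1 : r ∣ q + 1
  · have h2 : ¬ r ∣ q - 1 := by
      intro h2
      have h3 : r ∣ (q + 1) - (q - 1) := Nat.dvd_sub h1 h2
      have h4 : (q + 1) - (q - 1) = 2 := by omega
      rw [h4] at h3
      exact hr2 ((Nat.prime_dvd_prime_iff_eq hrp Nat.prime_two).1 h3)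
    have h5 : a ∣ q + 1 := by
      have h6 : a ∣ (q + 1) * q := (hcop _ h2).dvd_of_dvd_mul_right ha1
      exact (hcop _ hrq).dvd_of_dvd_mul_right h6
    obtain ⟨A, hA, -⟩ := SL2Tori.exists_nonsplit h5
    exact SL2Tori.isCyclic_sylow_of_cyclic_dvd r (Subgroup.zpowers A) (by rw [Nat.card_zpowers, hA]) P
  · have h5 : a ∣ q - 1 := by
      have h6 : a ∣ q * (q - 1) := by
        rw [mul_assoc] at ha1
        exact (hcop _ h1).dvd_of_dvd_mul_left ha1
      exact (hcop _ hrq).dvd_of_dvd_mul_left h6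
    obtain ⟨A, hA, -⟩ := SL2Tori.exists_split h5
    exact SL2Tori.isCyclic_sylow_of_cyclic_dvd r (Subgroup.zpowers A) (by rw [Nat.card_zpowers, hA]) P

section final

variable [Fintype K] {m : ℕ} (hm : 1 ≤ m) (hK : Fintype.card K = 2 ^ (2 * m + 1)) (d : Dat K (2 ^ m))

include hm hK

/-- Odd Sylow subgroups of the rank one subgroups are cyclic. -/
theorem hc_final {r : ℕ} [Fact r.Prime] (hr2 : r ≠ 2) (i : Fin 2) (R : Subgroup ↥(d.twG).G1) (hle : R ≤ Lb (d.Up (Lp i)) (d.Up (Ln i)))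
    (hR : IsPGroup r R) : IsCyclic R := by
  haveI : Suzuki.SzHyp K m := ⟨hm, hK⟩
  haveI : CharP K 2 := Suzuki.charP_two K m
  fin_cases i
  · obtain ⟨w₁, v, w₃, D⟩ := exists_blkD0 d
    obtain ⟨Ψ, hΨ⟩ := D.exists_hom
    let f : ↥R →* Matrix.SpecialLinearGroup (Fin 2) K :=
      { toFun := fun x => Ψ ⟨x.1, hle x.2⟩
        map_one' := map_one Ψ
        map_mul' := fun a b => map_mul Ψ (⟨a.1, hle a.2⟩ : ↥(Lb (d.Up (Lp 0)) (d.Up (Ln 0)))) (⟨b.1, hle b.2⟩ : ↥(Lb (d.Up (Lp 0)) (d.Up (Ln 0)))) }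
    exact cyc_of_inj (fun P => sl2_sylow hK hr2 P) R hR f (fun a b h => Subtype.ext (Subtype.mk.inj (hΨ h)))
  · obtain ⟨w₁, v, w₃, D⟩ := exists_blkD1 hm hK d
    obtain ⟨Ψ, hΨ⟩ := D.exists_hom
    let f : ↥R →* ↥(Cfsg.Sz K m) :=
      { toFun := fun x => Ψ ⟨x.1, hle x.2⟩
        map_one' := map_one Ψ
        map_mul' := fun a b => map_mul Ψ (⟨a.1, hle a.2⟩ : ↥(Lb (d.Up (Lp 1)) (d.Up (Ln 1)))) (⟨b.1, hle b.2⟩ : ↥(Lb (d.Up (Lp 1)) (d.Up (Ln 1)))) }
    exact cyc_of_inj (fun P => SzTorus.isCyclic_sylow hr2 P) R hR f (fun a b h => Subtype.ext (Subtype.mk.inj (hΨ h)))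

/-- There are no central stem extensions with kernel of odd prime order. -/
theorem no_odd {Γ : Type*} [Group Γ] [Finite Γ] (σ : Γ →* ↥(d.twG).G1) (hσ : Cfsg.IsStemExtension σ) {r : ℕ} (hr : r.Prime) (hr2 : r ≠ 2)
    (hk : Nat.card σ.ker = r) : False := by
  haveI : Fact r.Prime := ⟨hr⟩
  obtain ⟨φ, D⟩ := exists_BD hm hK d
  exact no_odd_kernel hσ hr hr2 hk D (fun i R hR hR' => hc_final hm hK d hr2 i R hR hR')

end final

/-- The Schur multiplier of the large Ree groups. -/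
theorem main_S2114 [Fintype K] {m : ℕ} (hm : 1 ≤ m) (hK : Fintype.card K = 2 ^ (2 * m + 1)) :
    Cfsg.HasCyclicSchurMultiplier ↥(twistedF4 K (2 ^ m)) 1 := by
  obtain ⟨d⟩ := exists_dat hK
  apply SchurBasic.hasCyclicSchurMultiplier_one
  intro Γ _ _ σ hσ
  refine SzTorus.ker_bot_of_prime (fun Γ _ _ σ hσ p hp hk => ?_) _ Γ σ rfl hσ
  by_cases hp2 : p = 2
  · subst hp2
    exact no_two_kernel hm hK d σ hσ hk
  · exact no_odd hm hK d σ hσ hp hp2 hk

end Cfsg.Agent.Lib.Chev.TwF4
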