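import Cfsg.Agent.Lib.Chev.TwG2Sch

set_option linter.style.haveILetI false
set_option linter.unusedSectionVars false

/-!
# The Ree groups `²G₂`: two elements generate
-/

namespace Cfsg.Agent.Lib.Chev.TwG2

open Cfsg.Agent.Lib.Chev Cfsg.Lie Equiv Module
open Cfsg.Agent.Lib
open scoped commutatorElement

namespace Dat

variable {K : Type*} [Field K] [Fintype K] {m : ℕ}
variable (R : Ree K m) (d : Dat K (3 ^ m))

local notation "G" => Gm K m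
local notation "Ω" => Gm K m ⧸ B1 K (3 ^ m)

theorem wW_inv_form (t u v : K) : ∃ a b, (d.wW t u v)⁻¹ = d.wW (-t) a b := by
  have e := d.wW_mul t u v (-t) 0 0
  rw [add_neg_cancel] at e
  generalize (u + 0 - t * (d.f (-t)) ^ 3) = A at e
  generalize (v + 0 - -t * u - t ^ 2 * (d.f (-t)) ^ 3 + t * -t * (d.f (-t)) ^ 3) = B at e
  refine ⟨0 + -A, 0 + -B, ?_⟩
  have e2 : (d.wW t u v)⁻¹ = d.wW (-t) 0 0 * (d.wW 0 A B)⁻¹ := by
    rw [← e]
    group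
  rw [e2, d.wW_inv0, d.wW_right]

theorem cm_tt' (t u v t' u' v' : K) : ∃ b, ⁅d.wW t u v, d.wW t' u' v'⁆ = d.wW 0 (t' * d.th t - t * d.th t') b := by
  have e1 : d.wW t' u' v' * d.wW t u v = d.wW (t + t') (u' + u - t' * d.th t) (v' + v - t * u' - t' ^ 2 * d.th t + t' * t * d.th t) := by
    rw [d.wW_mul, add_comm t' t]
  have e2 : d.wW t u v * d.wW t' u' v' = d.wW (t + t') (u + u' - t * d.th t') (v + v' - t' * u - t ^ 2 * d.th t' + t * t' * d.th t') :=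
    d.wW_mul _ _ _ _ _ _
  have e3 : ⁅d.wW t u v, d.wW t' u' v'⁆ = (d.wW t u v * d.wW t' u' v') * (d.wW t' u' v' * d.wW t u v)⁻¹ := by
    rw [commutatorElement_def]
    group
  rw [e3, e2, e1, d.wW_diff (t + t') _ _ (u' + u - t' * d.th t) (v' + v - t * u' - t' ^ 2 * d.th t + t' * t * d.th t), d.conj_Up]
  have e4 : u + u' - t * d.th t' - (u' + u - t' * d.th t) = t' * d.th t - t * d.th t' := by ring
  rw [e4]
  exact ⟨_, rfl⟩

include R d

theorem n1_conj_H (y : Kˣ) : ∃ y' : Kˣ, d.tH R.hs y' = d.n1 * d.tH R.hs y * d.n1⁻¹ := by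
  have hy := (d.mem_Hh_iff R.hs).1 (⟨y, rfl⟩ : d.tH R.hs y ∈ d.Hh R.hs)
  have h1 : d.n1⁻¹ • (pI : Ω) = d.pO := by
    rw [inv_smul_eq_iff, d.n1_smul_pO]
  have h2 : d.n1⁻¹ • d.pO = (pI : Ω) := by
    rw [inv_smul_eq_iff, d.n1_smul_pI]
  have : d.n1 * d.tH R.hs y * d.n1⁻¹ ∈ d.Hh R.hs := by
    rw [d.mem_Hh_iff R.hs]
    constructor
    · rw [mul_smul, mul_smul, h1, hy.2, d.n1_smul_pO]
    · rw [mul_smul, mul_smul, h2, hy.1, d.n1_smul_pI]
  exact this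

theorem exists_two_gen : ∃ a b : G, Subgroup.closure ({a, b} : Set G) = ⊤ := by
  obtain ⟨ζ, hζ⟩ := IsCyclic.exists_generator (α := Kˣ)
  refine ⟨d.tH R.hs ζ, d.wW 1 0 0 * d.n1, ?_⟩
  set H' := Subgroup.closure ({d.tH R.hs ζ, d.wW 1 0 0 * d.n1} : Set G) with hH'
  have ha : d.tH R.hs ζ ∈ H' := Subgroup.subset_closure (by simp)
  have hb : d.wW 1 0 0 * d.n1 ∈ H' := Subgroup.subset_closure (by simp)
  have hH : ∀ y, d.tH R.hs y ∈ H' := by
    intro y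
    obtain ⟨k, rfl⟩ := Subgroup.mem_zpowers_iff.1 (hζ y)
    rw [map_zpow]
    exact Subgroup.zpow_mem _ ha _
  have hconj : ∀ (y : Kˣ) (t u v : K), d.wW t u v ∈ H' →
      d.wW ((y : K) ^ 2 * (d.th y)⁻¹ * t) (d.th y * (y : K)⁻¹ * u) ((y : K) * v) ∈ H' := by
    intro y t u v h
    rw [← d.wW_conj_H R]
    exact Subgroup.mul_mem _ (Subgroup.mul_mem _ (hH y) h) (Subgroup.inv_mem _ (hH y))
  -- coordinates of the first kind
  have hadd : ∀ t t', (∃ u v, d.wW t u v ∈ H') → (∃ u v, d.wW t' u v ∈ H') → ∃ u v, d.wW (t + t') u v ∈ H' := by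
    rintro t t' ⟨u, v, h⟩ ⟨u', v', h'⟩
    have := Subgroup.mul_mem _ h h'
    rw [d.wW_mul] at this
    exact ⟨_, _, this⟩
  have hscale : ∀ (y : Kˣ) t, (∃ u v, d.wW t u v ∈ H') → ∃ u v, d.wW ((y : K) ^ 2 * (d.th y)⁻¹ * t) u v ∈ H' := by
    rintro y t ⟨u, v, h⟩
    exact ⟨_, _, hconj y t u v h⟩
  -- a first element
  obtain ⟨t₀, ht₀, hP₀⟩ : ∃ t₀ : K, t₀ ≠ 0 ∧ ∃ u v, d.wW t₀ u v ∈ H' := by
    obtain ⟨y', hy'⟩ := d.n1_conj_H R ζ
    have hζ1 : ζ ≠ 1 := by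
      rintro rfl
      obtain ⟨y, hy⟩ := exists_y0 R
      apply hy
      have h1 := hζ y
      rw [Subgroup.zpowers_one_eq_bot, Subgroup.mem_bot] at h1
      rw [h1, mul_one]
    have hy1 : y' ≠ 1 := by
      rintro rfl
      apply hζ1
      rw [map_one] at hy'
      have h2 : d.tH R.hs ζ = 1 := by
        have e : d.tH R.hs ζ = d.n1⁻¹ * (d.n1 * d.tH R.hs ζ * d.n1⁻¹) * d.n1 := by group
        rw [e, ← hy']
        group
      exact d.tH_inj R.hs (h2.trans (map_one _).symm)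
    have hy'1 : (y' : K) ^ 2 * (d.th y')⁻¹ ≠ 1 := d.rho6_ne hy1
    have h1 : d.wW 1 0 0 * d.tH R.hs y' * (d.wW 1 0 0)⁻¹ ∈ H' := by
      have e : d.wW 1 0 0 * d.tH R.hs y' * (d.wW 1 0 0)⁻¹ =
          (d.wW 1 0 0 * d.n1) * d.tH R.hs ζ * (d.wW 1 0 0 * d.n1)⁻¹ := by
        rw [hy']
        group
      rw [e]
      exact Subgroup.mul_mem _ (Subgroup.mul_mem _ hb ha) (Subgroup.inv_mem _ hb)
    have h2 : d.wW 1 0 0 * (d.tH R.hs y' * (d.wW 1 0 0)⁻¹ * (d.tH R.hs y')⁻¹) ∈ H' := by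
      have e : d.wW 1 0 0 * (d.tH R.hs y' * (d.wW 1 0 0)⁻¹ * (d.tH R.hs y')⁻¹) =
          (d.wW 1 0 0 * d.tH R.hs y' * (d.wW 1 0 0)⁻¹) * (d.tH R.hs y')⁻¹ := by group
      rw [e]
      exact Subgroup.mul_mem _ h1 (Subgroup.inv_mem _ (hH y'))
    have e3 : d.tH R.hs y' * (d.wW 1 0 0)⁻¹ * (d.tH R.hs y')⁻¹ = (d.tH R.hs y' * d.wW 1 0 0 * (d.tH R.hs y')⁻¹)⁻¹ := by group
    rw [e3, d.wW_conj_H R, mul_zero, mul_zero, mul_one] at h2
    obtain ⟨a', b', e4⟩ := d.wW_inv_form ((y' : K) ^ 2 * (d.th y')⁻¹) 0 0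
    rw [e4, d.wW_mul] at h2
    refine ⟨1 + -((y' : K) ^ 2 * (d.th y')⁻¹), ?_, _, _, h2⟩
    intro h
    apply hy'1
    linear_combination -h
  have hP : ∀ s, ∃ u v, d.wW s u v ∈ H' := by
    intro s
    by_cases hs : s = 0
    · exact ⟨0, 0, by rw [hs, d.wW_one]; exact one_mem _⟩
    · obtain ⟨y, hy⟩ := d.chi_surj (div_ne_zero hs ht₀)
      have := hscale y t₀ hP₀
      rwa [hy, div_mul_cancel₀ _ ht₀] at this
  -- the centre
  have hZ : ∀ v, d.wW 0 0 v ∈ H' := by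
    obtain ⟨u₁, v₁, h₁⟩ := hP 1
    have h₂ : d.wW 0 0 (-1) ∈ H' := by
      have := Subgroup.pow_mem _ h₁ 3
      rw [d.wW_cube] at this
      simpa using this
    intro v
    by_cases hv : v = 0
    · rw [hv, d.wW_one]
      exact one_mem _
    · have := hconj (Units.mk0 (-v) (neg_ne_zero.2 hv)) 0 0 (-1) h₂
      simpa using this
  -- the second coordinate
  obtain ⟨u₀, hu₀, hV₀⟩ : ∃ u₀ : K, u₀ ≠ 0 ∧ d.wW 0 u₀ 0 ∈ H' := by
    obtain ⟨v, hv⟩ := exists_nine R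
    have hx : d.th (v ^ 3) ≠ v ^ 3 := by
      intro h
      apply hv
      have h1 := d.th_th (v ^ 3)
      rw [h, h] at h1
      rw [← pow_mul] at h1
      exact h1.symm
    obtain ⟨u₁, v₁, h₁⟩ := hP 1
    obtain ⟨u₂, v₂, h₂⟩ := hP (v ^ 3)
    obtain ⟨b, hb'⟩ := d.cm_tt' 1 u₁ v₁ (v ^ 3) u₂ v₂
    have h3 : ⁅d.wW 1 u₁ v₁, d.wW (v ^ 3) u₂ v₂⁆ ∈ H' := by
      rw [commutatorElement_def]
      exact Subgroup.mul_mem _ (Subgroup.mul_mem _ (Subgroup.mul_mem _ h₁ h₂) (Subgroup.inv_mem _ h₁)) (Subgroup.inv_mem _ h₂)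
    rw [hb', d.th_one, mul_one, one_mul] at h3
    refine ⟨v ^ 3 - d.th (v ^ 3), sub_ne_zero.2 hx.symm, ?_⟩
    have := Subgroup.mul_mem _ h3 (hZ (-b))
    rwa [d.wW_right, add_zero, add_neg_cancel] at this
  have hV : ∀ c, d.wW 0 c 0 ∈ H' := by
    have hsq : ∀ s : K, d.wW 0 (s * s * u₀) 0 ∈ H' := by
      intro s
      by_cases hs : s = 0
      · rw [hs]
        simp only [mul_zero, zero_mul]
        rw [d.wW_one]
        exact one_mem _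
      · obtain ⟨y, hy⟩ := d.xi_sq hs
        have := hconj y 0 u₀ 0 hV₀
        rw [hy] at this
        simpa using this
    intro c
    set x := c / u₀ with hx
    have e : c = (x + 1) * (x + 1) * u₀ + -((x - 1) * (x - 1) * u₀) := by
      have h3 := d.h3
      have e1 : c = x * u₀ := by rw [hx, div_mul_cancel₀ _ hu₀]
      rw [e1]
      linear_combination (-(x * u₀)) * h3
    have h1 := Subgroup.mul_mem _ (hsq (x + 1)) (Subgroup.inv_mem _ (hsq (x - 1)))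
    rw [d.wW_inv0, d.wW_right, neg_zero, add_zero, ← e] at h1
    exact h1
  -- the unipotent subgroup
  have hU : ∀ t u v, d.wW t u v ∈ H' := by
    intro t u v
    obtain ⟨u₁, v₁, h₁⟩ := hP t
    have e : d.wW t u v = d.wW t u₁ v₁ * (d.wW 0 (u - u₁) 0 * d.wW 0 0 (v - v₁)) := by
      rw [d.wW_split', d.wW_right]
      congr 1 <;> ring
    rw [e]
    exact Subgroup.mul_mem _ h₁ (Subgroup.mul_mem _ (hV _) (hZ _))
  have hn : d.n1 ∈ H' := by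
    have e : d.n1 = (d.wW 1 0 0)⁻¹ * (d.wW 1 0 0 * d.n1) := by group
    rw [e]
    exact Subgroup.mul_mem _ (Subgroup.inv_mem _ (hU _ _ _)) hb
  have hB : ∀ g ∈ B1 K (3 ^ m), g ∈ H' := by
    intro g hg
    obtain ⟨t, u, v, y, e⟩ := d.B_form hg
    have e' : g = d.wW t u v * d.tH R.hs y := Subtype.ext e
    rw [e']
    exact Subgroup.mul_mem _ (hU _ _ _) (hH y)
  rw [eq_top_iff]
  intro g _
  by_cases hg : g ∈ B1 K (3 ^ m)
  · exact hB g hg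
  · obtain ⟨w, hw, b₁, hb₁, e⟩ := d.bru.hbr g hg
    obtain ⟨t, u, v, ew⟩ := (d.mem_U1_iff w.1).1 (Subgroup.mem_subgroupOf.1 hw)
    have ew' : w = d.wW t u v := Subtype.ext ew
    rw [e, ew']
    exact Subgroup.mul_mem _ (Subgroup.mul_mem _ (hU _ _ _) hn) (hB _ hb₁)

end Dat

/-- S2409: `²G₂(q)` is generated by two elements. -/
theorem main_S2409 {K : Type*} [Field K] [Fintype K] {m : ℕ} (hm : 1 ≤ m) (hK : Fintype.card K = 3 ^ (2 * m + 1)) :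
    ∃ a b : ↥(twistedG2 K (3 ^ m)), Subgroup.closure ({a, b} : Set ↥(twistedG2 K (3 ^ m))) = ⊤ := by
  have R : Ree K m := ⟨hm, hK⟩
  obtain ⟨d⟩ := exists_dat hK
  exact d.exists_two_gen R

end Cfsg.Agent.Lib.Chev.TwG2
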