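import Cfsg.Agent.Lib.Chev.TwG2Gen

set_option linter.style.haveILetI false
set_option linter.unusedSectionVars false

/-!
# The Ree groups `²G₂`: the outer automorphism group
-/

namespace Cfsg.Agent.Lib.Chev.TwG2

open Cfsg.Agent.Lib.Chev Cfsg.Lie Equiv Module
open Cfsg.Agent.Lib
open scoped commutatorElement MatrixGroups Pointwise

section galois

variable {K : Type*} [Field K]

theorem xMat_map (D : ChevalleyDatum) (ψ : K →+* K) (r : Fin D.nroots) (t : K) :
    (D.xMat K r t).map ψ = D.xMat K r (ψ t) := by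
  ext row col
  simp only [Matrix.map_apply, ChevalleyDatum.xMat, Matrix.of_apply]
  rcases col with i | s
  · rcases row with i' | u
    · simp only
      split_ifs <;> simp
    · simp only
      split_ifs <;> simp
  · simp only
    split_ifs with h1 h2
    · rcases row with i' | u
      · simp
      · simp only
        split_ifs <;> simp
    · rcases row with i' | u
      · simp
      · simp only
        split_ifs <;> simp
    · rcases row with i' | u
      · simp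
      · simp only [map_add, map_list_sum, List.map_map]
        congr 1
        · split_ifs <;> simp
        · congr 1
          apply List.map_congr_left
          intro km _
          simp

theorem x_map (D : ChevalleyDatum) (ψ : K →+* K) (r : ℕ) (t : K) :
    (D.x K r t).map ψ = D.x K r (ψ t) := by
  unfold ChevalleyDatum.x
  split_ifs with h
  · exact xMat_map D ψ _ t
  · simp

theorem wordMat_map (D : ChevalleyDatum) (ψ : K →+* K) (w : List (ℕ × K)) :
    (D.wordMat K w).map ψ = D.wordMat K (w.map fun p => (p.1, ψ p.2)) := by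
  induction w with
  | nil => simp [ChevalleyDatum.wordMat]
  | cons p L ih =>
    have e1 : ∀ L' : List (ℕ × K), D.wordMat K L' = (L'.map fun p => D.x K p.1 p.2).prod := fun _ => rfl
    simp only [List.map_cons, e1, List.prod_cons] at ih ⊢
    rw [Matrix.map_mul, x_map, ih]

theorem reeWordU_map (ψ : K →+* K) (e : ℕ) (t u v : K) :
    (reeWordU e t u v).map (fun p => (p.1, ψ p.2)) = reeWordU e (ψ t) (ψ u) (ψ v) := by
  simp [reeWordU]

theorem reeWordV_map (ψ : K →+* K) (e : ℕ) (t u v : K) :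
    (reeWordV e t u v).map (fun p => (p.1, ψ p.2)) = reeWordV e (ψ t) (ψ u) (ψ v) := by
  simp [reeWordV, reeWordU, ChevalleyDatum.negWord]

theorem gl_map_mem (ψ : K →+* K) {e : ℕ} {g : GL chevG2.Idx K} (hg : g ∈ twistedG2 K e) :
    Matrix.GeneralLinearGroup.map ψ g ∈ twistedG2 K e := by
  unfold twistedG2 ChevalleyDatum.genSubgroup at hg ⊢
  induction hg using Subgroup.closure_induction with
  | mem x hx =>
    obtain ⟨w, ⟨t, u, v, hw⟩, hx⟩ := hx
    apply Subgroup.subset_closure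
    refine ⟨w.map (fun p => (p.1, ψ p.2)), ⟨ψ t, ψ u, ψ v, ?_⟩, ?_⟩
    · rcases hw with rfl | rfl
      · exact Or.inl (reeWordU_map ψ e t u v)
      · exact Or.inr (reeWordV_map ψ e t u v)
    · rw [← wordMat_map, ← hx]
      rfl
  | one => simp
  | mul x y _ _ hx hy =>
    rw [map_mul]
    exact Subgroup.mul_mem _ hx hy
  | inv x _ hx =>
    rw [map_inv]
    exact Subgroup.inv_mem _ hx

/-- The automorphism of `²G₂` induced by a field automorphism. -/
noncomputable def galA (e : ℕ) (ψ : K ≃+* K) : ↥(twistedG2 K e) ≃* ↥(twistedG2 K e) where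
  toFun g := ⟨Matrix.GeneralLinearGroup.map (ψ : K →+* K) g.1, gl_map_mem _ g.2⟩
  invFun g := ⟨Matrix.GeneralLinearGroup.map (ψ.symm : K →+* K) g.1, gl_map_mem _ g.2⟩
  left_inv g := by
    apply Subtype.ext
    apply Units.ext
    ext i j
    simp [Matrix.GeneralLinearGroup.map_apply]
  right_inv g := by
    apply Subtype.ext
    apply Units.ext
    ext i j
    simp [Matrix.GeneralLinearGroup.map_apply]
  map_mul' x y := by
    apply Subtype.ext
    simp

theorem galA_coe (e : ℕ) (ψ : K ≃+* K) (g : ↥(twistedG2 K e)) (i j : chevG2.Idx) :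
    ((galA e ψ g : ↥(twistedG2 K e)).1 : Matrix chevG2.Idx chevG2.Idx K) i j = ψ ((g.1 : Matrix chevG2.Idx chevG2.Idx K) i j) := by
  show Matrix.GeneralLinearGroup.map (ψ : K →+* K) g.1 i j = _
  rw [Matrix.GeneralLinearGroup.map_apply]
  rfl

/-- Composition. -/
theorem galA_trans (e : ℕ) (ψ ψ' : K ≃+* K) (g : ↥(twistedG2 K e)) :
    galA e (ψ.trans ψ') g = galA e ψ' (galA e ψ g) := by
  apply Subtype.ext
  apply Units.ext
  ext i j
  rw [galA_coe, galA_coe, galA_coe]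
  rfl

theorem galA_symm (e : ℕ) (ψ : K ≃+* K) : (galA e ψ).symm = galA e ψ.symm := rfl

end galois

namespace Dat

variable {K : Type*} [Field K] [Fintype K] {m : ℕ}
variable (R : Ree K m) (d : Dat K (3 ^ m))

local notation "G" => Gm K m
local notation "Ω" => Gm K m ⧸ B1 K (3 ^ m)

theorem galA_wW (ψ : K ≃+* K) (t u v : K) : galA (3 ^ m) ψ (d.wW t u v) = d.wW (ψ t) (ψ u) (ψ v) := by
  apply Subtype.ext
  apply Units.ext
  show ((W (3 ^ m) t u v : GL chevG2.Idx K) : Matrix chevG2.Idx chevG2.Idx K).map (ψ : K →+* K) = ((W (3 ^ m) (ψ t) (ψ u) (ψ v) : GL chevG2.Idx K) : Matrix chevG2.Idx chevG2.Idx K)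
  unfold W
  rw [hF.c.coe_wordG, hF.c.coe_wordG, wordMat_map]
  congr 1
  exact reeWordU_map (ψ : K →+* K) _ t u v

theorem wW_memU (t u v : K) : d.wW t u v ∈ U1 K (3 ^ m) :=
  Subgroup.mem_subgroupOf.2 ⟨d.W_mem_U t u v, d.W_mem t u v⟩

theorem U1_form {w : G} (hw : w ∈ U1 K (3 ^ m)) : ∃ t u v, w = d.wW t u v := by
  obtain ⟨t, u, v, e⟩ := (d.mem_U1_iff w.1).1 (Subgroup.mem_subgroupOf.1 hw)
  exact ⟨t, u, v, Subtype.ext e⟩

/-- An element normalising `U` lies in `B`. -/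
theorem mem_B_of_norm {g : G} (h : ∀ t u v, ∃ t' u' v', g * d.wW t u v * g⁻¹ = d.wW t' u' v') : g ∈ B1 K (3 ^ m) := by
  by_contra hg
  obtain ⟨w, hw, b, hb, e⟩ := d.bru.hbr g hg
  set x := d.wW 1 0 0 with hx
  set u' := b * x * b⁻¹ with hu'
  have hu'U : u' ∈ U1 K (3 ^ m) := d.bru.hnorm b hb x (d.wW_memU _ _ _)
  obtain ⟨t₁, u₁, v₁, h₁⟩ := h 1 0 0
  have h1 : d.n1 * u' * d.n1⁻¹ ∈ U1 K (3 ^ m) := by
    have e1 : d.n1 * u' * d.n1⁻¹ = w⁻¹ * (g * x * g⁻¹) * w := by
      rw [e, hu']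
      group
    rw [e1, h₁]
    exact Subgroup.mul_mem _ (Subgroup.mul_mem _ (Subgroup.inv_mem _ hw) (d.wW_memU _ _ _)) hw
  have h2 := d.bru.hopp _ h1
  have e2 : d.n1⁻¹ * (d.n1 * u' * d.n1⁻¹) * d.n1 = u' := by group
  rw [e2] at h2
  have h3 := h2 (d.bru.hUB hu'U)
  have h4 : u' = 1 := by
    have e3 : u' = d.n1⁻¹ * (d.n1 * u' * d.n1⁻¹) * d.n1 := e2.symm
    rw [e3, h3]
    group
  have h5 : x = 1 := by
    have e3 : x = b⁻¹ * u' * b := by rw [hu']; group
    rw [e3, h4]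
    group
  rw [hx, ← d.wW_one] at h5
  exact one_ne_zero (α := K) (d.wW_inj h5).1

/-- An automorphism preserving `U`. -/
def NormU (A : MulAut G) : Prop := ∀ t u v, ∃ t' u' v', A (d.wW t u v) = d.wW t' u' v'

/-- An automorphism preserving `H`. -/
def NormH (hs : ∀ y : Kˣ, IsSquare y ∨ IsSquare (-y)) (A : MulAut G) : Prop := ∀ y, ∃ y', A (d.tH hs y) = d.tH hs y'

variable {d}

theorem NormU.surj {A : MulAut G} (hA : d.NormU A) (t u v : K) : ∃ t' u' v', A (d.wW t' u' v') = d.wW t u v := by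
  choose a b c hab using hA
  let F : K × K × K → K × K × K := fun p => (a p.1 p.2.1 p.2.2, b p.1 p.2.1 p.2.2, c p.1 p.2.1 p.2.2)
  have hinj : Function.Injective F := by
    rintro ⟨t₁, u₁, v₁⟩ ⟨t₂, u₂, v₂⟩ h
    have h1 : a t₁ u₁ v₁ = a t₂ u₂ v₂ ∧ b t₁ u₁ v₁ = b t₂ u₂ v₂ ∧ c t₁ u₁ v₁ = c t₂ u₂ v₂ := by
      simpa [F] using h
    have h2 : A (d.wW t₁ u₁ v₁) = A (d.wW t₂ u₂ v₂) := by
      rw [hab, hab, h1.1, h1.2.1, h1.2.2]
    obtain ⟨e1, e2, e3⟩ := d.wW_inj (A.injective h2)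
    rw [e1, e2, e3]
  obtain ⟨⟨t', u', v'⟩, hp⟩ := (Finite.injective_iff_surjective.1 hinj) (t, u, v)
  have h1 : a t' u' v' = t ∧ b t' u' v' = u ∧ c t' u' v' = v := by simpa [F] using hp
  exact ⟨t', u', v', by rw [hab, h1.1, h1.2.1, h1.2.2]⟩

theorem NormU.symm {A : MulAut G} (hA : d.NormU A) : d.NormU A⁻¹ := by
  intro t u v
  obtain ⟨t', u', v', e⟩ := hA.surj t u v
  refine ⟨t', u', v', ?_⟩
  rw [← e]
  exact A.symm_apply_apply _

/-- Conjugating elements of `U` preserves the first coordinate. -/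
theorem U_conj (d : Dat K (3 ^ m)) (T U V t u v : K) : ∃ u' v', d.wW T U V * d.wW t u v * (d.wW T U V)⁻¹ = d.wW t u' v' := by
  obtain ⟨a, b, e⟩ := d.wW_inv_form T U V
  rw [e, d.wW_mul, d.wW_mul]
  have e1 : T + t + -T = t := by ring
  rw [e1]
  exact ⟨_, _, rfl⟩

theorem NormU.conj_U {A : MulAut G} (hA : d.NormU A) {w : G} (hw : w ∈ U1 K (3 ^ m)) : d.NormU (MulAut.conj w * A) := by
  intro t u v
  obtain ⟨t', u', v', e⟩ := hA t u v
  obtain ⟨T, U, V, rfl⟩ := d.U1_form hw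
  obtain ⟨a, b, e2⟩ := U_conj d T U V t' u' v'
  exact ⟨t', a, b, by rw [MulAut.mul_apply, MulAut.conj_apply, e, e2]⟩

theorem NormU.mem_B {A : MulAut G} (hA : d.NormU A) {g : G} (hg : g ∈ B1 K (3 ^ m)) : A g ∈ B1 K (3 ^ m) := by
  apply d.mem_B_of_norm
  intro t u v
  obtain ⟨t', u', v', e⟩ := hA.surj t u v
  obtain ⟨t₁, u₁, v₁, e₁⟩ := d.U1_form (d.bru.hnorm g hg _ (d.wW_memU t' u' v'))
  obtain ⟨t₂, u₂, v₂, e₂⟩ := hA t₁ u₁ v₁
  refine ⟨t₂, u₂, v₂, ?_⟩
  rw [← e, ← e₂, ← e₁, map_mul, map_mul, map_inv]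

variable (d)

include R d in
/-- The Sylow `3`-subgroup `U`. -/
theorem exists_sylow_U' : ∃ U : Sylow 3 G, (U : Subgroup G) = U1 K (3 ^ m) := by
  haveI := d.finite_G1
  haveI : Fact (Nat.Prime 3) := ⟨Nat.prime_three⟩
  have hn := R.hK
  have hc : Nat.card ↥(U1 K (3 ^ m)) = (Fintype.card K) ^ 3 := by
    rw [← d.card_U1]
    exact Nat.card_congr (Subgroup.subgroupOfEquivOfLe (inf_le_right)).toEquiv
  have hp : IsPGroup 3 ↥(U1 K (3 ^ m)) := by
    apply IsPGroup.of_card (n := (2 * m + 1) * 3)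
    rw [hc, hn, pow_mul]
  have hq3 : 3 ∣ Fintype.card K := by
    rw [hn]
    exact dvd_pow_self _ (by omega)
  have hq : 0 < Fintype.card K := Fintype.card_pos
  have hi : (U1 K (3 ^ m)).index = (Fintype.card K - 1) * ((Fintype.card K) ^ 3 + 1) := by
    have h1 := Subgroup.card_mul_index (U1 K (3 ^ m))
    have h2 : Nat.card G = (Fintype.card K) ^ 3 * ((Fintype.card K - 1) * ((Fintype.card K) ^ 3 + 1)) := by
      rw [d.card_G1 R.hs, mul_assoc]
    rw [h2, hc] at h1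
    exact Nat.eq_of_mul_eq_mul_left (by positivity) h1
  have hnd : ¬ 3 ∣ (U1 K (3 ^ m)).index := by
    rw [hi, Nat.Prime.dvd_mul Nat.prime_three]
    obtain ⟨r, hr⟩ := hq3
    rintro (h1 | h1)
    · rw [hr] at h1
      omega
    · have h2 : 3 ∣ (Fintype.card K) ^ 3 := dvd_pow (⟨r, hr⟩) (by norm_num)
      omega
  exact ⟨hp.toSylow hnd, rfl⟩

include R in
/-- Every automorphism may be composed with an inner one to preserve `U`. -/
theorem exists_conj_U (α : MulAut G) : ∃ g : G, d.NormU (MulAut.conj g * α) := by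
  haveI := d.finite_G1
  haveI : Fact (Nat.Prime 3) := ⟨Nat.prime_three⟩
  obtain ⟨U₀, hU₀⟩ := d.exists_sylow_U' R
  obtain ⟨g, hg⟩ := MulAction.exists_smul_eq G (α • U₀) U₀
  refine ⟨g, fun t u v => ?_⟩
  have h1 : d.wW t u v ∈ (U₀ : Subgroup G) := by
    rw [hU₀]
    exact d.wW_memU t u v
  have h2 : α (d.wW t u v) ∈ ((α • U₀ : Sylow 3 G) : Subgroup G) := by
    rw [Sylow.pointwise_smul_def]
    exact Subgroup.smul_mem_pointwise_smul _ α _ h1
  have h3 : g * α (d.wW t u v) * g⁻¹ ∈ (U₀ : Subgroup G) := by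
    rw [← hg, Sylow.smul_def, Sylow.pointwise_smul_def]
    exact Subgroup.smul_mem_pointwise_smul _ (MulAut.conj g) _ h2
  rw [hU₀] at h3
  obtain ⟨t', u', v', e⟩ := d.U1_form h3
  exact ⟨t', u', v', by rw [MulAut.mul_apply, MulAut.conj_apply, e]⟩

include R in
theorem tH_mem_B (y : Kˣ) : d.tH R.hs y ∈ B1 K (3 ^ m) := by
  have h := (d.mem_Hh_iff R.hs).1 (⟨y, rfl⟩ : d.tH R.hs y ∈ d.Hh R.hs)
  exact d.fix_pI.1 h.1

include R in
/-- An automorphism preserving `U` may be further composed to preserve `H`. -/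
theorem exists_conj_H {A : MulAut G} (hA : d.NormU A) :
    ∃ w ∈ U1 K (3 ^ m), d.NormU (MulAut.conj w * A) ∧ d.NormH R.hs (MulAut.conj w * A) := by
  have h1 : A d.n1 ∉ B1 K (3 ^ m) := by
    intro h
    apply d.n1_not_mem
    have := hA.symm.mem_B h
    rwa [MulAut.inv_apply_self] at this
  obtain ⟨w, hw, b, hb, e⟩ := d.bru.hbr _ h1
  refine ⟨w⁻¹, Subgroup.inv_mem _ hw, hA.conj_U (Subgroup.inv_mem _ hw), ?_⟩
  set A₁ := MulAut.conj w⁻¹ * A with hA₁
  have hA₁U : d.NormU A₁ := hA.conj_U (Subgroup.inv_mem _ hw)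
  have e1 : A₁ d.n1 = d.n1 * (b * w) := by
    rw [hA₁, MulAut.mul_apply, MulAut.conj_apply, e]
    group
  have hb' : b * w ∈ B1 K (3 ^ m) := Subgroup.mul_mem _ hb (d.bru.hUB hw)
  intro y
  have hy := (d.mem_Hh_iff R.hs).1 (⟨y, rfl⟩ : d.tH R.hs y ∈ d.Hh R.hs)
  have h2 : A₁ (d.tH R.hs y) ∈ d.Hh R.hs := by
    rw [d.mem_Hh_iff R.hs, d.fix_pI, d.fix_pO]
    constructor
    · exact hA₁U.mem_B (d.fix_pI.1 hy.1)
    · have h3 := hA₁U.mem_B (d.fix_pO.1 hy.2)
      have e2 : d.n1⁻¹ * A₁ (d.tH R.hs y) * d.n1 = (b * w) * A₁ (d.n1⁻¹ * d.tH R.hs y * d.n1) * (b * w)⁻¹ := by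
        rw [map_mul, map_mul, map_inv, e1]
        group
      rw [e2]
      exact Subgroup.mul_mem _ (Subgroup.mul_mem _ hb' h3) (Subgroup.inv_mem _ hb')
  obtain ⟨y', e3⟩ := h2
  exact ⟨y', e3.symm⟩

end Dat

namespace Dat

variable {K : Type*} [Field K] [Fintype K] {m : ℕ}
variable (R : Ree K m) (d : Dat K (3 ^ m))

local notation "G" => Gm K m
local notation "Ω" => Gm K m ⧸ B1 K (3 ^ m)

theorem cube_one_iff {t u v : K} : d.wW t u v ^ 3 = 1 ↔ t = 0 := by
  constructor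
  · intro h
    rw [d.wW_cube, ← d.wW_one] at h
    have h1 := (d.wW_inj h).2.2
    have h2 : t ^ 2 * (d.f t) ^ 3 = 0 := neg_eq_zero.1 h1
    rcases mul_eq_zero.1 h2 with h3 | h3
    · exact pow_eq_zero_iff (by norm_num) |>.1 h3
    · have h4 := pow_eq_zero_iff (n := 3) (by norm_num) |>.1 h3
      exact (map_eq_zero _).1 h4
  · rintro rfl
    exact d.wW_zero_cube u v

/-- The action on the first coordinate. -/
structure FirstC (A : MulAut G) (τ : K → K) : Prop where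
  form : ∀ t u v, ∃ u' v', A (d.wW t u v) = d.wW (τ t) u' v'
  add : ∀ a b, τ (a + b) = τ a + τ b
  inj : Function.Injective τ

variable {d}

theorem exists_firstC {A : MulAut G} (hA : d.NormU A) : ∃ τ, d.FirstC A τ := by
  choose a b c hab using hA
  have h0 : ∀ u v, a 0 u v = 0 := by
    intro u v
    apply (d.cube_one_iff (u := b 0 u v) (v := c 0 u v)).1
    rw [← hab, ← map_pow, d.wW_zero_cube, map_one]
  have hform : ∀ t u v, ∃ u' v', A (d.wW t u v) = d.wW (a t 0 0) u' v' := by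
    intro t u v
    rw [← d.wW_split t u v, map_mul, hab, hab, h0, d.wW_right]
    exact ⟨_, _, rfl⟩
  have hadd : ∀ x y, a (x + y) 0 0 = a x 0 0 + a y 0 0 := by
    intro x y
    obtain ⟨u', v', e⟩ := hform (x + y) (0 + 0 - x * (d.f y) ^ 3) (0 + 0 - y * 0 - x ^ 2 * (d.f y) ^ 3 + x * y * (d.f y) ^ 3)
    rw [← d.wW_mul, map_mul, hab, hab, d.wW_mul] at e
    exact (d.wW_inj e).1.symm
  refine ⟨fun t => a t 0 0, hform, hadd, ?_⟩
  intro x y hxy
  have h1 : a (x - y) 0 0 = 0 := by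
    have h2 := hadd (x - y) y
    rw [sub_add_cancel] at h2
    have h3 : a x 0 0 = a y 0 0 := hxy
    rw [h3] at h2
    exact (add_eq_right.1 h2.symm)
  have h2 : d.wW (x - y) 0 0 ^ 3 = 1 := by
    apply A.injective
    rw [map_pow, hab, h1, d.wW_zero_cube, map_one]
  exact sub_eq_zero.1 (d.cube_one_iff.1 h2)

include R in
theorem firstC_equiv {A : MulAut G} {τ : K → K} (hτ : d.FirstC A τ) {y y' : Kˣ} (h : A (d.tH R.hs y) = d.tH R.hs y') (t : K) :
    τ ((y : K) ^ 2 * (d.th y)⁻¹ * t) = (y' : K) ^ 2 * (d.th y')⁻¹ * τ t := by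
  obtain ⟨u₁, v₁, e₁⟩ := hτ.form t 0 0
  have e2 := congrArg A (d.wW_conj_H R y t 0 0)
  rw [map_mul, map_mul, map_inv, h, e₁, d.wW_conj_H R] at e2
  obtain ⟨u₂, v₂, e₃⟩ := hτ.form ((y : K) ^ 2 * (d.th y)⁻¹ * t) (d.th y * (y : K)⁻¹ * 0) ((y : K) * 0)
  rw [e₃] at e2
  exact (d.wW_inj e2).1.symm

include R in
/-- The action on the first coordinate is semilinear. -/
theorem exists_ring {A : MulAut G} {τ : K → K} (hτ : d.FirstC A τ) (hH : d.NormH R.hs A) :
    τ 1 ≠ 0 ∧ ∃ ψ : K ≃+* K, ∀ t, τ t = τ 1 * ψ t := by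
  have h00 : τ 0 = 0 := by
    have := hτ.add 0 0
    rw [add_zero] at this
    exact left_eq_add.1 this
  have hc : τ 1 ≠ 0 := by
    intro h
    have : (1 : K) = 0 := hτ.inj (h.trans h00.symm)
    exact one_ne_zero this
  refine ⟨hc, ?_⟩
  set c := τ 1 with hcdef
  let f : K →+* K :=
    { toFun := fun s => c⁻¹ * τ s
      map_one' := inv_mul_cancel₀ hc
      map_zero' := by rw [h00, mul_zero]
      map_add' := fun a b => by rw [hτ.add, mul_add]
      map_mul' := fun a b => by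
        by_cases ha : a = 0
        · rw [ha, zero_mul, h00, mul_zero, zero_mul]
        · obtain ⟨y, hy⟩ := d.chi_surj ha
          obtain ⟨y', hy'⟩ := hH y
          have e1 := firstC_equiv R hτ hy' b
          have e2 := firstC_equiv R hτ hy' 1
          rw [hy] at e1
          rw [hy, mul_one, ← hcdef] at e2
          rw [e1, e2]
          field_simp }
  have hbij : Function.Bijective f := by
    have h1 : Function.Injective f := f.injective
    exact ⟨h1, Finite.injective_iff_surjective.1 h1⟩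
  refine ⟨RingEquiv.ofBijective f hbij, fun t => ?_⟩
  show τ t = c * (c⁻¹ * τ t)
  rw [← mul_assoc, mul_inv_cancel₀ hc, one_mul]

end Dat

namespace Dat

variable {K : Type*} [Field K] [Fintype K] {m : ℕ}
variable (R : Ree K m) (d : Dat K (3 ^ m))

local notation "G" => Gm K m
local notation "Ω" => Gm K m ⧸ B1 K (3 ^ m)

section fixed

variable {d}
variable {A : MulAut (Gm K m)} (hU : ∀ t u v : K, ∃ u' v' : K, A (d.wW t u v) = d.wW t u' v') (hH : ∀ y : Kˣ, A (d.tH R.hs y) = d.tH R.hs y)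

omit [Fintype K] in
theorem chi_spec (d : Dat K (3 ^ m)) {y : K} (hy : y ≠ 0) :
    (y ^ 2 * (d.th y)⁻¹) ^ 2 * d.th (y ^ 2 * (d.th y)⁻¹) = y := by
  have hf : d.f y ≠ 0 := (map_ne_zero _).2 hy
  rw [d.th_mul, d.th_inv, d.th_th, pow_two y, d.th_mul]
  field_simp

include hU

/-- The centre of `U` is fixed. -/
theorem fix_Z (v : K) : A (d.wW 0 0 v) = d.wW 0 0 v := by
  by_cases hv : v = 0
  · rw [hv, d.wW_one, map_one]
  have hv' : -v ≠ 0 := neg_ne_zero.2 hv
  set t := (-v) ^ 2 * (d.th (-v))⁻¹ with ht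
  have e := chi_spec d hv'
  rw [← ht] at e
  obtain ⟨u', v', e1⟩ := hU t 0 0
  have e2 : d.wW t 0 0 ^ 3 = d.wW 0 0 v := by
    rw [d.wW_cube]
    congr 1
    show -(t ^ 2 * d.th t) = v
    rw [e, neg_neg]
  rw [← e2, map_pow, e1, d.wW_cube, d.wW_cube]

include hH

theorem fix_second (u : K) : ∃ b, A (d.wW 0 u 0) = d.wW 0 u b := by
  choose l h hlh using fun u => hU 0 u 0
  have hadd : ∀ a b, l (a + b) = l a + l b := by
    intro a b
    have e1 : d.wW 0 a 0 * d.wW 0 b 0 = d.wW 0 (a + b) 0 := by rw [d.wW_right, add_zero]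
    have e2 := congrArg A e1
    rw [map_mul, hlh, hlh, hlh, d.wW_right] at e2
    exact (d.wW_inj e2).2.1.symm
  have hl0 : l 0 = 0 := by
    have := hadd 0 0
    rw [add_zero] at this
    exact left_eq_add.1 this
  have hneg : ∀ a, l (-a) = - l a := by
    intro a
    have := hadd a (-a)
    rw [add_neg_cancel, hl0] at this
    exact (neg_eq_of_add_eq_zero_right this.symm).symm
  have hxi : ∀ (y : Kˣ) a, l (d.th y * (y : K)⁻¹ * a) = d.th y * (y : K)⁻¹ * l a := by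
    intro y a
    have e1 := d.wW_conj_H R y 0 a 0
    rw [mul_zero, mul_zero] at e1
    have e2 := congrArg A e1
    rw [map_mul, map_mul, map_inv, hH, hlh, hlh, d.wW_conj_H R] at e2
    exact (d.wW_inj e2).2.1.symm
  have hsq : ∀ s a, l (s * s * a) = s * s * l a := by
    intro s a
    by_cases hs : s = 0
    · rw [hs, mul_zero, zero_mul, zero_mul, hl0]
    · obtain ⟨y, hy⟩ := d.xi_sq hs
      have := hxi y a
      rwa [hy] at this
  have h3 := d.h3
  have hlin : ∀ x a, l (x * a) = x * l a := by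
    intro x a
    have e : x * a = (x + 1) * (x + 1) * a + -((x - 1) * (x - 1) * a) := by
      linear_combination (-(x * a)) * h3
    rw [e, hadd, hneg, hsq, hsq]
    linear_combination (x * l a) * h3
  -- the value at one
  obtain ⟨v, hv⟩ := exists_nine R
  have hx : d.th (v ^ 3) ≠ v ^ 3 := by
    intro h
    apply hv
    have h1 := d.th_th (v ^ 3)
    rw [h, h] at h1
    rw [← pow_mul] at h1
    exact h1.symm
  set x := v ^ 3 with hxdef
  have hD : x - d.th x ≠ 0 := sub_ne_zero.2 hx.symm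
  obtain ⟨b₁, e1⟩ := d.cm_tt' 1 0 0 x 0 0
  obtain ⟨u₁, v₁, e2⟩ := hU 1 0 0
  obtain ⟨u₂, v₂, e3⟩ := hU x 0 0
  obtain ⟨b₂, e4⟩ := d.cm_tt' 1 u₁ v₁ x u₂ v₂
  rw [d.th_one, mul_one, one_mul] at e1 e4
  have e5 : A ⁅d.wW 1 0 0, d.wW x 0 0⁆ = ⁅d.wW 1 u₁ v₁, d.wW x u₂ v₂⁆ := by
    rw [map_commutatorElement, e2, e3]
  rw [e1, e4, ← d.wW_split' (x - d.th x) b₁, map_mul, hlh, d.fix_Z hU, d.wW_right] at e5
  have e6 : l (x - d.th x) = x - d.th x := by
    have := (d.wW_inj e5).2.1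
    rwa [add_zero] at this
  have e7 := hlin (x - d.th x) 1
  rw [mul_one, e6] at e7
  have e8 : l 1 = 1 := by
    have : (x - d.th x) * 1 = (x - d.th x) * l 1 := by rw [mul_one]; exact e7
    exact (mul_left_cancel₀ hD this).symm
  have e9 : l u = u := by
    have := hlin u 1
    rwa [mul_one, e8, mul_one] at this
  exact ⟨h u, by rw [hlh, e9]⟩

/-- Automorphisms fixing `H` and acting trivially on the first coordinate are trivial on `U`. -/
theorem fix_U (t u v : K) : A (d.wW t u v) = d.wW t u v := by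
  have h3 := d.h3
  choose h hh using d.fix_second R hU hH
  choose f g hfg using fun t => hU t 0 0
  have hf0 : ∀ (y : Kˣ) t, f ((y : K) ^ 2 * (d.th y)⁻¹ * t) = d.th y * (y : K)⁻¹ * f t ∧
      g ((y : K) ^ 2 * (d.th y)⁻¹ * t) = (y : K) * g t := by
    intro y t
    have e1 := d.wW_conj_H R y t 0 0
    rw [mul_zero, mul_zero] at e1
    have e2 := congrArg A e1
    rw [map_mul, map_mul, map_inv, hH, hfg, hfg, d.wW_conj_H R] at e2
    have e3 := d.wW_inj e2
    exact ⟨e3.2.1.symm, e3.2.2.symm⟩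
  have hom : ∀ t t', f t + f t' - t * d.th t' = f (t + t') + -(t * d.th t') ∧
      g t + g t' - t' * f t - t ^ 2 * d.th t' + t * t' * d.th t' =
        g (t + t') + (h (-(t * d.th t')) + (-(t ^ 2 * d.th t') + t * t' * d.th t')) := by
    intro t t'
    have e1 : d.wW t 0 0 * d.wW t' 0 0 = d.wW (t + t') 0 0 * (d.wW 0 (-(t * d.th t')) 0 * d.wW 0 0 (-(t ^ 2 * d.th t') + t * t' * d.th t')) := by
      rw [d.wW_split', d.wW_split, d.wW_mul]
      congr 1 <;> ring
    have e2 := congrArg A e1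
    rw [map_mul, map_mul, map_mul, hfg, hfg, hfg, hh, d.fix_Z hU, d.wW_right, d.wW_right, d.wW_mul, add_zero] at e2
    have e3 := d.wW_inj e2
    exact ⟨e3.2.1, e3.2.2⟩
  have hfadd : ∀ t t', f (t + t') = f t + f t' := by
    intro t t'
    have := (hom t t').1
    linear_combination -this
  have hf00 : f 0 = 0 := by
    have := hfadd 0 0
    rw [add_zero] at this
    exact left_eq_add.1 this
  have hfzero : ∀ t, f t = 0 := by
    intro t
    have e1 := (hf0 (-1) t).1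
    have e2 : (((-1 : Kˣ) : K)) = -1 := by simp
    rw [e2, d.th_neg, d.th_one] at e1
    have e3 : (-1 : K) ^ 2 * (-1 : K)⁻¹ * t = -t := by field_simp
    have e4 : (-1 : K) * (-1 : K)⁻¹ * f t = f t := by field_simp
    rw [e3, e4] at e1
    have e5 := hfadd t (-t)
    rw [add_neg_cancel, hf00, e1] at e5
    have e6 : (2 : K) * f t = 0 := by linear_combination -e5
    rcases mul_eq_zero.1 e6 with e7 | e7
    · exfalso
      have : (1 : K) = 0 := by linear_combination h3 - e7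
      exact one_ne_zero this
    · exact e7
  have hg00 : g 0 = 0 := by
    have e1 := hfg 0
    rw [d.wW_one, map_one, ← d.wW_one] at e1
    exact (d.wW_inj e1).2.2.symm
  have hgform : ∀ s, g s = s ^ 2 * d.th s * g 1 := by
    intro s
    by_cases hs : s = 0
    · rw [hs, hg00]
      simp
    · have h1 := d.th_ne hs
      have e1 := d.chi_surj hs
      set y₀ := Units.mk0 (s ^ 2 * d.th s) (mul_ne_zero (pow_ne_zero _ hs) h1) with hy₀
      have e2 : ((y₀ : K)) ^ 2 * (d.th y₀)⁻¹ = s := by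
        show (s ^ 2 * d.th s) ^ 2 * (d.th (s ^ 2 * d.th s))⁻¹ = s
        rw [d.th_mul, d.th_th, pow_two s, d.th_mul]
        have hf : d.f s ≠ 0 := (map_ne_zero _).2 hs
        field_simp
      have e3 := (hf0 y₀ 1).2
      rw [mul_one, e2] at e3
      exact e3
  have hg : ∀ t t', g t + g t' = g (t + t') + h (-(t * d.th t')) := by
    intro t t'
    have := (hom t t').2
    rw [hfzero, mul_zero] at this
    linear_combination this
  have hhadd : ∀ a b, h (a + b) = h a + h b := by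
    intro a b
    have e1 : d.wW 0 a 0 * d.wW 0 b 0 = d.wW 0 (a + b) 0 := by rw [d.wW_right, add_zero]
    have e2 := congrArg A e1
    rw [map_mul, hh, hh, hh, d.wW_right] at e2
    exact (d.wW_inj e2).2.2.symm
  -- the constant vanishes
  obtain ⟨w, hw⟩ := exists_nine R
  have hx : d.th (w ^ 3) ≠ w ^ 3 := by
    intro h'
    apply hw
    have h1 := d.th_th (w ^ 3)
    rw [h', h'] at h1
    rw [← pow_mul] at h1
    exact h1.symm
  set x := w ^ 3 with hxdef
  have he : g 1 = 0 := by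
    obtain ⟨c, hc⟩ : ∃ c, c = g 1 := ⟨_, rfl⟩
    rw [← hc] at hgform
    have e1 := hg x 1
    have e2 := hg (x + 1) 1
    have e3 := hg 1 1
    have e4 := hhadd (-x) (-1)
    rw [d.th_one, mul_one] at e1 e2 e3
    have e5 : -x + -1 = -(x + 1) := by ring
    rw [e5] at e4
    have e6 : (1 : K) + 1 = 2 := by norm_num
    rw [e6] at e3
    have e7 : x + 1 + 1 = x + 2 := by ring
    rw [e7] at e2
    have hT1 : d.th (x + 1) = d.th x + 1 := by rw [d.th_add, d.th_one]
    have hT2 : d.th (x + 2) = d.th x + 2 := by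
      have : x + 2 = x + 1 + 1 := by ring
      rw [this, d.th_add, hT1, d.th_one]
      ring
    have hT3 : d.th (2 : K) = 2 := by
      have : (2 : K) = 1 + 1 := by norm_num
      rw [this, d.th_add, d.th_one]
    rw [hgform (x + 1), hgform x, hgform 1, hT1, d.th_one] at e1
    rw [hgform (x + 2), hgform (x + 1), hgform 1, hT1, hT2, d.th_one] at e2
    rw [hgform 2, hgform 1, hT3, d.th_one] at e3
    have e8 : (x - d.th x) * c = 0 := by
      generalize d.th x = T at *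
      linear_combination (-1 : K) * e2 + e1 + e3 - e4 - (x + T) * c * h3
    rw [← hc]
    rcases mul_eq_zero.1 e8 with e9 | e9
    · exact absurd (sub_eq_zero.1 e9).symm hx
    · exact e9
  have hgzero : ∀ s, g s = 0 := by
    intro s
    rw [hgform, he, mul_zero]
  have hhzero : ∀ s, h s = 0 := by
    intro s
    have e1 := hg (-s) 1
    rw [d.th_one, mul_one, neg_neg, hgzero, hgzero, hgzero, add_zero, zero_add] at e1
    exact e1.symm
  have e1 : d.wW t u v = d.wW t 0 0 * (d.wW 0 u 0 * d.wW 0 0 v) := by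
    rw [d.wW_split', d.wW_split]
  rw [e1, map_mul, map_mul, hfg, hfzero, hgzero, hh, hhzero, d.fix_Z hU]

end fixed

end Dat

namespace Dat

variable {K : Type*} [Field K] [Fintype K] {m : ℕ}
variable (R : Ree K m) (d : Dat K (3 ^ m))

local notation "G" => Gm K m
local notation "Ω" => Gm K m ⧸ B1 K (3 ^ m)

include R d

/-- An automorphism fixing `H` and acting trivially on the first coordinate is trivial. -/
theorem fix_all {A : MulAut G} (hU : ∀ t u v : K, ∃ u' v' : K, A (d.wW t u v) = d.wW t u' v')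
    (hH : ∀ y : Kˣ, A (d.tH R.hs y) = d.tH R.hs y) : A = 1 := by
  have hUf := d.fix_U R hU hH
  have hB : ∀ g ∈ B1 K (3 ^ m), A g = g := by
    intro g hg
    obtain ⟨t, u, v, y, e⟩ := d.B_form hg
    have e' : g = d.wW t u v * d.tH R.hs y := Subtype.ext e
    rw [e', map_mul, hUf, hH]
  have hn : A d.n1 ∉ B1 K (3 ^ m) := by
    intro h
    have h1 := hB _ h
    have h2 := A.injective h1
    exact d.n1_not_mem (h2 ▸ h)
  obtain ⟨y, hy⟩ := exists_y0 R
  obtain ⟨y', hy'⟩ := d.n1_conj_H R y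
  have hy'1 : d.tH R.hs y' * d.tH R.hs y' ≠ 1 := by
    intro h
    apply hy
    apply d.tH_inj R.hs
    rw [map_mul, map_one]
    rw [hy'] at h
    have e : d.tH R.hs y * d.tH R.hs y = d.n1⁻¹ * (d.n1 * d.tH R.hs y * d.n1⁻¹ * (d.n1 * d.tH R.hs y * d.n1⁻¹)) * d.n1 := by group
    rw [e, h]
    group
  have e1 : d.tH R.hs y' * A d.n1 = A d.n1 * d.tH R.hs y := by
    have h1 := congrArg A hy'
    rw [map_mul, map_mul, map_inv, hH, hH] at h1
    rw [h1]
    group
  have hy0 := (d.mem_Hh_iff R.hs).1 (⟨y, rfl⟩ : d.tH R.hs y ∈ d.Hh R.hs)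
  have hy1 := (d.mem_Hh_iff R.hs).1 (⟨y', rfl⟩ : d.tH R.hs y' ∈ d.Hh R.hs)
  have hp : d.tH R.hs y' • (A d.n1 • (pI : Ω)) = A d.n1 • (pI : Ω) := by
    rw [← mul_smul, e1, mul_smul, hy0.1]
  have hp1 : A d.n1 • (pI : Ω) ≠ pI := fun h => hn (d.fix_pI.1 h)
  have hp2 : A d.n1 • (pI : Ω) = d.pO := by
    by_contra hne
    rcases d.fix_three hy1.1 hy1.2 hp d.pI_ne_pO hp1.symm (Ne.symm hne) with h4 | ⟨g, h4⟩
    · apply hy'1
      rw [h4, one_mul]
    · apply hy'1
      rw [h4]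
      calc g * d.a₀ * g⁻¹ * (g * d.a₀ * g⁻¹) = g * (d.a₀ * d.a₀) * g⁻¹ := by group
        _ = 1 := by rw [d.a₀_sq]; group
  have hb₀ : d.n1⁻¹ * A d.n1 ∈ B1 K (3 ^ m) := by
    apply d.fix_pI.1
    rw [mul_smul, hp2, inv_smul_eq_iff, d.n1_smul_pI]
  have h7 : ∀ g : G, g⁻¹ * A g ∈ B1 K (3 ^ m) := by
    intro g
    by_cases hg : g ∈ B1 K (3 ^ m)
    · rw [hB g hg, inv_mul_cancel]
      exact one_mem _
    · obtain ⟨w, hw, b, hb, e⟩ := d.bru.hbr g hg
      obtain ⟨T, U, V, rfl⟩ := d.U1_form hw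
      have e2 : g⁻¹ * A g = b⁻¹ * (d.n1⁻¹ * A d.n1) * b := by
        rw [e, map_mul, map_mul, hUf, hB b hb]
        group
      rw [e2]
      exact Subgroup.mul_mem _ (Subgroup.mul_mem _ (Subgroup.inv_mem _ hb) hb₀) hb
  have h8 : ∀ g x : G, x⁻¹ * (g⁻¹ * A g) * x ∈ B1 K (3 ^ m) := by
    intro g x
    have e : x⁻¹ * (g⁻¹ * A g) * x = ((g * x)⁻¹ * A (g * x)) * (x⁻¹ * A x)⁻¹ := by
      rw [map_mul]
      group
    rw [e]
    exact Subgroup.mul_mem _ (h7 _) (Subgroup.inv_mem _ (h7 _))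
  haveI hsimple := R.simple d
  have hN := hsimple.eq_bot_or_eq_top_of_normal (B1 K (3 ^ m)).normalCore (Subgroup.normalCore_normal _)
  have hcore : (B1 K (3 ^ m)).normalCore = ⊥ := by
    rcases hN with h | h
    · exact h
    · exfalso
      have h1 : d.n1 ∈ (B1 K (3 ^ m)).normalCore := by
        rw [h]
        exact Subgroup.mem_top _
      exact d.n1_not_mem (Subgroup.normalCore_le _ h1)
  apply MulEquiv.ext
  intro g
  have h9 : g⁻¹ * A g ∈ (B1 K (3 ^ m)).normalCore := by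
    intro x
    have := h8 g x⁻¹
    rwa [inv_inv] at this
  rw [hcore, Subgroup.mem_bot] at h9
  exact (inv_mul_eq_one.1 h9).symm

/-- Every automorphism is a product of inner and field automorphisms. -/
theorem exists_decomp (α : MulAut G) : ∃ (ψ : K ≃+* K) (g₁ g₂ : G),
    MulAut.conj g₂ * (galA (3 ^ m) ψ.symm) * MulAut.conj g₁ * α = 1 := by
  obtain ⟨g₀, h₀⟩ := d.exists_conj_U R α
  obtain ⟨w₀, hw₀, h₁U, h₁H⟩ := d.exists_conj_H R h₀
  obtain ⟨τ, hτ⟩ := exists_firstC h₁U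
  obtain ⟨hc, ψ, hψ⟩ := exists_ring R hτ h₁H
  set A₁ := MulAut.conj w₀ * (MulAut.conj g₀ * α) with hA₁
  set c' := ψ.symm (τ 1) with hc'
  have hc'0 : c' ≠ 0 := (map_ne_zero ψ.symm).2 hc
  set A₂ : MulAut G := galA (3 ^ m) ψ.symm * A₁ with hA₂
  have h₂ : ∀ t u v : K, ∃ u' v' : K, A₂ (d.wW t u v) = d.wW (c' * t) u' v' := by
    intro t u v
    obtain ⟨u', v', e⟩ := hτ.form t u v
    refine ⟨ψ.symm u', ψ.symm v', ?_⟩
    rw [hA₂, MulAut.mul_apply, e]
    show galA (3 ^ m) ψ.symm (d.wW (τ t) u' v') = _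
    rw [d.galA_wW, hψ, map_mul, RingEquiv.symm_apply_apply]
  have h₂U : d.NormU A₂ := by
    intro t u v
    obtain ⟨u', v', e⟩ := h₂ t u v
    exact ⟨_, _, _, e⟩
  obtain ⟨w₁, hw₁, h₃U, h₃H⟩ := d.exists_conj_H R h₂U
  set A₃ := MulAut.conj w₁ * A₂ with hA₃
  have h₃ : ∀ t u v : K, ∃ u' v' : K, A₃ (d.wW t u v) = d.wW (c' * t) u' v' := by
    intro t u v
    obtain ⟨u', v', e⟩ := h₂ t u v
    obtain ⟨T, U, V, rfl⟩ := d.U1_form hw₁
    obtain ⟨a, b, e2⟩ := U_conj d T U V (c' * t) u' v'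
    exact ⟨a, b, by rw [hA₃, MulAut.mul_apply, MulAut.conj_apply, e, e2]⟩
  obtain ⟨y₀, hy₀⟩ := d.chi_surj (inv_ne_zero hc'0)
  set A₄ := MulAut.conj (d.tH R.hs y₀) * A₃ with hA₄
  have h₄ : ∀ t u v : K, ∃ u' v' : K, A₄ (d.wW t u v) = d.wW t u' v' := by
    intro t u v
    obtain ⟨u', v', e⟩ := h₃ t u v
    refine ⟨d.th y₀ * (y₀ : K)⁻¹ * u', (y₀ : K) * v', ?_⟩
    rw [hA₄, MulAut.mul_apply, MulAut.conj_apply, e, d.wW_conj_H R, hy₀, ← mul_assoc, inv_mul_cancel₀ hc'0, one_mul]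
  have h₄H : ∀ y : Kˣ, A₄ (d.tH R.hs y) = d.tH R.hs y := by
    intro y
    obtain ⟨y', e⟩ := h₃H y
    have e1 : A₄ (d.tH R.hs y) = d.tH R.hs y' := by
      rw [hA₄, MulAut.mul_apply, MulAut.conj_apply, e, ← map_mul, ← map_inv, ← map_mul]
      congr 1
      rw [mul_comm, inv_mul_cancel_left]
    have hτ₄ : d.FirstC A₄ (fun t => t) := ⟨h₄, fun _ _ => rfl, fun _ _ h => h⟩
    have e2 := firstC_equiv R hτ₄ e1 1
    simp only [mul_one] at e2
    -- the two torus elements act the same way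
    have e3 := d.wW_conj_H R y 1 0 0
    have e4 := d.wW_conj_H R y' 1 0 0
    rw [mul_one, mul_zero, mul_zero, e2] at e3
    rw [mul_one, mul_zero, mul_zero] at e4
    have e5 : d.tH R.hs (y'⁻¹ * y) * d.wW 1 0 0 * (d.tH R.hs (y'⁻¹ * y))⁻¹ = d.wW 1 0 0 := by
      have e6 : d.tH R.hs y * d.wW 1 0 0 * (d.tH R.hs y)⁻¹ = d.tH R.hs y' * d.wW 1 0 0 * (d.tH R.hs y')⁻¹ := e3.trans e4.symm
      rw [map_mul, map_inv]
      calc (d.tH R.hs y')⁻¹ * d.tH R.hs y * d.wW 1 0 0 * ((d.tH R.hs y')⁻¹ * d.tH R.hs y)⁻¹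
          = (d.tH R.hs y')⁻¹ * (d.tH R.hs y * d.wW 1 0 0 * (d.tH R.hs y)⁻¹) * d.tH R.hs y' := by group
        _ = d.wW 1 0 0 := by rw [e6]; group
    rw [d.wW_conj_H R, mul_one, mul_zero, mul_zero] at e5
    have e7 := (d.wW_inj e5).1
    have e8 : y'⁻¹ * y = 1 := by
      by_contra hne
      exact d.rho6_ne hne e7
    have e9 : y = y' := by
      have := inv_mul_eq_one.1 e8
      exact this.symm
    rw [e1, e9]
  have hfin := d.fix_all R h₄ h₄H
  refine ⟨ψ, w₀ * g₀, d.tH R.hs y₀ * w₁, ?_⟩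
  rw [map_mul, map_mul]
  rw [hA₄, hA₃, hA₂, hA₁] at hfin
  rw [← hfin]
  group

/-- A non-trivial field automorphism is not inner. -/
theorem gal_inner {ψ : K ≃+* K} {g : G} (h : ∀ x : G, galA (3 ^ m) ψ x = g * x * g⁻¹) : ψ = RingEquiv.refl K := by
  have hg : g ∈ B1 K (3 ^ m) := by
    apply d.mem_B_of_norm
    intro t u v
    rw [← h, d.galA_wW]
    exact ⟨_, _, _, rfl⟩
  obtain ⟨T, U, V, y, e⟩ := d.B_form hg
  have e' : g = d.wW T U V * d.tH R.hs y := Subtype.ext e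
  have key : ∀ t : K, ψ t = (y : K) ^ 2 * (d.th y)⁻¹ * t := by
    intro t
    have e1 := h (d.wW t 0 0)
    rw [d.galA_wW, e'] at e1
    have e2 : (d.wW T U V * d.tH R.hs y) * d.wW t 0 0 * (d.wW T U V * d.tH R.hs y)⁻¹ =
        d.wW T U V * (d.tH R.hs y * d.wW t 0 0 * (d.tH R.hs y)⁻¹) * (d.wW T U V)⁻¹ := by group
    rw [e2, d.wW_conj_H R] at e1
    obtain ⟨a, b, e3⟩ := U_conj d T U V ((y : K) ^ 2 * (d.th y)⁻¹ * t) (d.th y * (y : K)⁻¹ * 0) ((y : K) * 0)
    rw [e3] at e1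
    exact (d.wW_inj e1).1
  have h1 := key 1
  rw [map_one, mul_one] at h1
  ext t
  rw [key t, ← h1, one_mul]
  rfl

end Dat

section count

variable {K : Type*} [Field K] [Fintype K]

/-- The number of automorphisms of a finite field. -/
theorem card_ringAut {n : ℕ} (h3 : (3 : K) = 0) (hK : Fintype.card K = 3 ^ n) : Nat.card (K ≃+* K) = n := by
  haveI : Fact (Nat.Prime 3) := ⟨Nat.prime_three⟩
  haveI : CharP K 3 := (CharP.charP_iff_prime_eq_zero Nat.prime_three).2 (by exact_mod_cast h3)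
  letI : Algebra (ZMod 3) K := ZMod.algebra K 3
  have e1 : (K ≃+* K) ≃ (K ≃ₐ[ZMod 3] K) :=
    { toFun := fun ψ => AlgEquiv.ofRingEquiv (f := ψ) (fun r => by
        have : (ψ : K →+* K).comp (algebraMap (ZMod 3) K) = algebraMap (ZMod 3) K := RingHom.ext_zmod _ _
        exact congrArg (fun f : ZMod 3 →+* K => f r) this)
      invFun := fun a => a.toRingEquiv
      left_inv := fun ψ => by
        ext x
        rfl
      right_inv := fun a => by
        ext x
        rfl }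
  rw [Nat.card_congr e1, IsGalois.card_aut_eq_finrank]
  have e2 := Module.card_eq_pow_finrank (K := ZMod 3) (V := K)
  rw [ZMod.card, hK] at e2
  exact (Nat.pow_right_injective (le_refl 2 |>.trans (by norm_num)) e2).symm

variable {m : ℕ}

/-- S2127: the outer automorphism group of `²G₂(q)`, `q = 3^(2m+1)`, `m ≥ 1`, has order `2m+1`. -/
theorem main_S2127 (hm : 1 ≤ m) (hK : Fintype.card K = 3 ^ (2 * m + 1)) :
    Nat.card (Cfsg.Out ↥(twistedG2 K (3 ^ m))) = 2 * m + 1 := by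
  have R : Ree K m := ⟨hm, hK⟩
  obtain ⟨d⟩ := exists_dat hK
  rw [← card_ringAut d.h3 hK]
  symm
  apply Nat.card_congr
  apply Equiv.ofBijective (fun ψ : K ≃+* K => ((galA (3 ^ m) ψ : MulAut ↥(twistedG2 K (3 ^ m))) : Cfsg.Out ↥(twistedG2 K (3 ^ m))))
  constructor
  · intro ψ ψ' h
    have h1 := QuotientGroup.eq.1 h
    obtain ⟨g, hg⟩ := h1
    have h2 : ∀ x, galA (3 ^ m) (ψ'.trans ψ.symm) x = g * x * g⁻¹ := by
      intro x
      rw [galA_trans, ← galA_symm]
      have := DFunLike.congr_fun hg x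
      rw [MulAut.conj_apply] at this
      rw [this]
      rfl
    have h3 := d.gal_inner R h2
    ext t
    have h4 := congrArg (fun f : K ≃+* K => f t) h3
    have h5 : ψ.symm (ψ' t) = t := h4
    rw [← h5, RingEquiv.apply_symm_apply, h5]
  · intro q
    obtain ⟨α, rfl⟩ := QuotientGroup.mk_surjective q
    obtain ⟨ψ, g₁, g₂, e⟩ := d.exists_decomp R α
    refine ⟨ψ, ?_⟩
    show ((galA (3 ^ m) ψ : MulAut ↥(twistedG2 K (3 ^ m))) : Cfsg.Out ↥(twistedG2 K (3 ^ m))) = (α : Cfsg.Out ↥(twistedG2 K (3 ^ m)))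
    have hin : ∀ g : ↥(twistedG2 K (3 ^ m)), ((MulAut.conj g : MulAut ↥(twistedG2 K (3 ^ m))) : Cfsg.Out ↥(twistedG2 K (3 ^ m))) = 1 := by
      intro g
      exact (QuotientGroup.eq_one_iff _).2 ⟨g, rfl⟩
    have e1 := congrArg (fun x : MulAut ↥(twistedG2 K (3 ^ m)) => (x : Cfsg.Out ↥(twistedG2 K (3 ^ m)))) e
    simp only [QuotientGroup.mk_mul, hin, one_mul, mul_one, QuotientGroup.mk_one] at e1
    have e2 : (galA (3 ^ m) ψ : MulAut ↥(twistedG2 K (3 ^ m))) = (galA (3 ^ m) ψ.symm : MulAut ↥(twistedG2 K (3 ^ m)))⁻¹ := by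
      apply MulEquiv.ext
      intro x
      rfl
    rw [e2, QuotientGroup.mk_inv]
    exact inv_eq_of_mul_eq_one_right e1

end count

end Cfsg.Agent.Lib.Chev.TwG2
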