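import Cfsg.Agent.Lib.Chev.TwG2K
import Cfsg.Agent.Lib.SzMult
import Cfsg.Agent.Lib.StemSylow
import Cfsg.Agent.Lib.SchurBasic

set_option linter.style.haveILetI false
set_option linter.unusedSectionVars false

/-!
# The Ree groups `²G₂`: the Schur multiplier is trivial
-/

namespace Cfsg.Agent.Lib.Chev.TwG2

open Cfsg.Agent.Lib.Chev Cfsg.Lie Equiv Module
open Cfsg.Agent.Lib
open scoped commutatorElement

namespace PairA

section add

variable {F : Type*} [Field F] [Fintype F] {M : Type*} [AddCommGroup M]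

theorem exists_not_mem (T : Finset F) (h : T.card < Fintype.card F) : ∃ x, x ∉ T := by
  obtain ⟨x, -, hx⟩ := Finset.exists_mem_notMem_of_card_lt_card (s := T) (t := Finset.univ) (by simpa using h)
  exact ⟨x, hx⟩

/-- An alternating biadditive form on a finite field invariant under scaling by squares vanishes. -/
theorem add_main (hq : 5 ≤ Fintype.card F) (hs : ∀ y : Fˣ, IsSquare y ∨ IsSquare (-y)) (c : F → F → M)
    (h1 : ∀ a a' b, c (a + a') b = c a b + c a' b)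
    (h2 : ∀ a b b', c a (b + b') = c a b + c a b')
    (h3 : ∀ a, c a a = 0)
    (h4 : ∀ s : F, s ≠ 0 → ∀ a b, c (s * s * a) (s * s * b) = c a b) (a b : F) : c a b = 0 := by
  classical
  have l0 : ∀ b, c 0 b = 0 := by
    intro b
    have := h1 0 0 b
    rw [add_zero] at this
    simpa using this
  have r0 : ∀ a, c a 0 = 0 := by
    intro a
    have := h2 a 0 0
    rw [add_zero] at this
    simpa using this
  have lneg : ∀ a b, c (-a) b = - c a b := by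
    intro a b
    have := h1 a (-a) b
    rw [add_neg_cancel, l0] at this
    exact (neg_eq_of_add_eq_zero_right this.symm).symm
  have rneg : ∀ a b, c a (-b) = - c a b := by
    intro a b
    have := h2 a b (-b)
    rw [add_neg_cancel, r0] at this
    exact (neg_eq_of_add_eq_zero_right this.symm).symm
  have h4' : ∀ s : F, s ≠ 0 → ∀ a b, c (s * a) (s * b) = c a b := by
    intro s hs0 a b
    rcases hs (Units.mk0 s hs0) with ⟨w, hw⟩ | ⟨w, hw⟩
    · have e : s = w * w := congrArg Units.val hw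
      rw [e]
      exact h4 _ w.ne_zero a b
    · have e : -s = w * w := congrArg Units.val hw
      have e' : s = -((w : F) * w) := by rw [← e, neg_neg]
      rw [e', neg_mul, neg_mul, lneg, rneg, neg_neg]
      exact h4 _ w.ne_zero a b
  set g : F → M := fun x => c 1 x with hg
  have g_add : ∀ x y, g (x + y) = g x + g y := fun x y => h2 1 x y
  have g_sub : ∀ x y, g (x - y) = g x - g y := by
    intro x y
    have := g_add (x - y) y
    rw [sub_add_cancel] at this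
    rw [this]
    abel
  have anti : ∀ x y, c x y + c y x = 0 := by
    intro x y
    have := h3 (x + y)
    rw [h1, h2, h2, h3, h3] at this
    simpa using this
  have g_inv : ∀ x, x ≠ 0 → g x⁻¹ = - g x := by
    intro x hx
    have e : c 1 x⁻¹ = c x 1 := by
      have := h4' x hx 1 x⁻¹
      rw [mul_one, mul_inv_cancel₀ hx] at this
      exact this.symm
    show c 1 x⁻¹ = - c 1 x
    rw [e]
    exact eq_neg_of_add_eq_zero_left (anti x 1)
  have key : ∀ a b, a ≠ 0 → b ≠ 0 → a * b ≠ 1 → g (a ^ 2 * b) = g a + g b := by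
    intro a b ha hb hab
    have hne0 : 1 - a * b ≠ 0 := fun h => hab (sub_eq_zero.1 h).symm
    have hne1 : a - a ^ 2 * b ≠ 0 := by
      have : a - a ^ 2 * b = a * (1 - a * b) := by ring
      rw [this]
      exact mul_ne_zero ha hne0
    have hne2 : b⁻¹ - a ≠ 0 := by
      intro h
      apply hne0
      have : 1 - a * b = b * (b⁻¹ - a) := by
        rw [mul_sub, mul_inv_cancel₀ hb]
        ring
      rw [this, h, mul_zero]
    have id : (a - a ^ 2 * b)⁻¹ = a⁻¹ + (b⁻¹ - a)⁻¹ := by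
      have e1 : a - a ^ 2 * b = a * (1 - a * b) := by ring
      have e2 : b⁻¹ - a = (1 - a * b) * b⁻¹ := by
        rw [sub_mul, one_mul, mul_assoc, mul_inv_cancel₀ hb, mul_one]
      rw [e1, e2]
      field_simp
      ring
    have e := congrArg g id
    rw [g_add, g_inv _ hne1, g_inv _ ha, g_inv _ hne2, g_sub, g_sub, g_inv _ hb] at e
    have e3 : g (a ^ 2 * b) = g a + g b := by
      have : - (g a - g (a ^ 2 * b)) + (g a - g (a ^ 2 * b)) = - g a + - (- g b - g a) + (g a - g (a ^ 2 * b)) :=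
        congrArg (· + (g a - g (a ^ 2 * b))) e
      have h6 : - g a + - (- g b - g a) + (g a - g (a ^ 2 * b)) = g a + g b - g (a ^ 2 * b) := by abel
      rw [h6] at this
      have h7 : - (g a - g (a ^ 2 * b)) + (g a - g (a ^ 2 * b)) = 0 := by abel
      rw [h7] at this
      exact (sub_eq_zero.1 this.symm).symm
    exact e3
  have g0 : ∀ x, x ≠ 0 → g x = 0 := by
    intro x hx
    obtain ⟨b₁, hb₁⟩ := exists_not_mem (F := F) {0, x⁻¹} (by
      have := Finset.card_le_two (a := (0 : F)) (b := x⁻¹)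
      omega)
    obtain ⟨b₂, hb₂⟩ := exists_not_mem (F := F) {0, x⁻¹, -b₁, x⁻¹ - b₁} (by
      have := Finset.card_le_four (a := (0 : F)) (b := x⁻¹) (c := -b₁) (d := x⁻¹ - b₁)
      omega)
    simp only [Finset.mem_insert, Finset.mem_singleton, not_or] at hb₁ hb₂
    obtain ⟨h10, h11⟩ := hb₁
    obtain ⟨h20, h21, h22, h23⟩ := hb₂
    have hne : ∀ b, b ≠ x⁻¹ → x * b ≠ 1 := by
      intro b hb h
      apply hb
      field_simp
      linear_combination h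
    have h12 : b₁ + b₂ ≠ 0 := by
      intro h
      apply h22
      linear_combination h
    have h13 : b₁ + b₂ ≠ x⁻¹ := by
      intro h
      apply h23
      linear_combination h
    have e1 := key x (b₁ + b₂) hx h12 (hne _ h13)
    have e2 := key x b₁ hx h10 (hne _ h11)
    have e3 := key x b₂ hx h20 (hne _ h21)
    have e4 : x ^ 2 * (b₁ + b₂) = x ^ 2 * b₁ + x ^ 2 * b₂ := by ring
    rw [e4, g_add, e2, e3, g_add] at e1
    have e5 : g x + g b₁ + (g x + g b₂) = g x + (g b₁ + g b₂) + g x := by abel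
    rw [e5] at e1
    exact add_eq_left.1 e1
  by_cases ha : a = 0
  · rw [ha, l0]
  by_cases hb : b = 0
  · rw [hb, r0]
  have e : c a b = c 1 (b / a) := by
    have := h4' a ha 1 (b / a)
    rw [mul_one, mul_div_cancel₀ _ ha] at this
    exact this
  rw [e]
  exact g0 _ (div_ne_zero hb ha)

end add

/-- An alternating central biadditive form on a finite field invariant under scaling by squares vanishes. -/
theorem main {F : Type*} [Field F] [Fintype F] {Γ : Type*} [Group Γ] (hq : 5 ≤ Fintype.card F) (hs : ∀ y : Fˣ, IsSquare y ∨ IsSquare (-y))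
    (c : F → F → Γ) (hc : ∀ a b x, c a b * x = x * c a b)
    (h1 : ∀ a a' b, c (a + a') b = c a b * c a' b)
    (h2 : ∀ a b b', c a (b + b') = c a b * c a b')
    (h3 : ∀ a, c a a = 1)
    (h4 : ∀ s : F, s ≠ 0 → ∀ a b, c (s * s * a) (s * s * b) = c a b) (a b : F) : c a b = 1 := by
  have hm : ∀ a b, c a b ∈ Subgroup.center Γ := fun a b => Subgroup.mem_center_iff.2 (fun x => (hc a b x).symm)
  letI : CommGroup (Subgroup.center Γ) :=
    { (inferInstance : Group (Subgroup.center Γ)) with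
      mul_comm := fun x y => Subtype.ext (Subgroup.mem_center_iff.1 y.2 x.1) }
  let c' : F → F → Additive (Subgroup.center Γ) := fun a b => Additive.ofMul ⟨c a b, hm a b⟩
  have h := add_main hq hs c'
    (fun a a' b => congrArg Additive.ofMul (Subtype.ext (h1 a a' b)))
    (fun a b b' => congrArg Additive.ofMul (Subtype.ext (h2 a b b')))
    (fun a => congrArg Additive.ofMul (Subtype.ext (h3 a)))
    (fun s hs a b => congrArg Additive.ofMul (Subtype.ext (h4 s hs a b))) a b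
  exact congrArg Subtype.val (Additive.ofMul.injective h)

end PairA

section cext

variable {Γ G : Type*} [Group Γ] [Group G]

/-- A central extension. -/
structure CExt (σ : Γ →* G) : Prop where
  surj : Function.Surjective σ
  cen : ∀ k, σ k = 1 → ∀ x, k * x = x * k

namespace CExt

variable {σ : Γ →* G} (hE : CExt σ)

/-- A section. -/
noncomputable def L (g : G) : Γ := Function.surjInv hE.surj g

theorem σL (g : G) : σ (hE.L g) = g := Function.surjInv_eq hE.surj g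

omit hE in
theorem cm_ker {x y : Γ} (h : σ x * σ y = σ y * σ x) : σ ⁅x, y⁆ = 1 := by
  rw [commutatorElement_def, map_mul, map_mul, map_mul, map_inv, map_inv, h]
  group

include hE

theorem cm_cen {x y : Γ} (h : σ x * σ y = σ y * σ x) (w : Γ) : ⁅x, y⁆ * w = w * ⁅x, y⁆ := hE.cen _ (cm_ker h) w

theorem cm_left {x x' y : Γ} (h : σ x' * σ y = σ y * σ x') : ⁅x * x', y⁆ = ⁅x, y⁆ * ⁅x', y⁆ := by
  rw [SzTorus.cm_mul_left (hE.cm_cen h x).symm, hE.cm_cen h]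

theorem cm_right {x y y' : Γ} (h : σ x * σ y' = σ y' * σ x) : ⁅x, y * y'⁆ = ⁅x, y⁆ * ⁅x, y'⁆ :=
  SzTorus.cm_mul_right (hE.cm_cen h y).symm

theorem cm_eq {x x' y y' : Γ} (hx : σ x = σ x') (hy : σ y = σ y') : ⁅x, y⁆ = ⁅x', y'⁆ :=
  SzTorus.comm_eq_of_map hE.cen hx hy

theorem cm_conj' (g : G) {x y x' y' : Γ} (hx : σ x' = g * σ x * g⁻¹) (hy : σ y' = g * σ y * g⁻¹) :
    ⁅x', y'⁆ = hE.L g * ⁅x, y⁆ * (hE.L g)⁻¹ := by
  rw [SzTorus.conj_comm_eq]
  apply hE.cm_eq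
  · rw [hx, map_mul, map_mul, map_inv, hE.σL]
  · rw [hy, map_mul, map_mul, map_inv, hE.σL]

theorem cm_conj (g : G) {x y x' y' : Γ} (hx : σ x' = g * σ x * g⁻¹) (hy : σ y' = g * σ y * g⁻¹)
    (h : σ x * σ y = σ y * σ x) : ⁅x', y'⁆ = ⁅x, y⁆ := by
  rw [hE.cm_conj' g hx hy, (hE.cm_cen h _).symm, mul_assoc, mul_inv_cancel, mul_one]

/-- A lifted additive map to a commutative part gives trivial commutators. -/
theorem lift_pair {F : Type*} [Field F] [Fintype F] (hq : 5 ≤ Fintype.card F) (hs : ∀ y : Fˣ, IsSquare y ∨ IsSquare (-y))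
    (E : F → G) (hadd : ∀ a b, E (a + b) = E a * E b)
    (hcomm : ∀ a b, E a * E b = E b * E a) (hscale : ∀ s : F, s ≠ 0 → ∃ g : G, ∀ a, E (s * s * a) = g * E a * g⁻¹) (a b : F) :
    ⁅hE.L (E a), hE.L (E b)⁆ = 1 := by
  have hc : ∀ a b, σ (hE.L (E a)) * σ (hE.L (E b)) = σ (hE.L (E b)) * σ (hE.L (E a)) := by
    intro a b
    rw [hE.σL, hE.σL, hcomm]
  apply PairA.main hq hs (fun a b => ⁅hE.L (E a), hE.L (E b)⁆) (fun a b x => hE.cm_cen (hc a b) x)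
  · intro a a' b
    show ⁅hE.L (E (a + a')), hE.L (E b)⁆ = ⁅hE.L (E a), hE.L (E b)⁆ * ⁅hE.L (E a'), hE.L (E b)⁆
    rw [← hE.cm_left (hc a' b)]
    apply hE.cm_eq _ rfl
    rw [map_mul, hE.σL, hE.σL, hE.σL, hadd]
  · intro a b b'
    show ⁅hE.L (E a), hE.L (E (b + b'))⁆ = ⁅hE.L (E a), hE.L (E b)⁆ * ⁅hE.L (E a), hE.L (E b')⁆
    rw [← hE.cm_right (hc a b')]
    apply hE.cm_eq rfl
    rw [map_mul, hE.σL, hE.σL, hE.σL, hadd]
  · intro a
    exact commutatorElement_self _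
  · intro s hs0 a b
    obtain ⟨g, hg⟩ := hscale s hs0
    show ⁅hE.L (E (s * s * a)), hE.L (E (s * s * b))⁆ = ⁅hE.L (E a), hE.L (E b)⁆
    apply hE.cm_conj g
    · rw [hE.σL, hE.σL, hg]
    · rw [hE.σL, hE.σL, hg]
    · exact hc a b

end CExt

/-- The norm map of a commutative group with an action of a finite group. -/
theorem exists_norm {A H : Type*} [CommGroup A] [Group H] [Fintype H] (γ : H → A →* A)
    (hγ : ∀ h h' r, γ (h * h') r = γ h (γ h' r)) :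
    ∃ φ : A →* A, (∀ h r, γ h (φ r) = φ r) ∧ (∀ h r, φ (γ h r) = φ r) ∧
      (∀ r, (∀ h, γ h r = r) → φ r = r ^ Fintype.card H) := by
  refine ⟨{ toFun := fun r => ∏ h : H, γ h r, map_one' := by simp, map_mul' := by
              intro x y
              simp [Finset.prod_mul_distrib] }, ?_, ?_, ?_⟩
  · intro h r
    show γ h (∏ h' : H, γ h' r) = ∏ h' : H, γ h' r
    rw [map_prod]
    rw [← Equiv.prod_comp (Equiv.mulLeft h) (fun h' => γ h' r)]
    refine Finset.prod_congr rfl (fun h' _ => ?_)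
    simp [hγ]
  · intro h r
    show (∏ h' : H, γ h' (γ h r)) = ∏ h' : H, γ h' r
    rw [← Equiv.prod_comp (Equiv.mulRight h) (fun h' => γ h' r)]
    refine Finset.prod_congr rfl (fun h' _ => ?_)
    simp [hγ]
  · intro r hr
    show (∏ h' : H, γ h' r) = _
    rw [Finset.prod_congr rfl (fun h' _ => hr h')]
    simp

end cext

namespace Dat

variable {K : Type*} [Field K] [Fintype K] {m : ℕ}
variable (R : Ree K m) (d : Dat K (3 ^ m))

local notation "G" => Gm K m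

/-- The twisting automorphism. -/
abbrev th (t : K) : K := (d.f t) ^ 3

omit [Fintype K] in
theorem th_th (t : K) : d.th (d.th t) = t ^ 3 := by
  show (d.f ((d.f t) ^ 3)) ^ 3 = t ^ 3
  rw [map_pow, ← pow_mul, mul_comm, pow_mul, d.hθ]

omit [Fintype K] in
theorem th_mul (a b : K) : d.th (a * b) = d.th a * d.th b := by
  show (d.f (a * b)) ^ 3 = _
  rw [map_mul, mul_pow]

omit [Fintype K] in
theorem th_add (a b : K) : d.th (a + b) = d.th a + d.th b := by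
  show (d.f (a + b)) ^ 3 = (d.f a) ^ 3 + (d.f b) ^ 3
  rw [map_add]
  have h3 := d.h3
  generalize d.f a = x
  generalize d.f b = y
  linear_combination (x ^ 2 * y + x * y ^ 2) * h3

omit [Fintype K] in
theorem th_one : d.th 1 = 1 := by
  show (d.f 1) ^ 3 = 1
  rw [map_one, one_pow]

omit [Fintype K] in
theorem th_neg (a : K) : d.th (-a) = - d.th a := by
  show (d.f (-a)) ^ 3 = - (d.f a) ^ 3
  rw [map_neg]
  ring

omit [Fintype K] in
theorem th_inv (a : K) : d.th a⁻¹ = (d.th a)⁻¹ := by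
  show (d.f a⁻¹) ^ 3 = ((d.f a) ^ 3)⁻¹
  rw [map_inv₀, inv_pow]

omit [Fintype K] in
theorem th_ne {a : K} (ha : a ≠ 0) : d.th a ≠ 0 := by
  show (d.f a) ^ 3 ≠ 0
  exact pow_ne_zero _ ((map_ne_zero _).2 ha)

/-- Every element is a value of the weight on the first coordinate. -/
theorem chi_surj {s : K} (hs : s ≠ 0) : ∃ y : Kˣ, (y : K) ^ 2 * (d.th y)⁻¹ = s := by
  have h1 := d.th_ne hs
  refine ⟨Units.mk0 (s ^ 2 * d.th s) (mul_ne_zero (pow_ne_zero _ hs) h1), ?_⟩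
  show (s ^ 2 * d.th s) ^ 2 * (d.th (s ^ 2 * d.th s))⁻¹ = s
  rw [d.th_mul, d.th_th, pow_two s, d.th_mul]
  have hf : d.f s ≠ 0 := (map_ne_zero _).2 hs
  field_simp

/-- Every square is a value of the weight on the second coordinate. -/
theorem xi_sq {s : K} (hs : s ≠ 0) : ∃ y : Kˣ, d.th y * (y : K)⁻¹ = s * s := by
  have h1 := d.th_ne hs
  refine ⟨Units.mk0 (s * d.th s) (mul_ne_zero hs h1), ?_⟩
  show d.th (s * d.th s) * (s * d.th s)⁻¹ = s * s
  rw [d.th_mul, d.th_th]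
  have hf : d.f s ≠ 0 := (map_ne_zero _).2 hs
  field_simp

include R in
theorem wW_conj_H (y : Kˣ) (t u v : K) : d.tH R.hs y * d.wW t u v * (d.tH R.hs y)⁻¹ =
    d.wW ((y : K) ^ 2 * (d.th y)⁻¹ * t) (d.th y * (y : K)⁻¹ * u) ((y : K) * v) :=
  Subtype.ext (d.tor_W y t u v)

include R in
theorem wW_conj_neg (t u v : K) : d.tH R.hs (-1) * d.wW t u v * (d.tH R.hs (-1))⁻¹ = d.wW (-t) u (-v) := by
  rw [d.wW_conj_H R]
  have e : ((-1 : Kˣ) : K) = -1 := by simp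
  rw [e, d.th_neg, d.th_one]
  congr 1 <;> field_simp <;> ring

theorem wW_right (t u v a b : K) : d.wW t u v * d.wW 0 a b = d.wW t (u + a) (v + b) :=
  Subtype.ext (d.W_mul_zero _ _ _ _ _)

theorem wW_left (a b t u v : K) : d.wW 0 a b * d.wW t u v = d.wW t (u + a) (v - t * a + b) :=
  Subtype.ext (d.W_zero_mul _ _ _ _ _)

theorem wW_zero_mul'' (u v u' v' : K) : d.wW 0 u v * d.wW 0 u' v' = d.wW 0 (u + u') (v + v') :=
  d.wW_right _ _ _ _ _

theorem wW_split (t u v : K) : d.wW t 0 0 * d.wW 0 u v = d.wW t u v := by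
  rw [d.wW_right, zero_add, zero_add]

theorem wW_split' (u v : K) : d.wW 0 u 0 * d.wW 0 0 v = d.wW 0 u v := by
  rw [d.wW_right, add_zero, zero_add]

theorem wW_inv0 (u v : K) : (d.wW 0 u v)⁻¹ = d.wW 0 (-u) (-v) := by
  apply inv_eq_of_mul_eq_one_right
  rw [d.wW_right, add_neg_cancel, add_neg_cancel, d.wW_one]

theorem conj_Up (t u v u' v' : K) : d.wW t u v * d.wW 0 u' v' * (d.wW t u v)⁻¹ = d.wW 0 u' (v' + t * u') := by
  apply mul_inv_eq_of_eq_mul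
  rw [d.wW_right, d.wW_left]
  congr 1 <;> ring

theorem cm_tu (t u v u' v' : K) : ⁅d.wW t u v, d.wW 0 u' v'⁆ = d.wW 0 0 (t * u') := by
  rw [commutatorElement_def, d.conj_Up, d.wW_inv0, d.wW_right]
  congr 1 <;> ring

theorem wW_diff (T A B A' B' : K) : d.wW T A B = d.wW T A' B' * d.wW 0 (A - A') (B - B') := by
  rw [d.wW_right]
  congr 1 <;> ring

theorem cm_tt (t u v t' u' v' : K) : ∃ a b, ⁅d.wW t u v, d.wW t' u' v'⁆ = d.wW 0 a b := by
  obtain ⟨A, B, e1⟩ : ∃ A B, d.wW t' u' v' * d.wW t u v = d.wW (t + t') A B := ⟨_, _, by rw [d.wW_mul, add_comm t' t]⟩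
  obtain ⟨A', B', e2⟩ : ∃ A' B', d.wW t u v * d.wW t' u' v' = d.wW (t + t') A' B' := ⟨_, _, d.wW_mul _ _ _ _ _ _⟩
  refine ⟨A' - A, (B' - B) + (t + t') * (A' - A), ?_⟩
  have e3 : ⁅d.wW t u v, d.wW t' u' v'⁆ = (d.wW t u v * d.wW t' u' v') * (d.wW t' u' v' * d.wW t u v)⁻¹ := by
    rw [commutatorElement_def]
    group
  rw [e3, e2, e1, d.wW_diff (t + t') A' B' A B, d.conj_Up]

theorem wW_Z_comm (t u v b : K) : d.wW t u v * d.wW 0 0 b = d.wW 0 0 b * d.wW t u v := by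
  rw [d.wW_right, d.wW_left]
  congr 1 <;> ring

include R in
theorem q5 : 5 ≤ Fintype.card K := by
  have := R.q_ge
  omega

section gen

include R

theorem exists_gen : ∃ g : Kˣ, orderOf g = Fintype.card K - 1 := by
  obtain ⟨g, hg⟩ := IsCyclic.exists_generator (α := Kˣ)
  refine ⟨g, ?_⟩
  rw [orderOf_eq_card_of_forall_mem_zpowers hg]
  exact card_units_K

theorem exists_y0 : ∃ y : Kˣ, y * y ≠ 1 := by
  obtain ⟨g, hg⟩ := exists_gen R
  refine ⟨g, fun h => ?_⟩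
  have h1 : g ^ 2 = 1 := by rwa [pow_two]
  have h2 := Nat.le_of_dvd (by norm_num) (orderOf_dvd_of_pow_eq_one h1)
  have := R.q_ge
  omega

theorem exists_nine : ∃ v : K, v ^ 9 ≠ v ^ 3 := by
  obtain ⟨g, hg⟩ := exists_gen R
  refine ⟨g, fun h => ?_⟩
  have h1 : g ^ 9 = g ^ 3 := Units.ext (by simpa using h)
  have h2 : g ^ 6 = 1 := by
    have e : g ^ 9 = g ^ 6 * g ^ 3 := by rw [← pow_add]
    rw [e] at h1
    exact mul_eq_right.1 h1
  have h3 := Nat.le_of_dvd (by norm_num) (orderOf_dvd_of_pow_eq_one h2)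
  have := R.q_ge
  omega

/-- The map `v ↦ v^(r-2)` is not additive. -/
theorem exists_nonadd : ∃ v : K, v ≠ 0 ∧ v + 1 ≠ 0 ∧ d.th (v + 1) * ((v + 1) ^ 2)⁻¹ ≠ d.th v * (v ^ 2)⁻¹ + 1 := by
  obtain ⟨v, hv⟩ := exists_nine R
  have h3 := d.h3
  have h0 : v ≠ 0 := by
    rintro rfl
    simp at hv
  have h1 : v + 1 ≠ 0 := by
    intro h
    have e : v = -1 := by linear_combination h
    rw [e] at hv
    apply hv
    ring
  have hv1 : v ≠ 1 := by
    rintro rfl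
    simp at hv
  have hT : d.th v ≠ v ^ 3 := by
    intro h
    apply hv
    have h4 := d.th_th v
    rw [h] at h4
    have h5 : d.th (v ^ 3) = (d.th v) ^ 3 := by
      show (d.f (v ^ 3)) ^ 3 = ((d.f v) ^ 3) ^ 3
      rw [map_pow]
    rw [h5, h] at h4
    rw [← h4]
    ring
  refine ⟨v, h0, h1, fun h => ?_⟩
  rw [d.th_add, d.th_one] at h
  generalize d.th v = T at *
  field_simp at h
  have h6 : (1 - v) * (T - v ^ 3) = 0 := by
    linear_combination (-1 : K) * h - (T * v + v ^ 3) * h3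
  rcases mul_eq_zero.1 h6 with h7 | h7
  · exact hv1 (by linear_combination -h7)
  · exact hT (sub_eq_zero.1 h7)

end gen

theorem cube_sq {Γ : Type*} [Group Γ] {k : Γ} (h1 : k * k = 1) (h2 : k ^ 3 = 1) : k = 1 := by
  have e : k ^ 3 = k * k * k := by rw [pow_succ, pow_two]
  rw [e, h1, one_mul] at h2
  exact h2

section main

variable {Γ : Type*} [Group Γ] {σ : Γ →* Gm K m} (hE : CExt σ) (h3 : ∀ k, σ k = 1 → k ^ 3 = 1)

include R hE

theorem vv (a b : K) : ⁅hE.L (d.wW 0 0 a), hE.L (d.wW 0 0 b)⁆ = 1 := by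
  apply hE.lift_pair (q5 R) R.hs (fun a => d.wW 0 0 a)
  · intro a b
    rw [d.wW_right, add_zero]
  · intro a b
    rw [d.wW_right, d.wW_right, add_comm a]
  · intro s hs
    refine ⟨d.tH R.hs (Units.mk0 (s * s) (mul_ne_zero hs hs)), fun a => ?_⟩
    rw [d.wW_conj_H R]
    simp

theorem uu (a b : K) : ⁅hE.L (d.wW 0 a 0), hE.L (d.wW 0 b 0)⁆ = 1 := by
  apply hE.lift_pair (q5 R) R.hs (fun a => d.wW 0 a 0)
  · intro a b
    rw [d.wW_right, add_zero]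
  · intro a b
    rw [d.wW_right, d.wW_right, add_comm a]
  · intro s hs
    obtain ⟨y, hy⟩ := d.xi_sq hs
    refine ⟨d.tH R.hs y, fun a => ?_⟩
    rw [d.wW_conj_H R, hy]
    simp

include h3

theorem uv (a b : K) : ⁅hE.L (d.wW 0 a 0), hE.L (d.wW 0 0 b)⁆ = 1 := by
  have hc : ∀ b, σ (hE.L (d.wW 0 a 0)) * σ (hE.L (d.wW 0 0 b)) = σ (hE.L (d.wW 0 0 b)) * σ (hE.L (d.wW 0 a 0)) := by
    intro b
    rw [hE.σL, hE.σL, d.wW_Z_comm]
  have e1 : ⁅hE.L (d.wW 0 a 0), hE.L (d.wW 0 0 (-b))⁆ = ⁅hE.L (d.wW 0 a 0), hE.L (d.wW 0 0 b)⁆ := by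
    apply hE.cm_conj (d.tH R.hs (-1))
    · simp only [hE.σL]
      rw [d.wW_conj_neg R]
      simp
    · simp only [hE.σL]
      rw [d.wW_conj_neg R]
      simp
    · exact hc b
  have e2 : ⁅hE.L (d.wW 0 a 0), hE.L (d.wW 0 0 (-b))⁆ * ⁅hE.L (d.wW 0 a 0), hE.L (d.wW 0 0 b)⁆ = 1 := by
    rw [← hE.cm_right (hc b)]
    apply commutatorElement_eq_one_iff_commute.2
    have e3 : ⁅hE.L (d.wW 0 a 0), hE.L (d.wW 0 0 (-b)) * hE.L (d.wW 0 0 b)⁆ = ⁅hE.L (d.wW 0 a 0), 1⁆ := by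
      apply hE.cm_eq rfl
      rw [map_mul, hE.σL, hE.σL, d.wW_right, map_one, add_zero, neg_add_cancel, d.wW_one]
    have e4 := e3.trans (commutatorElement_one_right _)
    exact commutatorElement_eq_one_iff_commute.1 e4
  rw [e1] at e2
  exact cube_sq e2 (h3 _ (CExt.cm_ker (hc b)))

theorem R1_comm {x y : Γ} {u v u' v' : K} (hx : σ x = d.wW 0 u v) (hy : σ y = d.wW 0 u' v') : x * y = y * x := by
  apply commutatorElement_eq_one_iff_mul_comm.1
  have e : ⁅x, y⁆ = ⁅hE.L (d.wW 0 u 0) * hE.L (d.wW 0 0 v), hE.L (d.wW 0 u' 0) * hE.L (d.wW 0 0 v')⁆ := by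
    apply hE.cm_eq
    · rw [hx, map_mul, hE.σL, hE.σL, d.wW_split']
    · rw [hy, map_mul, hE.σL, hE.σL, d.wW_split']
  rw [e]
  apply commutatorElement_eq_one_iff_commute.2
  have c1 : Commute (hE.L (d.wW 0 u 0)) (hE.L (d.wW 0 u' 0)) := commutatorElement_eq_one_iff_commute.1 (d.uu R hE _ _)
  have c2 : Commute (hE.L (d.wW 0 u 0)) (hE.L (d.wW 0 0 v')) := commutatorElement_eq_one_iff_commute.1 (d.uv R hE h3 _ _)
  have c3 : Commute (hE.L (d.wW 0 u' 0)) (hE.L (d.wW 0 0 v)) := commutatorElement_eq_one_iff_commute.1 (d.uv R hE h3 _ _)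
  have c4 : Commute (hE.L (d.wW 0 0 v)) (hE.L (d.wW 0 0 v')) := commutatorElement_eq_one_iff_commute.1 (d.vv R hE _ _)
  exact Commute.mul_left (Commute.mul_right c1 c2) (Commute.mul_right c3.symm c4)

theorem tv_left {x y : Γ} {t u v b : K} (hx : σ x = d.wW t u v) (hy : σ y = d.wW 0 0 b) :
    ⁅x, y⁆ = ⁅hE.L (d.wW t 0 0), hE.L (d.wW 0 0 b)⁆ := by
  have e : ⁅x, y⁆ = ⁅hE.L (d.wW t 0 0) * hE.L (d.wW 0 u v), hE.L (d.wW 0 0 b)⁆ := by
    apply hE.cm_eq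
    · rw [hx, map_mul, hE.σL, hE.σL, d.wW_split]
    · rw [hy, hE.σL]
  have hc : σ (hE.L (d.wW 0 u v)) * σ (hE.L (d.wW 0 0 b)) = σ (hE.L (d.wW 0 0 b)) * σ (hE.L (d.wW 0 u v)) := by
    rw [hE.σL, hE.σL, d.wW_Z_comm]
  rw [e, hE.cm_left hc]
  have e2 : ⁅hE.L (d.wW 0 u v), hE.L (d.wW 0 0 b)⁆ = 1 :=
    commutatorElement_eq_one_iff_mul_comm.2 (d.R1_comm R hE h3 (hE.σL _) (hE.σL _))
  rw [e2, mul_one]

theorem tv (a b : K) : ⁅hE.L (d.wW a 0 0), hE.L (d.wW 0 0 b)⁆ = 1 := by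
  have hc : ∀ a b, σ (hE.L (d.wW a 0 0)) * σ (hE.L (d.wW 0 0 b)) = σ (hE.L (d.wW 0 0 b)) * σ (hE.L (d.wW a 0 0)) := by
    intro a b
    rw [hE.σL, hE.σL, d.wW_Z_comm]
  set c : K → K → Γ := fun a b => ⁅hE.L (d.wW a 0 0), hE.L (d.wW 0 0 b)⁆ with hcdef
  have hadd1 : ∀ a a' b, c (a + a') b = c a b * c a' b := by
    intro a a' b
    show ⁅hE.L (d.wW (a + a') 0 0), hE.L (d.wW 0 0 b)⁆ = ⁅hE.L (d.wW a 0 0), hE.L (d.wW 0 0 b)⁆ * ⁅hE.L (d.wW a' 0 0), hE.L (d.wW 0 0 b)⁆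
    rw [← hE.cm_left (hc a' b)]
    obtain ⟨U, V, e⟩ : ∃ U V, σ (hE.L (d.wW a 0 0) * hE.L (d.wW a' 0 0)) = d.wW (a + a') U V :=
      ⟨_, _, by rw [map_mul, hE.σL, hE.σL]; exact d.wW_mul _ _ _ _ _ _⟩
    exact (d.tv_left R hE h3 e (hE.σL _)).symm
  have hadd2 : ∀ a b b', c a (b + b') = c a b * c a b' := by
    intro a b b'
    show ⁅hE.L (d.wW a 0 0), hE.L (d.wW 0 0 (b + b'))⁆ = ⁅hE.L (d.wW a 0 0), hE.L (d.wW 0 0 b)⁆ * ⁅hE.L (d.wW a 0 0), hE.L (d.wW 0 0 b')⁆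
    rw [← hE.cm_right (hc a b')]
    apply hE.cm_eq rfl
    rw [map_mul, hE.σL, hE.σL, hE.σL, d.wW_right, add_zero]
  have hinv : ∀ (y : Kˣ) a b, c ((y : K) ^ 2 * (d.th y)⁻¹ * a) ((y : K) * b) = c a b := by
    intro y a b
    apply hE.cm_conj (d.tH R.hs y)
    · simp only [hE.σL]
      rw [d.wW_conj_H R]
      simp
    · simp only [hE.σL]
      rw [d.wW_conj_H R]
      simp
    · exact hc a b
  have hform : ∀ a b, b ≠ 0 → c a b = c (d.th b * (b ^ 2)⁻¹ * a) 1 := by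
    intro a b hb
    have h1 := hinv (Units.mk0 b hb)⁻¹ a b
    have e1 : (((Units.mk0 b hb)⁻¹ : Kˣ) : K) = b⁻¹ := by simp
    rw [e1, inv_mul_cancel₀ hb, d.th_inv, inv_inv] at h1
    rw [← h1]
    congr 2
    field_simp
  obtain ⟨v, hv0, hv1, hv2⟩ := exists_nonadd R d
  set κ := d.th (v + 1) * ((v + 1) ^ 2)⁻¹ - (d.th v * (v ^ 2)⁻¹ + 1) with hκ
  have hκ0 : κ ≠ 0 := sub_ne_zero.2 hv2
  have hg : ∀ s, c s 1 = 1 := by
    intro s
    have h1 := hadd2 (s / κ) v 1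
    rw [hform _ _ hv1, hform _ v hv0, ← hadd1] at h1
    have e3 : κ * (s / κ) = s := mul_div_cancel₀ s hκ0
    have key : ∀ a n1 n0 : K, n1 * a = (n1 - (n0 + 1)) * a + (n0 * a + a) := fun a n1 n0 => by ring
    have e2 := key (s / κ) (d.th (v + 1) * ((v + 1) ^ 2)⁻¹) (d.th v * (v ^ 2)⁻¹)
    rw [← hκ, e3] at e2
    rw [e2, hadd1] at h1
    exact mul_eq_right.1 h1
  show c a b = 1
  by_cases hb : b = 0
  · have h1 := hadd2 a 0 0
    rw [add_zero] at h1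
    rw [hb]
    exact left_eq_mul.1 h1
  · rw [hform a b hb, hg]

end main

end Dat

namespace Dat

variable {K : Type*} [Field K] [Fintype K] {m : ℕ}
variable (R : Ree K m) (d : Dat K (3 ^ m))

local notation "G" => Gm K m

section norm

variable {Γ : Type*} [Group Γ] {σ : Γ →* Gm K m}

/-- Elements over `U'`. -/
def Ru (σ : Γ →* Gm K m) (w : Γ) : Prop := ∃ u v, σ w = d.wW 0 u v

/-- Elements over `U`. -/
def Rt (σ : Γ →* Gm K m) (w : Γ) : Prop := ∃ t u v, σ w = d.wW t u v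

theorem Ru_mul {a b : Γ} (ha : d.Ru σ a) (hb : d.Ru σ b) : d.Ru σ (a * b) := by
  obtain ⟨u, v, ha⟩ := ha
  obtain ⟨u', v', hb⟩ := hb
  exact ⟨u + u', v + v', by rw [map_mul, ha, hb, d.wW_right]⟩

theorem Ru_one : d.Ru σ (1 : Γ) := ⟨0, 0, by rw [map_one, d.wW_one]⟩

theorem Ru_inv {a : Γ} (ha : d.Ru σ a) : d.Ru σ a⁻¹ := by
  obtain ⟨u, v, ha⟩ := ha
  exact ⟨-u, -v, by rw [map_inv, ha, d.wW_inv0]⟩

theorem Rt_of_Ru {a : Γ} (ha : d.Ru σ a) : d.Rt σ a := by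
  obtain ⟨u, v, ha⟩ := ha
  exact ⟨0, u, v, ha⟩

theorem Rt_mul {a b : Γ} (ha : d.Rt σ a) (hb : d.Rt σ b) : d.Rt σ (a * b) := by
  obtain ⟨t, u, v, ha⟩ := ha
  obtain ⟨t', u', v', hb⟩ := hb
  exact ⟨_, _, _, by rw [map_mul, ha, hb, d.wW_mul]⟩

theorem Ru_cm {x y : Γ} (hx : d.Rt σ x) (hy : d.Rt σ y) : d.Ru σ ⁅x, y⁆ := by
  obtain ⟨t, u, v, hx⟩ := hx
  obtain ⟨t', u', v', hy⟩ := hy
  obtain ⟨a, b, h⟩ := d.cm_tt t u v t' u' v'
  exact ⟨a, b, by rw [map_commutatorElement, hx, hy, h]⟩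

variable (hE : CExt σ) (h3 : ∀ k, σ k = 1 → k ^ 3 = 1)

include R hE h3

/-- The norm map on the part over `U'`. -/
theorem exists_phi : ∃ φ : Γ → Γ,
    (∀ w w', d.Ru σ w → d.Ru σ w' → φ (w * w') = φ w * φ w') ∧
    (∀ w, d.Ru σ w → σ (φ w) = 1) ∧
    (∀ (y : Kˣ) (w : Γ), d.Ru σ w → φ (hE.L (d.tH R.hs y) * w * (hE.L (d.tH R.hs y))⁻¹) = φ w) ∧
    (∀ k, σ k = 1 → φ k = k ^ (Fintype.card K - 1)) := by
  classical
  let R₁ : Subgroup Γ :=
    { carrier := {w | d.Ru σ w}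
      mul_mem' := fun ha hb => d.Ru_mul ha hb
      one_mem' := d.Ru_one
      inv_mem' := fun ha => d.Ru_inv ha }
  letI : CommGroup R₁ :=
    { (inferInstance : Group R₁) with
      mul_comm := fun x y => Subtype.ext (by
        obtain ⟨u, v, hx⟩ := x.2
        obtain ⟨u', v', hy⟩ := y.2
        exact d.R1_comm R hE h3 hx hy) }
  have hmem : ∀ (y : Kˣ) (w : Γ), d.Ru σ w → d.Ru σ (hE.L (d.tH R.hs y) * w * (hE.L (d.tH R.hs y))⁻¹) := by
    rintro y w ⟨u, v, hw⟩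
    exact ⟨d.th y * (y : K)⁻¹ * u, (y : K) * v, by
      rw [map_mul, map_mul, map_inv, hE.σL, hw, d.wW_conj_H R, mul_zero]⟩
  let γ : Kˣ → R₁ →* R₁ := fun y =>
    { toFun := fun w => ⟨hE.L (d.tH R.hs y) * w.1 * (hE.L (d.tH R.hs y))⁻¹, hmem y w.1 w.2⟩
      map_one' := Subtype.ext (by simp)
      map_mul' := fun a b => Subtype.ext (by
        show hE.L (d.tH R.hs y) * (a.1 * b.1) * (hE.L (d.tH R.hs y))⁻¹ =
          (hE.L (d.tH R.hs y) * a.1 * (hE.L (d.tH R.hs y))⁻¹) * (hE.L (d.tH R.hs y) * b.1 * (hE.L (d.tH R.hs y))⁻¹)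
        group) }
  have hγ : ∀ y y' r, γ (y * y') r = γ y (γ y' r) := by
    intro y y' r
    apply Subtype.ext
    show hE.L (d.tH R.hs (y * y')) * r.1 * (hE.L (d.tH R.hs (y * y')))⁻¹ =
      hE.L (d.tH R.hs y) * (hE.L (d.tH R.hs y') * r.1 * (hE.L (d.tH R.hs y'))⁻¹) * (hE.L (d.tH R.hs y))⁻¹
    have h := SzTorus.conj_eq_of_map hE.cen (u := hE.L (d.tH R.hs (y * y'))) (u' := hE.L (d.tH R.hs y) * hE.L (d.tH R.hs y'))
      (by simp only [map_mul, hE.σL]) r.1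
    rw [h]
    group
  obtain ⟨φ, h1, h2, h4⟩ := exists_norm γ hγ
  refine ⟨fun w => if h : d.Ru σ w then (φ ⟨w, h⟩ : Γ) else 1, ?_, ?_, ?_, ?_⟩
  · intro w w' hw hw'
    show (if h : d.Ru σ (w * w') then (φ ⟨w * w', h⟩ : Γ) else 1) =
      (if h : d.Ru σ w then (φ ⟨w, h⟩ : Γ) else 1) * (if h : d.Ru σ w' then (φ ⟨w', h⟩ : Γ) else 1)
    rw [dif_pos (d.Ru_mul hw hw'), dif_pos hw, dif_pos hw']
    have e : φ ⟨w * w', d.Ru_mul hw hw'⟩ = φ (⟨w, hw⟩ * ⟨w', hw'⟩) := rfl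
    rw [e, map_mul]
    rfl
  · intro w hw
    show σ (if h : d.Ru σ w then (φ ⟨w, h⟩ : Γ) else 1) = 1
    rw [dif_pos hw]
    obtain ⟨y₀, hy₀⟩ := exists_y0 R
    have hf := h1 y₀ ⟨w, hw⟩
    obtain ⟨u, v, huv⟩ := (φ ⟨w, hw⟩).2
    have hf' : hE.L (d.tH R.hs y₀) * (φ ⟨w, hw⟩ : Γ) * (hE.L (d.tH R.hs y₀))⁻¹ = φ ⟨w, hw⟩ := congrArg Subtype.val hf
    have hf2 := congrArg σ hf'
    rw [map_mul, map_mul, map_inv, hE.σL, huv] at hf2
    have hf3 := congrArg Subtype.val hf2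
    obtain ⟨-, hu, hv⟩ := d.fix_W hy₀ hf3
    rw [huv, hu, hv, d.wW_one]
  · intro y w hw
    show (if h : d.Ru σ (hE.L (d.tH R.hs y) * w * (hE.L (d.tH R.hs y))⁻¹) then (φ ⟨_, h⟩ : Γ) else 1) =
      (if h : d.Ru σ w then (φ ⟨w, h⟩ : Γ) else 1)
    rw [dif_pos (hmem y w hw), dif_pos hw]
    exact congrArg Subtype.val (h2 y ⟨w, hw⟩)
  · intro k hk
    have hk' : d.Ru σ k := ⟨0, 0, by rw [hk, d.wW_one]⟩
    show (if h : d.Ru σ k then (φ ⟨k, h⟩ : Γ) else 1) = _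
    rw [dif_pos hk']
    have h5 := h4 ⟨k, hk'⟩ (fun y => Subtype.ext (by
      show hE.L (d.tH R.hs y) * k * (hE.L (d.tH R.hs y))⁻¹ = k
      rw [(hE.cen k hk _).symm, mul_assoc, mul_inv_cancel, mul_one]))
    rw [h5, Fintype.card_units]
    rfl

end norm

section steps

variable {Γ : Type*} [Group Γ] {σ : Γ →* Gm K m} (hE : CExt σ) (h3 : ∀ k, σ k = 1 → k ^ 3 = 1)

include R hE h3 in
theorem Z_comm {x y : Γ} {t u v b : K} (hx : σ x = d.wW t u v) (hy : σ y = d.wW 0 0 b) : x * y = y * x := by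
  apply commutatorElement_eq_one_iff_mul_comm.1
  rw [d.tv_left R hE h3 hx hy]
  exact d.tv R hE h3 _ _

/-- The properties of the norm map. -/
structure NormD (φ : Γ → Γ) : Prop where
  mul : ∀ w w', d.Ru σ w → d.Ru σ w' → φ (w * w') = φ w * φ w'
  ker : ∀ w, d.Ru σ w → σ (φ w) = 1
  inv : ∀ (y : Kˣ) (w : Γ), d.Ru σ w → φ (hE.L (d.tH R.hs y) * w * (hE.L (d.tH R.hs y))⁻¹) = φ w
  scal : ∀ k, σ k = 1 → φ k = k ^ (Fintype.card K - 1)

variable {φ : Γ → Γ} (hN : NormD R d hE φ)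

include hN

theorem phi_one : φ 1 = 1 := by
  have h := hN.mul 1 1 d.Ru_one d.Ru_one
  rw [mul_one] at h
  exact left_eq_mul.1 h

theorem phi_inv {w : Γ} (hw : d.Ru σ w) : φ w⁻¹ = (φ w)⁻¹ := by
  have h := hN.mul w w⁻¹ hw (d.Ru_inv hw)
  rw [mul_inv_cancel, phi_one R d hE hN] at h
  exact eq_inv_of_mul_eq_one_right h.symm

theorem phi_comm {w : Γ} (hw : d.Ru σ w) (x : Γ) : φ w * x = x * φ w := hE.cen _ (hN.ker w hw) x

include R h3

/-- The pairing between the first and the second coordinates vanishes under the norm. -/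
theorem phi_tu {x r : Γ} (hx : d.Rt σ x) (hr : d.Ru σ r) : φ ⁅x, r⁆ = 1 := by
  obtain ⟨t, u, v, hx⟩ := hx
  obtain ⟨u₁, v₁, hr⟩ := hr
  set c := hE.L (d.tH R.hs (-1)) with hc
  set x' := c * x * c⁻¹ with hx'
  set r' := c * r * c⁻¹ with hr'
  have s1 : σ x' = d.wW (-t) u (-v) := by
    rw [hx', map_mul, map_mul, map_inv, hc, hE.σL, hx, d.wW_conj_neg R]
  have s2 : σ r' = d.wW 0 u₁ (-v₁) := by
    rw [hr', map_mul, map_mul, map_inv, hc, hE.σL, hr, d.wW_conj_neg R, neg_zero]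
  have e1 : ⁅x', r'⁆ = c * ⁅x, r⁆ * c⁻¹ := (SzTorus.conj_comm_eq c x r).symm
  have hZ : σ ⁅x, r⁆ = d.wW 0 0 (t * u₁) := by rw [map_commutatorElement, hx, hr, d.cm_tu]
  have hRu : d.Ru σ ⁅x, r⁆ := ⟨0, _, hZ⟩
  have e2 : φ ⁅x', r'⁆ = φ ⁅x, r⁆ := by
    rw [e1, hc]
    exact hN.inv (-1) _ hRu
  -- `r'` differs from `r` by an element over the centre of `U`
  have hw₂ : σ (r⁻¹ * r') = d.wW 0 0 (-v₁ + -v₁) := by
    rw [map_mul, map_inv, hr, s2, d.wW_inv0, d.wW_right, neg_add_cancel]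
  have e3 : ⁅x', r'⁆ = ⁅x', r⁆ := by
    have h0 : ⁅x', r⁻¹ * r'⁆ = 1 := commutatorElement_eq_one_iff_mul_comm.2 (d.Z_comm R hE h3 s1 hw₂)
    have e0 : r' = r * (r⁻¹ * r') := by group
    rw [e0, SzTorus.cm_mul_right (by rw [h0, mul_one, one_mul]), h0, mul_one]
  -- `x'` differs from `x⁻¹` by an element over `U'`
  have hw₁ : d.Ru σ (x * x') := by
    have e := d.wW_mul t u v (-t) u (-v)
    rw [add_neg_cancel] at e
    exact ⟨_, _, by rw [map_mul, hx, s1]; exact e⟩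
  have e4 : ⁅x', r⁆ = ⁅x⁻¹, r⁆ := by
    obtain ⟨a, b, hab⟩ := hw₁
    have h0 : ⁅x * x', r⁆ = 1 := commutatorElement_eq_one_iff_mul_comm.2 (d.R1_comm R hE h3 hab hr)
    have e0 : x' = x⁻¹ * (x * x') := by group
    rw [e0, SzTorus.cm_mul_left (by rw [h0, mul_one, one_mul]), h0, one_mul]
  have e5 : ⁅x⁻¹, r⁆ = ⁅x, r⁆⁻¹ := by
    have h0 : x * ⁅x, r⁆ = ⁅x, r⁆ * x := d.Z_comm R hE h3 hx hZ
    have e0 : ⁅x⁻¹, r⁆ = x⁻¹ * ⁅x, r⁆⁻¹ * x := by
      simp only [commutatorElement_def]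
      group
    rw [e0]
    have h1 : ⁅x, r⁆⁻¹ * x = x * ⁅x, r⁆⁻¹ := by
      rw [inv_mul_eq_iff_eq_mul, ← mul_assoc, ← h0, mul_assoc, mul_inv_cancel, mul_one]
    rw [mul_assoc, h1, ← mul_assoc, inv_mul_cancel, one_mul]
  have e6 : φ ⁅x, r⁆ = (φ ⁅x, r⁆)⁻¹ := by
    rw [← phi_inv R d hE hN hRu, ← e5, ← e4, ← e3, e2]
  apply cube_sq _ (h3 _ (hN.ker _ hRu))
  calc φ ⁅x, r⁆ * φ ⁅x, r⁆ = (φ ⁅x, r⁆)⁻¹ * φ ⁅x, r⁆ := by rw [← e6]
    _ = 1 := inv_mul_cancel _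

theorem phi_conj {x w : Γ} (hx : d.Rt σ x) (hw : d.Ru σ w) : φ (x * w * x⁻¹) = φ w := by
  have e : x * w * x⁻¹ = ⁅x, w⁆ * w := by
    rw [commutatorElement_def]
    group
  rw [e, hN.mul _ _ (d.Ru_cm hx (d.Rt_of_Ru hw)) hw, d.phi_tu R hE h3 hN hx hw, one_mul]

theorem f_left {x x' y : Γ} (hx : d.Rt σ x) (hx' : d.Rt σ x') (hy : d.Rt σ y) :
    φ ⁅x * x', y⁆ = φ ⁅x, y⁆ * φ ⁅x', y⁆ := by
  have e : ⁅x * x', y⁆ = (x * ⁅x', y⁆ * x⁻¹) * ⁅x, y⁆ := by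
    simp only [commutatorElement_def]
    group
  have h1 := d.Ru_cm hx' hy
  have h2 := d.Ru_cm hx hy
  have h4 : d.Ru σ (x * ⁅x', y⁆ * x⁻¹) := by
    obtain ⟨t, u, v, hx⟩ := hx
    obtain ⟨a, b, hab⟩ := h1
    exact ⟨a, b + t * a, by rw [map_mul, map_mul, map_inv, hx, hab, d.conj_Up]⟩
  rw [e, hN.mul _ _ h4 h2, d.phi_conj R hE h3 hN hx h1, phi_comm R d hE hN h1]

theorem f_right {x y y' : Γ} (hx : d.Rt σ x) (hy : d.Rt σ y) (hy' : d.Rt σ y') :
    φ ⁅x, y * y'⁆ = φ ⁅x, y⁆ * φ ⁅x, y'⁆ := by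
  have e : ⁅x, y * y'⁆ = ⁅x, y⁆ * (y * ⁅x, y'⁆ * y⁻¹) := by
    simp only [commutatorElement_def]
    group
  have h1 := d.Ru_cm hx hy'
  have h2 := d.Ru_cm hx hy
  have h4 : d.Ru σ (y * ⁅x, y'⁆ * y⁻¹) := by
    obtain ⟨t, u, v, hy⟩ := hy
    obtain ⟨a, b, hab⟩ := h1
    exact ⟨a, b + t * a, by rw [map_mul, map_mul, map_inv, hy, hab, d.conj_Up]⟩
  rw [e, hN.mul _ _ h2 h4, d.phi_conj R hE h3 hN hy h1]

theorem phi_ut {r y : Γ} (hr : d.Ru σ r) (hy : d.Rt σ y) : φ ⁅r, y⁆ = 1 := by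
  have e : ⁅r, y⁆ = ⁅y, r⁆⁻¹ := (commutatorElement_inv y r).symm
  rw [e, phi_inv R d hE hN (d.Ru_cm hy (d.Rt_of_Ru hr)), d.phi_tu R hE h3 hN hy hr, inv_one]

theorem f_congr {x y : Γ} {t u v t' u' v' : K} (hx : σ x = d.wW t u v) (hy : σ y = d.wW t' u' v') :
    φ ⁅x, y⁆ = φ ⁅hE.L (d.wW t 0 0), hE.L (d.wW t' 0 0)⁆ := by
  set X := hE.L (d.wW t 0 0) with hX
  set Y := hE.L (d.wW t' 0 0) with hY
  have sX : σ X = d.wW t 0 0 := hE.σL _
  have sY : σ Y = d.wW t' 0 0 := hE.σL _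
  have hw₁ : d.Ru σ (X⁻¹ * x) := by
    refine ⟨u, v, ?_⟩
    rw [map_mul, map_inv, hx, sX, ← d.wW_split t u v, ← mul_assoc, inv_mul_cancel, one_mul]
  have hw₂ : d.Ru σ (Y⁻¹ * y) := by
    refine ⟨u', v', ?_⟩
    rw [map_mul, map_inv, hy, sY, ← d.wW_split t' u' v', ← mul_assoc, inv_mul_cancel, one_mul]
  have rX : d.Rt σ X := ⟨_, _, _, sX⟩
  have rY : d.Rt σ Y := ⟨_, _, _, sY⟩
  have ex : x = X * (X⁻¹ * x) := by group
  have ey : y = Y * (Y⁻¹ * y) := by group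
  have rx : d.Rt σ x := ⟨_, _, _, hx⟩
  have e1 : φ ⁅x, y⁆ = φ ⁅X, y⁆ := by
    conv_lhs => rw [ex]
    rw [d.f_left R hE h3 hN rX (d.Rt_of_Ru hw₁) ⟨_, _, _, hy⟩, d.phi_ut R hE h3 hN hw₁ ⟨_, _, _, hy⟩, mul_one]
  have e2 : φ ⁅X, y⁆ = φ ⁅X, Y⁆ := by
    conv_lhs => rw [ey]
    rw [d.f_right R hE h3 hN rX rY (d.Rt_of_Ru hw₂), d.phi_tu R hE h3 hN rX hw₂, mul_one]
  rw [e1, e2]

theorem phi_tt (a b : K) : φ ⁅hE.L (d.wW a 0 0), hE.L (d.wW b 0 0)⁆ = 1 := by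
  have hr : ∀ a, d.Rt σ (hE.L (d.wW a 0 0)) := fun a => ⟨_, _, _, hE.σL _⟩
  apply PairA.main (q5 R) R.hs (fun a b => φ ⁅hE.L (d.wW a 0 0), hE.L (d.wW b 0 0)⁆)
  · intro a b x
    exact phi_comm R d hE hN (d.Ru_cm (hr a) (hr b)) x
  · intro a a' b
    show φ ⁅hE.L (d.wW (a + a') 0 0), hE.L (d.wW b 0 0)⁆ = φ ⁅hE.L (d.wW a 0 0), hE.L (d.wW b 0 0)⁆ * φ ⁅hE.L (d.wW a' 0 0), hE.L (d.wW b 0 0)⁆
    rw [← d.f_left R hE h3 hN (hr a) (hr a') (hr b)]
    obtain ⟨U, V, e⟩ : ∃ U V, σ (hE.L (d.wW a 0 0) * hE.L (d.wW a' 0 0)) = d.wW (a + a') U V :=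
      ⟨_, _, by rw [map_mul, hE.σL, hE.σL]; exact d.wW_mul _ _ _ _ _ _⟩
    exact (d.f_congr R hE h3 hN e (hE.σL _)).symm
  · intro a b b'
    show φ ⁅hE.L (d.wW a 0 0), hE.L (d.wW (b + b') 0 0)⁆ = φ ⁅hE.L (d.wW a 0 0), hE.L (d.wW b 0 0)⁆ * φ ⁅hE.L (d.wW a 0 0), hE.L (d.wW b' 0 0)⁆
    rw [← d.f_right R hE h3 hN (hr a) (hr b) (hr b')]
    obtain ⟨U, V, e⟩ : ∃ U V, σ (hE.L (d.wW b 0 0) * hE.L (d.wW b' 0 0)) = d.wW (b + b') U V :=
      ⟨_, _, by rw [map_mul, hE.σL, hE.σL]; exact d.wW_mul _ _ _ _ _ _⟩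
    exact (d.f_congr R hE h3 hN (hE.σL _) e).symm
  · intro a
    show φ ⁅hE.L (d.wW a 0 0), hE.L (d.wW a 0 0)⁆ = 1
    rw [commutatorElement_self, phi_one R d hE hN]
  · intro s hs a b
    obtain ⟨y, hy⟩ := d.chi_surj (mul_ne_zero hs hs)
    show φ ⁅hE.L (d.wW (s * s * a) 0 0), hE.L (d.wW (s * s * b) 0 0)⁆ = φ ⁅hE.L (d.wW a 0 0), hE.L (d.wW b 0 0)⁆
    have e : ⁅hE.L (d.wW (s * s * a) 0 0), hE.L (d.wW (s * s * b) 0 0)⁆ =
        hE.L (d.tH R.hs y) * ⁅hE.L (d.wW a 0 0), hE.L (d.wW b 0 0)⁆ * (hE.L (d.tH R.hs y))⁻¹ := by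
      apply hE.cm_conj'
      · simp only [hE.σL]
        rw [d.wW_conj_H R, hy]
        simp
      · simp only [hE.σL]
        rw [d.wW_conj_H R, hy]
        simp
    rw [e]
    exact hN.inv y _ (d.Ru_cm (hr a) (hr b))

theorem phi_all {x y : Γ} (hx : d.Rt σ x) (hy : d.Rt σ y) : φ ⁅x, y⁆ = 1 := by
  obtain ⟨t, u, v, hx⟩ := hx
  obtain ⟨t', u', v', hy⟩ := hy
  rw [d.f_congr R hE h3 hN hx hy]
  exact d.phi_tt R hE h3 hN _ _

end steps

end Dat

namespace PairA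

/-- An alternating form on a group of exponent two invariant under an automorphism of order seven vanishes. -/
theorem seven_add {V M : Type*} [Mul V] [AddCommGroup M] (p : V → V → M)
    (hl : ∀ x x' y, p (x * x') y = p x y + p x' y) (hr : ∀ x y y', p x (y * y') = p x y + p x y')
    (hs : ∀ x, p x x = 0) {a b c : V} (i1 : p (b * c) (a * b) = p a b) (i2 : p (b * c) (a * (b * c)) = p a c)
    (i3 : p (a * b) (a * (b * c)) = p b c) : p a b = 0 ∧ p a c = 0 ∧ p b c = 0 := by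
  have anti : ∀ x y, p y x = - p x y := by
    intro x y
    have h := hs (x * y)
    rw [hl, hr, hr, hs, hs] at h
    have h2 : p x y + p y x = 0 := by simpa using h
    exact eq_neg_of_add_eq_zero_right h2
  rw [hl, hr, hr, hr, hr, hs, hs, anti a b] at i3
  rw [hl, hr, hr, hr, hr, hs, hs, anti a b, anti a c, anti b c] at i2
  rw [hl, hr, hr, hs, anti a b, anti a c, anti b c] at i1
  have hβ : p a c = 0 := by
    have e : 0 + (p a b + p a c) + (-p a b + (0 + p b c)) = p a c + p b c := by abel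
    exact add_eq_right.1 (e.symm.trans i3)
  have hα : p a b = 0 := by
    rw [hβ] at i2
    have e : -p a b + (0 + p b c) + (-0 + (-p b c + 0)) = - p a b := by abel
    exact neg_eq_zero.1 (e.symm.trans i2)
  have hγ : p b c = 0 := by
    rw [hα, hβ] at i1
    have e : -0 + 0 + (-0 + -p b c) = - p b c := by abel
    exact neg_eq_zero.1 (e.symm.trans i1)
  exact ⟨hα, hβ, hγ⟩

theorem seven {V Γ : Type*} [Mul V] [Group Γ] (p : V → V → Γ) (hc : ∀ a b x, p a b * x = x * p a b)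
    (hl : ∀ x x' y, p (x * x') y = p x y * p x' y) (hr : ∀ x y y', p x (y * y') = p x y * p x y')
    (hs : ∀ x, p x x = 1) {a b c : V} (i1 : p (b * c) (a * b) = p a b) (i2 : p (b * c) (a * (b * c)) = p a c)
    (i3 : p (a * b) (a * (b * c)) = p b c) : p a b = 1 ∧ p a c = 1 ∧ p b c = 1 := by
  have hm : ∀ a b, p a b ∈ Subgroup.center Γ := fun a b => Subgroup.mem_center_iff.2 (fun x => (hc a b x).symm)
  letI : CommGroup (Subgroup.center Γ) :=
    { (inferInstance : Group (Subgroup.center Γ)) with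
      mul_comm := fun x y => Subtype.ext (Subgroup.mem_center_iff.1 y.2 x.1) }
  let c' : V → V → Additive (Subgroup.center Γ) := fun a b => Additive.ofMul ⟨p a b, hm a b⟩
  obtain ⟨h1, h2, h3⟩ := seven_add c'
    (fun a a' b => congrArg Additive.ofMul (Subtype.ext (hl a a' b)))
    (fun a b b' => congrArg Additive.ofMul (Subtype.ext (hr a b b')))
    (fun a => congrArg Additive.ofMul (Subtype.ext (hs a)))
    (a := a) (b := b) (c := c)
    (congrArg Additive.ofMul (Subtype.ext i1)) (congrArg Additive.ofMul (Subtype.ext i2)) (congrArg Additive.ofMul (Subtype.ext i3))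
  exact ⟨congrArg Subtype.val (Additive.ofMul.injective h1), congrArg Subtype.val (Additive.ofMul.injective h2),
    congrArg Subtype.val (Additive.ofMul.injective h3)⟩

end PairA

namespace Dat

variable {K : Type*} [Field K] [Fintype K] {m : ℕ}
variable (R : Ree K m) (d : Dat K (3 ^ m))

local notation "G" => Gm K m

section two

variable {Γ : Type*} [Group Γ] {σ : Γ →* Gm K m} (hE : CExt σ)

theorem S0_ind {Q : G → Prop} (h1 : Q 1) (hm : ∀ g h, Q g → Q h → Q (g * h)) (ha : Q d.a₀) (hb : Q d.X2) (hc : Q d.X3)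
    {x : G} (hx : x ∈ d.S0) : Q x := by
  have hV : ∀ y, d.Vq y → Q y := by
    rintro y (rfl | rfl | rfl | rfl)
    · exact h1
    · exact hb
    · exact hc
    · exact hm _ _ hb hc
  rcases d.mem_S0 hx with h | ⟨y, hy, rfl⟩
  · exact hV x h
  · exact hm _ _ ha (hV y hy)

include hE

theorem two_pair {x y : G} (hx : x ∈ d.S0) (hy : y ∈ d.S0) : ⁅hE.L x, hE.L y⁆ = 1 := by
  have hcomm : ∀ u v : d.S0, σ (hE.L u.1) * σ (hE.L v.1) = σ (hE.L v.1) * σ (hE.L u.1) := by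
    intro u v
    rw [hE.σL, hE.σL]
    exact d.S0_comm u.2 v.2
  let a : d.S0 := ⟨d.a₀, d.a_mem⟩
  let b : d.S0 := ⟨d.X2, d.X2_mem⟩
  let c : d.S0 := ⟨d.X3, d.X3_mem⟩
  let p : d.S0 → d.S0 → Γ := fun u v => ⁅hE.L u.1, hE.L v.1⁆
  have hl : ∀ u u' v : d.S0, p (u * u') v = p u v * p u' v := by
    intro u u' v
    show ⁅hE.L (u * u').1, hE.L v.1⁆ = ⁅hE.L u.1, hE.L v.1⁆ * ⁅hE.L u'.1, hE.L v.1⁆
    rw [← hE.cm_left (hcomm u' v)]
    apply hE.cm_eq _ rfl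
    rw [map_mul, hE.σL, hE.σL, hE.σL]
    rfl
  have hr : ∀ u v v' : d.S0, p u (v * v') = p u v * p u v' := by
    intro u v v'
    show ⁅hE.L u.1, hE.L (v * v').1⁆ = ⁅hE.L u.1, hE.L v.1⁆ * ⁅hE.L u.1, hE.L v'.1⁆
    rw [← hE.cm_right (hcomm u v')]
    apply hE.cm_eq rfl
    rw [map_mul, hE.σL, hE.σL, hE.σL]
    rfl
  have hs : ∀ u, p u u = 1 := fun u => commutatorElement_self _
  have hc : ∀ u v x, p u v * x = x * p u v := fun u v x => hE.cm_cen (hcomm u v) x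
  have i1 : p (b * c) (a * b) = p a b := by
    apply hE.cm_conj d.t7
    · simp only [hE.σL]
      rw [d.t7_a]
      rfl
    · simp only [hE.σL]
      rw [d.t7_b]
      rfl
    · exact hcomm a b
  have i2 : p (b * c) (a * (b * c)) = p a c := by
    apply hE.cm_conj d.t7
    · simp only [hE.σL]
      rw [d.t7_a]
      rfl
    · simp only [hE.σL]
      rw [d.t7_c]
      rfl
    · exact hcomm a c
  have i3 : p (a * b) (a * (b * c)) = p b c := by
    apply hE.cm_conj d.t7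
    · simp only [hE.σL]
      rw [d.t7_b]
      rfl
    · simp only [hE.σL]
      rw [d.t7_c]
      rfl
    · exact hcomm b c
  obtain ⟨hab, hac, hbc⟩ := PairA.seven p hc hl hr hs i1 i2 i3
  have anti : ∀ u v, p v u = 1 → p u v = 1 := by
    intro u v h
    have e : p u v = (p v u)⁻¹ := (commutatorElement_inv _ _).symm
    rw [e, h, inv_one]
  -- first argument
  have hQ : ∀ u : G, u ∈ d.S0 → (u ∈ d.S0 ∧ ⁅hE.L u, hE.L d.a₀⁆ = 1 ∧ ⁅hE.L u, hE.L d.X2⁆ = 1 ∧ ⁅hE.L u, hE.L d.X3⁆ = 1) := by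
    intro u hu
    refine d.S0_ind (Q := fun u => u ∈ d.S0 ∧ ⁅hE.L u, hE.L d.a₀⁆ = 1 ∧ ⁅hE.L u, hE.L d.X2⁆ = 1 ∧ ⁅hE.L u, hE.L d.X3⁆ = 1)
      ?_ ?_ ?_ ?_ ?_ hu
    · have h1 : ∀ w : Γ, ⁅hE.L (1 : G), w⁆ = 1 := by
        intro w
        apply commutatorElement_eq_one_iff_mul_comm.2
        exact hE.cen _ (hE.σL 1) w
      exact ⟨one_mem _, h1 _, h1 _, h1 _⟩
    · rintro g h ⟨hg, g1, g2, g3⟩ ⟨hh, h1, h2, h3⟩
      have hgh := Subgroup.mul_mem _ hg hh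
      have key : ∀ w (hw : w ∈ d.S0), ⁅hE.L g, hE.L w⁆ = 1 → ⁅hE.L h, hE.L w⁆ = 1 → ⁅hE.L (g * h), hE.L w⁆ = 1 := by
        intro w hw e1 e2
        have e3 := hl ⟨g, hg⟩ ⟨h, hh⟩ ⟨w, hw⟩
        have e4 : ⁅hE.L (g * h), hE.L w⁆ = ⁅hE.L g, hE.L w⁆ * ⁅hE.L h, hE.L w⁆ := e3
        rw [e4, e1, e2, mul_one]
      exact ⟨hgh, key _ d.a_mem g1 h1, key _ d.X2_mem g2 h2, key _ d.X3_mem g3 h3⟩
    · exact ⟨d.a_mem, hs a, hab, hac⟩
    · exact ⟨d.X2_mem, anti b a hab, hs b, hbc⟩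
    · exact ⟨d.X3_mem, anti c a hac, anti c b hbc, hs c⟩
  -- second argument
  obtain ⟨-, xa, xb, xc⟩ := hQ x hx
  refine (d.S0_ind (Q := fun v => v ∈ d.S0 ∧ ⁅hE.L x, hE.L v⁆ = 1) ?_ ?_ ⟨d.a_mem, xa⟩ ⟨d.X2_mem, xb⟩ ⟨d.X3_mem, xc⟩ hy).2
  · refine ⟨one_mem _, ?_⟩
    apply commutatorElement_eq_one_iff_mul_comm.2
    exact (hE.cen _ (hE.σL 1) _).symm
  · rintro g h ⟨hg, g1⟩ ⟨hh, h1⟩
    refine ⟨Subgroup.mul_mem _ hg hh, ?_⟩
    have e3 := hr ⟨x, hx⟩ ⟨g, hg⟩ ⟨h, hh⟩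
    have e4 : ⁅hE.L x, hE.L (g * h)⁆ = ⁅hE.L x, hE.L g⁆ * ⁅hE.L x, hE.L h⁆ := e3
    rw [e4, g1, h1, mul_one]

end two

include R in
/-- A Sylow `3`-subgroup. -/
theorem exists_sylow_U : ∃ U : Sylow 3 G, ∀ g ∈ (U : Subgroup G), ∃ t u v, g = d.wW t u v := by
  haveI := d.finite_G1
  haveI : Fact (Nat.Prime 3) := ⟨Nat.prime_three⟩
  have hn := R.hK
  have hc : Nat.card ↥(U1 K (3 ^ m)) = (Fintype.card K) ^ 3 := by
    rw [← d.card_U1]
    exact Nat.card_congr (Subgroup.subgroupOfEquivOfLe (inf_le_right)).toEquiv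
  have hp : IsPGroup 3 ↥(U1 K (3 ^ m)) := by
    apply IsPGroup.of_card (n := (2 * m + 1) * 3)
    rw [hc, hn, pow_mul]
  have hq3 : 3 ∣ Fintype.card K := by
    rw [hn]
    exact dvd_pow_self _ (by omega)
  have hq : 0 < Fintype.card K := Fintype.card_pos
  have hi : (U1 K (3 ^ m)).index = (Fintype.card K - 1) * ((Fintype.card K) ^ 3 + 1) := by
    have h1 := Subgroup.card_mul_index (U1 K (3 ^ m))
    have h2 : Nat.card G = (Fintype.card K) ^ 3 * ((Fintype.card K - 1) * ((Fintype.card K) ^ 3 + 1)) := by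
      rw [d.card_G1 R.hs, mul_assoc]
    rw [h2, hc] at h1
    exact Nat.eq_of_mul_eq_mul_left (by positivity) h1
  have hnd : ¬ 3 ∣ (U1 K (3 ^ m)).index := by
    rw [hi, Nat.Prime.dvd_mul Nat.prime_three]
    obtain ⟨r, hr⟩ := hq3
    rintro (h1 | h1)
    · rw [hr] at h1
      omega
    · have h2 : 3 ∣ (Fintype.card K) ^ 3 := dvd_pow (⟨r, hr⟩) (by norm_num)
      omega
  refine ⟨hp.toSylow hnd, ?_⟩
  intro g hg
  have hg' : g ∈ U1 K (3 ^ m) := hg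
  obtain ⟨t, u, v, e⟩ := (d.mem_U1_iff g.1).1 (Subgroup.mem_subgroupOf.1 hg')
  exact ⟨t, u, v, Subtype.ext e⟩

include R d

/-- No stem extension of `²G₂(q)` has kernel of prime order. -/
theorem no_prime_kernel {Γ : Type*} [Group Γ] [Finite Γ] (σ : Γ →* Gm K m) (hσ : Cfsg.IsStemExtension σ) (p : ℕ) (hp : p.Prime) :
    Nat.card σ.ker ≠ p := by
  intro hK
  haveI : Fact p.Prime := ⟨hp⟩
  haveI := d.finite_G1
  have hc : ∀ k, σ k = 1 → ∀ x, k * x = x * k := by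
    intro k hk x
    exact (Subgroup.mem_center_iff.1 (hσ.2.1 hk) x).symm
  have hE : CExt σ := ⟨hσ.1, hc⟩
  have hex : ∃ x : σ.ker, orderOf x = p := exists_prime_orderOf_dvd_card' p (by rw [hK])
  obtain ⟨⟨z, hz⟩, hzo⟩ := hex
  have hzo' : orderOf z = p := (Subgroup.orderOf_mk z hz).symm.trans hzo
  have hz1 : z ≠ 1 := by
    rintro rfl
    rw [orderOf_one] at hzo'
    exact hp.one_lt.ne hzo'
  by_cases hp2 : p = 2
  · subst hp2
    obtain ⟨S₀, hS₀⟩ := d.exists_sylow_S0 R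
    obtain ⟨P, hzP, hPm⟩ := StemSylow.exists_sylow_over hσ.1 S₀ (hσ.2.1 hz) hzo'
    have hcom := StemSylow.ker_mem_commutator hσ P hz hzP
    have hPS : ∀ x ∈ (P : Subgroup Γ), σ x ∈ d.S0 := by
      intro x hx
      have : σ x ∈ (P : Subgroup Γ).map σ := ⟨x, hx, rfl⟩
      rw [hPm, hS₀] at this
      exact this
    have hb := StemSylow.commutator_eq_bot_of_comm (P := (P : Subgroup Γ)) (fun s hs t ht => by
      apply commutatorElement_eq_one_iff_mul_comm.1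
      have e : ⁅s, t⁆ = ⁅hE.L (σ s), hE.L (σ t)⁆ := hE.cm_eq (hE.σL _).symm (hE.σL _).symm
      rw [e]
      exact d.two_pair hE (hPS s hs) (hPS t ht))
    rw [hb, Subgroup.mem_bot] at hcom
    exact hz1 (congrArg Subtype.val hcom)
  by_cases hp3 : p = 3
  · subst hp3
    have h3 : ∀ k, σ k = 1 → k ^ 3 = 1 := by
      intro k hk
      have h4 : (⟨k, hk⟩ : σ.ker) ^ Nat.card σ.ker = 1 := pow_card_eq_one'
      rw [hK] at h4
      exact congrArg Subtype.val h4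
    obtain ⟨U, hU⟩ := d.exists_sylow_U R
    obtain ⟨P, hzP, hPm⟩ := StemSylow.exists_sylow_over hσ.1 U (hσ.2.1 hz) hzo'
    have hcom := StemSylow.ker_mem_commutator hσ P hz hzP
    have hPt : ∀ x ∈ (P : Subgroup Γ), d.Rt σ x := by
      intro x hx
      have : σ x ∈ (P : Subgroup Γ).map σ := ⟨x, hx, rfl⟩
      rw [hPm] at this
      exact hU _ this
    obtain ⟨φ, n1, n2, n3, n4⟩ := d.exists_phi R hE h3
    have hN : NormD R d hE φ := ⟨n1, n2, n3, n4⟩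
    let S : Subgroup Γ :=
      { carrier := {w | d.Ru σ w ∧ φ w = 1}
        mul_mem' := by
          rintro a b ⟨h1, h2⟩ ⟨h4, h5⟩
          exact ⟨d.Ru_mul h1 h4, by rw [n1 _ _ h1 h4, h2, h5, mul_one]⟩
        one_mem' := ⟨d.Ru_one, phi_one R d hE hN⟩
        inv_mem' := by
          rintro a ⟨h1, h2⟩
          exact ⟨d.Ru_inv h1, by rw [phi_inv R d hE hN h1, h2, inv_one]⟩ }
    have hle : commutator ↥(P : Subgroup Γ) ≤ S.comap (P : Subgroup Γ).subtype := by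
      rw [_root_.commutator_def, Subgroup.commutator_le]
      rintro ⟨x, hx⟩ - ⟨y, hy⟩ -
      exact ⟨d.Ru_cm (hPt x hx) (hPt y hy), d.phi_all R hE h3 hN (hPt x hx) (hPt y hy)⟩
    have hzS : z ∈ S := hle hcom
    have h5 : φ z = 1 := hzS.2
    rw [hN.scal z hz] at h5
    apply hz1
    apply cube_sq _ (h3 z hz)
    have hq := R.hK
    obtain ⟨r, hr⟩ : ∃ r, Fintype.card K - 1 = 3 * r + 2 := by
      have h6 : 3 ^ (2 * m + 1) = 3 * 3 ^ (2 * m) := by rw [pow_succ, mul_comm]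
      have h7 : 0 < 3 ^ (2 * m) := by positivity
      refine ⟨3 ^ (2 * m) - 1, ?_⟩
      rw [hq, h6]
      omega
    rw [hr, pow_add, pow_mul, h3 z hz, one_pow, one_mul, pow_two] at h5
    exact h5
  · have hp4 : 3 < p := by
      have := hp.two_le
      omega
    let U : Sylow p (Gm K m) := default
    obtain ⟨P, hzP, hPm⟩ := StemSylow.exists_sylow_over hσ.1 U (hσ.2.1 hz) hzo'
    have hcyc : IsCyclic ((P : Subgroup Γ).map σ) := by
      rw [hPm]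
      exact d.sylow_cyc R hp4 U
    exact hz1 (StemSylow.crit_cyclic hσ P hcyc hz hzP)

end Dat

/-- S2113: The Schur multiplier of `²G₂(q)`, `q = 3^(2m+1)`, `m ≥ 1`, is trivial. -/
theorem main_S2113 {K : Type*} [Field K] [Fintype K] {m : ℕ} (hm : 1 ≤ m) (hK : Fintype.card K = 3 ^ (2 * m + 1)) :
    Cfsg.HasCyclicSchurMultiplier ↥(twistedG2 K (3 ^ m)) 1 := by
  have R : Ree K m := ⟨hm, hK⟩
  obtain ⟨d⟩ := exists_dat hK
  haveI := d.finite_G1
  apply SchurBasic.hasCyclicSchurMultiplier_one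
  intro Γ _ _ σ hσ
  exact SzTorus.ker_bot_of_prime (fun Γ _ _ σ hσ p hp => d.no_prime_kernel R σ hσ p hp) _ Γ σ rfl hσ

end Cfsg.Agent.Lib.Chev.TwG2
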